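import Mathlib

/-!
An abelian `p`-subgroup equal to its own normalizer is a Sylow subgroup with a normal complement.
-/

set_option autoImplicit false
set_option linter.unusedSectionVars false

namespace Cfsg.Agent.H5.C7

open Subgroup

theorem selfnormalizing_complement {K : Type*} [Group K] [Finite K] {p : ℕ} [Fact p.Prime] (U : Subgroup K)
    (hU : IsPGroup p U) (hc : ∀ a ∈ U, ∀ b ∈ U, a * b = b * a)
    (hN : ∀ y : K, (∀ u ∈ U, y * u * y⁻¹ ∈ U) → y ∈ U) :
    ∃ O : Subgroup K, O.Normal ∧ (¬ p ∣ Nat.card O) ∧ (∀ y : K, ∃ o ∈ O, ∃ u ∈ U, y = o * u) ∧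
      (∀ x ∈ O, x ∈ U → x = 1) ∧
      ∀ Q : Subgroup K, IsPGroup p Q → ∀ a ∈ Q, ∀ b ∈ Q, a * b = b * a := by
  classical
  obtain ⟨S, hS⟩ := hU.exists_le_sylow
  have hSU : (S : Subgroup K) = U := by
    refine le_antisymm ?_ hS
    have : Group.IsNilpotent (S : Subgroup K) := S.isPGroup'.isNilpotent
    by_contra hle
    have hne : U.subgroupOf (S : Subgroup K) ≠ ⊤ := fun h => hle (subgroupOf_eq_top.1 h)
    obtain ⟨x, hx, hxn⟩ := SetLike.exists_of_lt
      (Group.normalizerCondition_of_isNilpotent _ (lt_top_iff_ne_top.2 hne))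
    refine hxn (hN (x : K) fun u hu => ?_)
    exact mem_subgroupOf.1 (((mem_normalizer_iff.1 hx) ⟨u, hS hu⟩).1 (mem_subgroupOf.2 hu))
  have hP : normalizer (S : Set K) ≤ centralizer (S : Set K) := by
    intro y hy
    have hyU : y ∈ U := hN y fun u hu => by
      have := ((mem_normalizer_iff (H := (S : Subgroup K))).1 hy u).1 (by rw [hSU]; exact hu)
      rwa [hSU] at this
    intro u hu
    exact hc u (hSU ▸ hu) y hyU
  refine ⟨(MonoidHom.transferSylow S hP).ker, inferInstance, MonoidHom.not_dvd_card_ker_transferSylow S hP,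
    fun y => ?_, fun x hx hxU => ?_, fun Q hQ a ha b hb => ?_⟩
  · obtain ⟨⟨⟨o, ho⟩, ⟨u, hu⟩⟩, he⟩ := (MonoidHom.ker_transferSylow_isComplement' S hP).surjective y
    exact ⟨o, ho, u, hSU ▸ hu, he.symm⟩
  · exact (Subgroup.disjoint_def.1 (MonoidHom.ker_transferSylow_disjoint S hP U hU)) hx hxU
  · obtain ⟨S', hS'⟩ := hQ.exists_le_sylow
    obtain ⟨g, hg⟩ := MulAction.exists_smul_eq K S S'
    have key : ∀ z ∈ Q, g⁻¹ * z * g ∈ U := by
      intro z hz
      have h1 := hS' hz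
      rw [← hg] at h1
      obtain ⟨w, hw, rfl⟩ := h1
      rw [hSU] at hw
      simpa [MulAut.conj, mul_assoc] using hw
    have := hc _ (key a ha) _ (key b hb)
    have h2 : g⁻¹ * (a * b) * g = g⁻¹ * (b * a) * g := by
      calc g⁻¹ * (a * b) * g = (g⁻¹ * a * g) * (g⁻¹ * b * g) := by group
        _ = (g⁻¹ * b * g) * (g⁻¹ * a * g) := this
        _ = g⁻¹ * (b * a) * g := by group
    exact mul_left_cancel (mul_right_cancel h2)

end Cfsg.Agent.H5.C7
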