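import Mathlib

/-!
Two elements of square zero in an algebra: the central element `A * B + B * A`, an idempotent power of it,
and the behaviour of elements of order prime to the characteristic in the subalgebra they generate.
-/

set_option autoImplicit false
set_option linter.unusedSectionVars false

namespace Cfsg.Agent.H5.C7

section Idem

/-- Every element of a finite monoid has a positive power which is idempotent. -/
theorem exists_pow_idem {M : Type*} [Monoid M] [Finite M] (x : M) : ∃ N, 0 < N ∧ x ^ N * x ^ N = x ^ N := by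
  obtain ⟨i, j, hne, he⟩ := Finite.exists_ne_map_eq_of_infinite (fun n : ℕ => x ^ n)
  wlog hij : i < j generalizing i j
  · exact this j i hne.symm he.symm (by omega)
  have step : ∀ n, i ≤ n → x ^ (n + (j - i)) = x ^ n := by
    intro n hn
    have e1 : n + (j - i) = j + (n - i) := by omega
    have e2 : n = i + (n - i) := by omega
    rw [e1, pow_add, ← he, ← pow_add, ← e2]
  have step' : ∀ m n, i ≤ n → x ^ (n + m * (j - i)) = x ^ n := by
    intro m
    induction m with
    | zero => intro n _; simp
    | succ m ih =>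
      intro n hn
      rw [Nat.succ_mul, ← Nat.add_assoc, step _ (by omega), ih n hn]
  refine ⟨(i + 1) * (j - i), Nat.mul_pos (by omega) (by omega), ?_⟩
  rw [← pow_add]
  refine step' (i + 1) _ ?_
  calc i ≤ (i + 1) * 1 := by omega
    _ ≤ (i + 1) * (j - i) := Nat.mul_le_mul_left _ (by omega)

end Idem

variable {F : Type*} [Field F] {R : Type*} [Ring R] [Algebra F R] {A B : R}

/-- The central element of the algebra generated by two elements of square zero. -/
def Th (A B : R) : R := A * B + B * A

theorem Th_comm_left (hA : A * A = 0) : Commute (Th A B) A := by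
  change Th A B * A = A * Th A B
  rw [Th, add_mul, mul_add, mul_assoc B A A, hA, mul_zero, add_zero, ← mul_assoc A A B, hA, zero_mul,
    zero_add, mul_assoc]

theorem Th_comm_right (hB : B * B = 0) : Commute (Th A B) B := by
  change Th A B * B = B * Th A B
  rw [Th, add_mul, mul_add, mul_assoc A B B, hB, mul_zero, zero_add, ← mul_assoc B B A, hB, zero_mul,
    add_zero, mul_assoc]

/-- The shape of the elements of the algebra generated by `A` and `B`. -/
def Sh (F : Type*) [Field F] [Algebra F R] (A B g : R) : Prop :=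
  ∃ (a b c d : F) (f : R), Commute f (Th A B) ∧
    g = 1 + (a • A + b • B + c • (A * B) + d • (B * A)) + Th A B * f

theorem Sh.one : Sh F A B (1 : R) := ⟨0, 0, 0, 0, 0, Commute.zero_left _, by simp⟩

theorem Sh.left (c : F) : Sh F A B (1 + c • A) := ⟨c, 0, 0, 0, 0, Commute.zero_left _, by simp⟩

theorem Sh.right (c : F) : Sh F A B (1 + c • B) := ⟨0, c, 0, 0, 0, Commute.zero_left _, by simp⟩

theorem word_comm (hA : A * A = 0) (hB : B * B = 0) (a b c d : F) :
    Commute (Th A B) (a • A + b • B + c • (A * B) + d • (B * A)) :=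
  ((((Th_comm_left hA).smul_right a).add_right ((Th_comm_right hB).smul_right b)).add_right
    (((Th_comm_left hA).mul_right (Th_comm_right hB)).smul_right c)).add_right
    (((Th_comm_right hB).mul_right (Th_comm_left hA)).smul_right d)

theorem Sh.comm (hA : A * A = 0) (hB : B * B = 0) {g : R} (h : Sh F A B g) : Commute (Th A B) g := by
  obtain ⟨a, b, c, d, f, hf, rfl⟩ := h
  exact ((Commute.one_right _).add_right (word_comm hA hB a b c d)).add_right
    ((Commute.refl _).mul_right hf.symm)

/-- Products of two linear combinations of `A`, `B`, `A * B`, `B * A`. -/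
theorem word_mul (hA : A * A = 0) (hB : B * B = 0) (a b c d a' b' c' d' : F) :
    (a • A + b • B + c • (A * B) + d • (B * A)) * (a' • A + b' • B + c' • (A * B) + d' • (B * A)) =
      (a * b') • (A * B) + (b * a') • (B * A) + Th A B *
        ((a * d' + c * a') • A + (b * c' + d * b') • B + (c * c') • (A * B) + (d * d') • (B * A)) := by
  have z1 : ∀ y : R, A * (A * y) = 0 := fun y => by rw [← mul_assoc, hA, zero_mul]
  have z2 : ∀ y : R, B * (B * y) = 0 := fun y => by rw [← mul_assoc, hB, zero_mul]
  simp only [Th, add_mul, mul_add, smul_mul_assoc, mul_smul_comm, mul_assoc, hA, hB, z1, z2, mul_zero,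
    smul_zero, add_zero, zero_add, smul_smul, smul_add, add_smul]
  module

theorem Sh.mul (hA : A * A = 0) (hB : B * B = 0) {g g' : R} (h : Sh F A B g) (h' : Sh F A B g') :
    Sh F A B (g * g') := by
  obtain ⟨a, b, c, d, f, hf, rfl⟩ := h
  obtain ⟨a', b', c', d', f', hf', rfl⟩ := h'
  set T := Th A B with hT
  set n := a • A + b • B + c • (A * B) + d • (B * A) with hn
  set n' := a' • A + b' • B + c' • (A * B) + d' • (B * A) with hn'
  have c1 : Commute T n := word_comm hA hB a b c d
  have c2 : Commute T n' := word_comm hA hB a' b' c' d'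
  have c3 : Commute T ((a * d' + c * a') • A + (b * c' + d * b') • B + (c * c') • (A * B) + (d * d') • (B * A)) :=
    word_comm hA hB _ _ _ _
  refine ⟨a + a', b + b', c + c' + a * b', d + d' + b * a',
    f + f' + ((a * d' + c * a') • A + (b * c' + d * b') • B + (c * c') • (A * B) + (d * d') • (B * A)) +
      n * f' + f * n' + T * (f * f'), ?_, ?_⟩
  · exact (((((hf.add_left hf').add_left c3.symm).add_left (c1.symm.mul_left hf')).add_left
      (hf.mul_left c2.symm)).add_left ((Commute.refl T).mul_left (hf.mul_left hf')))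
  · have e1 : n * (T * f') = T * (n * f') := by rw [← mul_assoc, ← c1.eq, mul_assoc]
    have e2 : T * f * n' = T * (f * n') := mul_assoc _ _ _
    have e3 : T * f * (T * f') = T * (T * (f * f')) := by
      rw [mul_assoc T f, ← mul_assoc f T, hf.eq, mul_assoc T f]
    have e4 : n * n' = _ := word_mul hA hB a b c d a' b' c' d'
    have e5 : (a + a') • A + (b + b') • B + (c + c' + a * b') • (A * B) + (d + d' + b * a') • (B * A) =
        n + n' + (a * b') • (A * B) + (b * a') • (B * A) := by
      rw [hn, hn']; simp only [add_smul]; abel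
    have e6 : (1 + n + T * f) * (1 + n' + T * f') =
        1 + n + n' + T * f + T * f' + n * n' + n * (T * f') + T * f * n' + T * f * (T * f') := by
      simp only [mul_add, add_mul, one_mul, mul_one]; abel
    rw [e6, e1, e2, e3, e4, e5]
    simp only [mul_add]
    abel

/-- The square of `g - 1` is divisible by the central element. -/
theorem Sh.sq (hA : A * A = 0) (hB : B * B = 0) {g : R} (h : Sh F A B g) :
    ∃ f : R, Commute f (Th A B) ∧ (g - 1) * (g - 1) = Th A B * f := by
  obtain ⟨a, b, c, d, f, hf, rfl⟩ := h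
  set T := Th A B with hT
  set n := a • A + b • B + c • (A * B) + d • (B * A) with hn
  set n2 := (a * d + c * a) • A + (b * c + d * b) • B + (c * c) • (A * B) + (d * d) • (B * A) with hn2
  have c1 : Commute T n := word_comm hA hB a b c d
  refine ⟨(a * b) • (1 : R) + n2 + n * f + f * n + T * (f * f), ?_, ?_⟩
  · exact (((((Commute.one_left T).smul_left _).add_left (word_comm hA hB _ _ _ _).symm).add_left
      (c1.symm.mul_left hf)).add_left (hf.mul_left c1.symm)).add_left
      ((Commute.refl T).mul_left (hf.mul_left hf))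
  · have e0 : (1 : R) + n + T * f - 1 = n + T * f := by abel
    have e1 : n * (T * f) = T * (n * f) := by rw [← mul_assoc, ← c1.eq, mul_assoc]
    have e2 : T * f * n = T * (f * n) := mul_assoc _ _ _
    have e3 : T * f * (T * f) = T * (T * (f * f)) := by
      rw [mul_assoc T f, ← mul_assoc f T, hf.eq, mul_assoc T f]
    have e4 : n * n = _ := word_mul hA hB a b c d a b c d
    have e5 : (a * b) • (A * B) + (b * a) • (B * A) = T * ((a * b) • (1 : R)) := by
      rw [mul_smul_comm, mul_one, hT, Th, smul_add, mul_comm b a]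
    rw [e0]
    simp only [mul_add, add_mul, e1, e2, e3, e4]
    rw [e5, hn2]
    simp only [mul_add]
    abel

/-- The idempotent power written through `A` and `B`. -/
theorem pow_eq_split {N : ℕ} (hN : 0 < N) :
    Th A B ^ N = A * (B * Th A B ^ (N - 1)) + B * (A * Th A B ^ (N - 1)) := by
  obtain ⟨M, rfl⟩ : ∃ M, N = M + 1 := ⟨N - 1, by omega⟩
  rw [pow_succ', Nat.add_sub_cancel]
  conv_lhs => rw [Th, add_mul, mul_assoc, mul_assoc]
  rfl

/-- Elements of order prime to the characteristic are trivial off the idempotent. -/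
theorem Sh.triv_of_pow (hA : A * A = 0) (hB : B * B = 0) (p : ℕ) [Fact p.Prime] [CharP R p] {N : ℕ}
    (hN : 0 < N) (hid : Th A B ^ N * Th A B ^ N = Th A B ^ N) {g : R} (h : Sh F A B g) {n : ℕ}
    (hn : g ^ n = 1) (hpn : n.Coprime p) : (g - 1) * (1 - Th A B ^ N) = 0 := by
  set T := Th A B with hT
  set e' := 1 - T ^ N with he'
  have hce : Commute e' g := (Commute.one_left g).sub_left ((h.comm hA hB).pow_left N)
  have hid' : e' * e' = e' := by
    rw [he', mul_sub, sub_mul, sub_mul, one_mul, mul_one, hid]; simp
  have hidn : ∀ k : ℕ, 0 < k → e' ^ k = e' := by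
    intro k hk
    exact IsIdempotentElem.pow_eq hid' (by omega)
  set y := 1 + (g - 1) * e' with hy
  have hce1 : Commute (g - 1) e' := hce.symm.sub_left (Commute.one_left _)
  have key : ∀ k : ℕ, y ^ k = 1 + (g ^ k - 1) * e' := by
    intro k
    induction k with
    | zero => simp
    | succ k ih =>
      rw [pow_succ, ih, hy, pow_succ]
      have : (g ^ k - 1) * e' * ((g - 1) * e') = (g ^ k - 1) * (g - 1) * e' := by
        rw [mul_assoc, ← mul_assoc e', ← hce1.eq, mul_assoc (g - 1), hid', ← mul_assoc]
      simp only [mul_add, add_mul, one_mul, mul_one, this]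
      rw [add_assoc, ← add_mul, ← add_mul]
      congr 1
      congr 1
      noncomm_ring
  have hyn : y ^ n = 1 := by rw [key, hn, sub_self, zero_mul, add_zero]
  obtain ⟨f, hf, hsq⟩ := h.sq hA hB
  have hp : p.Prime := Fact.out
  obtain ⟨r, hr⟩ : ∃ r, 2 * N ≤ p ^ r := ⟨2 * N, (Nat.lt_pow_self hp.one_lt).le⟩
  have hz : (g - 1) ^ (2 * N) * e' = 0 := by
    rw [pow_mul, pow_two, hsq, hf.symm.mul_pow, mul_assoc]
    have : f ^ N * e' = e' * f ^ N :=
      ((Commute.one_left _).sub_left ((hf.symm.pow_pow N N))).eq.symm
    rw [this, ← mul_assoc, he', mul_sub, mul_one, hid, sub_self, zero_mul]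
  have hy0 : y ^ p ^ r = 1 := by
    have h1 : (1 + (g - 1) * e') ^ p ^ r = 1 ^ p ^ r + ((g - 1) * e') ^ p ^ r :=
      add_pow_char_pow_of_commute p r (Commute.one_left _)
    rw [hy, h1, one_pow]
    have h2 : ((g - 1) * e') ^ p ^ r = 0 := by
      rw [hce1.mul_pow, hidn _ (pow_pos hp.pos r), ← Nat.add_sub_cancel' hr, pow_add, mul_assoc]
      have : (g - 1) ^ (p ^ r - 2 * N) * e' = e' * (g - 1) ^ (p ^ r - 2 * N) := (hce1.pow_left _).eq
      rw [this, ← mul_assoc, hz, zero_mul]
    rw [h2, add_zero]
  have hy1 : y = 1 := by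
    have := pow_gcd_eq_one.2 ⟨hy0, hyn⟩
    rwa [Nat.Coprime.gcd_eq_one ((Nat.Coprime.pow_left r hpn.symm)), pow_one] at this
  simpa [hy] using hy1

/-- If a product of shape `1 + ...` with invertible square part is unipotent then the central element is nilpotent. -/
theorem nilpotent_of_pair (hA : A * A = 0) (hB : B * B = 0) {k : ℕ}
    (h : ((1 + A) * (1 + B) - 1) ^ k = 0) : IsNilpotent (Th A B) := by
  set T := Th A B with hT
  set g := (1 + A) * (1 + B) with hg
  have e1 : (g - 1) * (g - 1) = T * g := by
    have z1 : ∀ y : R, A * (A * y) = 0 := fun y => by rw [← mul_assoc, hA, zero_mul]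
    have z2 : ∀ y : R, B * (B * y) = 0 := fun y => by rw [← mul_assoc, hB, zero_mul]
    have : g - 1 = A + B + A * B := by rw [hg]; noncomm_ring
    rw [this, hg, hT, Th]
    simp only [mul_add, add_mul, one_mul, mul_one, mul_assoc, hA, hB, z1, z2, mul_zero, add_zero, zero_add]
    abel
  have c : Commute T g := ((Commute.one_right _).add_right (Th_comm_left hA)).mul_right
    ((Commute.one_right _).add_right (Th_comm_right hB))
  have hu : IsUnit g := by
    have u1 : IsUnit (1 + A) := IsNilpotent.isUnit_one_add ⟨2, by rw [pow_two, hA]⟩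
    have u2 : IsUnit (1 + B) := IsNilpotent.isUnit_one_add ⟨2, by rw [pow_two, hB]⟩
    exact u1.mul u2
  refine ⟨k, ?_⟩
  have h2 : T ^ k * g ^ k = 0 := by
    rw [← c.mul_pow, ← e1, ← pow_two, ← pow_mul, mul_comm, pow_mul, h, zero_pow (by norm_num)]
  exact (hu.pow k).mul_left_eq_zero.1 h2

end Cfsg.Agent.H5.C7
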