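import Cfsg.Agent.H99.Tensor.Normalise

/-!
Groups containing the special linear group of the right tensor factor in which all layers are scalar:
elements mapping a layer to a layer, or with a vanishing contraction, are pure tensors.
No condition is imposed on the left factor or on determinants.
-/

set_option autoImplicit false
set_option linter.unusedSectionVars false

namespace Cfsg.Agent.H5.C7

open Matrix Cfsg.Agent.H99.Tensor
open scoped Kronecker

variable {F : Type*} [Field F] {α : Type} [Fintype α] [DecidableEq α] {b : ℕ}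
variable {M : Subgroup (GL (α × Fin b) F)}

local notation "Ix" => α × Fin b

/-- `M` contains the special linear group of the right factor. -/
structure RF (M : Subgroup (GL (α × Fin b) F)) : Prop where
  right : ∀ h : Matrix (Fin b) (Fin b) F, h.det = 1 → InM M ((1 : Matrix α α F) ⊗ₖ h)
  three : 3 ≤ b

theorem RF.right_factor (H : RF M) (h : Matrix (Fin b) (Fin b) F) (hd : h.det = 1) :
    InM M ((1 : Matrix α α F) ⊗ₖ h) :=
  H.right h hd

theorem RF.root (H : RF M) {v ψ : Fin b → F} (h : ψ ⬝ᵥ v = 0) :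
    InM M (1 + (lft α v) * rgt α ψ) := by
  rw [one_add_kron]
  exact H.right_factor _ (H64.SLIndex.tv v ψ h).2

theorem RF.mem_layer (H : RF M) {v φ : Fin b → F} {G : Matrix α α F} (hv : v ≠ 0) (hφ : φ ≠ 0)
    (h : φ ⬝ᵥ v = 0) (hG : InM M (1 + G ⊗ₖ vecMulVec v φ)) : G ∈ layer M := by
  intro w ψ h'
  by_cases hw : w = 0
  · rw [hw, zero_vecMulVec, Matrix.kronecker_zero, add_zero]; exact InM.one
  by_cases hψ : ψ = 0
  · rw [hψ, vecMulVec_zero, Matrix.kronecker_zero, add_zero]; exact InM.one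
  obtain ⟨g, hg⟩ := H64.SLIndex.exists_conj_tv H.three hv hφ hw hψ h h'
  have e := congrArg (fun z : Matrix.SpecialLinearGroup (Fin b) F => (z : Matrix (Fin b) (Fin b) F)) hg
  simp only [Matrix.SpecialLinearGroup.coe_mul, H64.SLIndex.tv_coe, mul_add, mul_one, add_mul] at e
  have hgg : ((g : Matrix (Fin b) (Fin b) F)) * ((g⁻¹ : Matrix.SpecialLinearGroup (Fin b) F) : Matrix (Fin b) (Fin b) F) = 1 := by
    rw [← Matrix.SpecialLinearGroup.coe_mul, mul_inv_cancel, Matrix.SpecialLinearGroup.coe_one]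
  rw [hgg] at e
  have e' := add_left_cancel e
  have := hG.conj (H.right_factor _ g.2)
    (Q := (1 : Matrix α α F) ⊗ₖ ((g⁻¹ : Matrix.SpecialLinearGroup (Fin b) F) : Matrix (Fin b) (Fin b) F))
    (by rw [← Matrix.mul_kronecker_mul, hgg, Matrix.one_mul, Matrix.one_kronecker_one])
  rwa [← Matrix.mul_kronecker_mul, ← Matrix.mul_kronecker_mul, Matrix.one_mul, Matrix.mul_one, e'] at this


/-- Elements of `M` fixing a quotient layer come from the second factor. -/
theorem RF.centre_std (H : RF M) (hgood : Good M) {v : Fin b → F} (hv : v ≠ 0) {K : Matrix α Ix F}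
    (hK : K * (lft α v) = 0) (hM : InM M (1 + lft α v * K)) : ∃ ψ : Fin b → F, K = rgt α ψ := by
  refine eq_rgt K fun u => ?_
  obtain ⟨η, hη, hηv, hηu⟩ := exists_annihilator (F := F) (by rw [Fintype.card_fin]; exact H.three) v u
  set A := (lft α v) * K with hA
  set R := (lft α u) * rgt α η with hR
  have hA2 : A * A = 0 := by
    rw [hA, Matrix.mul_assoc (lft α v) K, ← Matrix.mul_assoc K, hK, Matrix.zero_mul, Matrix.mul_zero]
  have hR2 : R * R = 0 := by
    rw [hR, Matrix.mul_assoc (lft α u) (rgt α η), ← Matrix.mul_assoc (rgt α η), rgt_mul_lft, hηu, zero_smul,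
      Matrix.zero_mul, Matrix.mul_zero]
  have hRA : R * A = 0 := by
    rw [hR, hA, Matrix.mul_assoc (lft α u) (rgt α η), ← Matrix.mul_assoc (rgt α η), rgt_mul_lft, hηv, zero_smul,
      Matrix.zero_mul, Matrix.mul_zero]
  have h1 := hM.comm (H.root hηu) hA2 hR2 hRA
  refine hgood v η (K * lft α u) hv hη hηv ?_
  rw [← lft_mid_rgt]
  convert h1 using 2
  simp [hA, hR, Matrix.mul_assoc]

/-- Elements of `M` fixing a sublayer come from the second factor. -/
theorem RF.axis_std (H : RF M) (hgood : Good M) {φ : Fin b → F} (hφ : φ ≠ 0) {J : Matrix Ix α F}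
    (hJ : (rgt α φ) * J = 0) (hM : InM M (1 + J * rgt α φ)) : ∃ u : Fin b → F, J = lft α u := by
  refine eq_lft J fun η => ?_
  obtain ⟨w, hw, hφw, hηw⟩ := exists_common_zero (F := F) (by rw [Fintype.card_fin]; exact H.three) φ η
  set A := J * (rgt α φ) with hA
  set R := (lft α w) * rgt α η with hR
  have hA2 : A * A = 0 := by
    rw [hA, Matrix.mul_assoc J (rgt α φ), ← Matrix.mul_assoc (rgt α φ), hJ, Matrix.zero_mul, Matrix.mul_zero]
  have hR2 : R * R = 0 := by
    rw [hR, Matrix.mul_assoc (lft α w) (rgt α η), ← Matrix.mul_assoc (rgt α η), rgt_mul_lft, hηw, zero_smul,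
      Matrix.zero_mul, Matrix.mul_zero]
  have hAR : A * R = 0 := by
    rw [hR, hA, Matrix.mul_assoc J (rgt α φ), ← Matrix.mul_assoc (rgt α φ), rgt_mul_lft, hφw, zero_smul,
      Matrix.zero_mul, Matrix.mul_zero]
  have h1 := (H.root hηw).comm hM hR2 hA2 hAR
  refine hgood w φ (rgt α η * J) hw hφ hφw ?_
  rw [← lft_mid_rgt]
  convert h1 using 2
  simp [hA, hR, Matrix.mul_assoc]


/-- An element mapping a layer to a layer maps the quotient layers to quotient layers. -/
theorem RF.pull (H : RF M) (hgood : Good M) {v : Fin b → F} (hv : v ≠ 0) {X X' : Matrix Ix Ix F}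
    (hX : InM M X) (hXX : X * X' = 1) {h h' : Matrix α α F} (hh : X * lft α v = lft α v * h) (hhh : h * h' = 1)
    {ψ : Fin b → F} (hψ : ψ ⬝ᵥ v = 0) : ∃ σ : Fin b → F, h * rgt α ψ = rgt α σ * X := by
  have hXX' : X' * X = 1 := mul_eq_one_comm.1 hXX
  have hinv : X' * lft α v = lft α v * h' := by
    calc X' * lft α v = X' * (lft α v * (h * h')) := by rw [hhh, Matrix.mul_one]
      _ = (X' * X) * (lft α v * h') := by rw [← Matrix.mul_assoc (lft α v), ← hh]; simp [Matrix.mul_assoc]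
      _ = lft α v * h' := by rw [hXX', Matrix.one_mul]
  have hK : h * rgt α ψ * X' * lft α v = 0 := by
    rw [Matrix.mul_assoc, hinv, ← Matrix.mul_assoc, Matrix.mul_assoc h, rgt_mul_lft, hψ, zero_smul,
      Matrix.mul_zero, Matrix.zero_mul]
  have h1 := (H.root hψ).conj hX hXX
  rw [← Matrix.mul_assoc X, hh, Matrix.mul_assoc (lft α v) h, Matrix.mul_assoc (lft α v),
    ] at h1
  obtain ⟨σ, hσ⟩ := H.centre_std hgood hv hK h1
  refine ⟨σ, ?_⟩
  rw [← hσ, Matrix.mul_assoc, hXX', Matrix.mul_one]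

/-- An element mapping a layer to itself is a pure tensor. -/
theorem RF.pure_of_fix [Nonempty α] (H : RF M) (hgood : Good M) {v : Fin b → F} (hv : v ≠ 0)
    {X X' : Matrix Ix Ix F} (hX : InM M X) (hXX : X * X' = 1) {h h' : Matrix α α F}
    (hh : X * lft α v = lft α v * h) (hhh : h * h' = 1) : IsPure X := by
  classical
  have hXX' : X' * X = 1 := mul_eq_one_comm.1 hXX
  have hhh' : h' * h = 1 := mul_eq_one_comm.1 hhh
  have hh' : X' * lft α v = lft α v * h' := by
    calc X' * lft α v = X' * (lft α v * (h * h')) := by rw [hhh, Matrix.mul_one]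
      _ = (X' * X) * (lft α v * h') := by rw [← Matrix.mul_assoc (lft α v), ← hh]; simp [Matrix.mul_assoc]
      _ = lft α v * h' := by rw [hXX', Matrix.one_mul]
  have hex : ∀ η : Fin b → F, η ⬝ᵥ v = 0 → ∃ ψ : Fin b → F, rgt α η * X = h * rgt α ψ := by
    intro η hη
    obtain ⟨σ, hσ⟩ := H.pull hgood hv (hX.inv hXX) hXX' hh' hhh' hη
    refine ⟨σ, ?_⟩
    calc rgt α η * X = h * (h' * rgt α η) * X := by rw [← Matrix.mul_assoc h, hhh, Matrix.one_mul]
      _ = h * rgt α σ := by rw [hσ, Matrix.mul_assoc, Matrix.mul_assoc (rgt α σ), hXX', Matrix.mul_one]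
  choose f hf using hex
  have hinjh : ∀ {ψ ψ' : Fin b → F}, h * rgt α ψ = h * rgt α ψ' → ψ = ψ' := by
    intro ψ ψ' e
    refine rgt_eq_iff (α := α) ?_
    have := congrArg (h' * ·) e
    simpa [← Matrix.mul_assoc, hhh'] using this
  have hfv : ∀ η (hη : η ⬝ᵥ v = 0), f η hη ⬝ᵥ v = 0 := by
    intro η hη
    have := congrArg (· * lft α v) (hf η hη)
    simp only [Matrix.mul_assoc, hh, rgt_mul_lft] at this
    rw [← Matrix.mul_assoc, rgt_mul_lft, hη, zero_smul, Matrix.zero_mul] at this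
    by_contra hne
    obtain ⟨i⟩ := ‹Nonempty α›
    have h0 := congrArg (h' * ·) this
    simp only [Matrix.mul_zero, ← Matrix.mul_assoc, hhh', Matrix.one_mul] at h0
    exact hne (by simpa using (congrFun (congrFun h0 i) i).symm)
  obtain ⟨η0, hη0⟩ := exists_dual hv
  have hpr : ∀ η : Fin b → F, (η - (η ⬝ᵥ v) • η0) ⬝ᵥ v = 0 := fun η => by
    simp [sub_dotProduct, smul_dotProduct, hη0]
  have hlin : ∀ η η' (h1 : η ⬝ᵥ v = 0) (h2 : η' ⬝ᵥ v = 0) (h3 : (η + η') ⬝ᵥ v = 0),
      f (η + η') h3 = f η h1 + f η' h2 := fun η η' h1 h2 h3 =>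
    hinjh (by rw [← hf, rgt_add, rgt_add, Matrix.add_mul, Matrix.mul_add, hf, hf])
  have hsm : ∀ (c : F) η (h1 : η ⬝ᵥ v = 0) (h3 : (c • η) ⬝ᵥ v = 0), f (c • η) h3 = c • f η h1 :=
    fun c η h1 h3 => hinjh (by rw [← hf, rgt_smul, rgt_smul, Matrix.smul_mul, Matrix.mul_smul, hf])
  have hcongr : ∀ η η' (h1 : η ⬝ᵥ v = 0) (h2 : η' ⬝ᵥ v = 0), η = η' → f η h1 = f η' h2 := by
    rintro η _ h1 h2 rfl; rfl
  let T : (Fin b → F) →ₗ[F] (Fin b → F) :=
    { toFun := fun η => f _ (hpr η) + (η ⬝ᵥ v) • η0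
      map_add' := fun η η' => by
        have e : η + η' - ((η + η') ⬝ᵥ v) • η0 = (η - (η ⬝ᵥ v) • η0) + (η' - (η' ⬝ᵥ v) • η0) := by
          rw [add_dotProduct, add_smul]; abel
        rw [hcongr _ _ (hpr _) (by rw [add_dotProduct, hpr, hpr, add_zero]) e, hlin _ _ (hpr η) (hpr η'),
          add_dotProduct, add_smul]
        abel
      map_smul' := fun c η => by
        have e : c • η - ((c • η) ⬝ᵥ v) • η0 = c • (η - (η ⬝ᵥ v) • η0) := by
          rw [smul_dotProduct, smul_sub, smul_smul, smul_eq_mul]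
        rw [hcongr _ _ (hpr _) (by rw [smul_dotProduct, hpr, smul_zero]) e, hsm _ _ (hpr η),
          smul_dotProduct, RingHom.id_apply, smul_add, smul_smul, smul_eq_mul] }
  have hT0 : ∀ η, η ⬝ᵥ v = 0 → rgt α η * X = h * rgt α (T η) := by
    intro η hη
    have e : η - (η ⬝ᵥ v) • η0 = η := by rw [hη, zero_smul, sub_zero]
    change _ = h * rgt α (f _ (hpr η) + (η ⬝ᵥ v) • η0)
    rw [hcongr _ _ (hpr η) hη e, hη, zero_smul, add_zero, hf]
  have hTv : ∀ η, T η ⬝ᵥ v = η ⬝ᵥ v := fun η => by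
    change (f _ (hpr η) + (η ⬝ᵥ v) • η0) ⬝ᵥ v = _
    rw [add_dotProduct, hfv, zero_add, smul_dotProduct, hη0, smul_eq_mul, mul_one]
  set k := (LinearMap.toMatrix' T)ᵀ with hk
  have hkT : ∀ η, η ᵥ* k = T η := fun η => by
    rw [hk, Matrix.vecMul_transpose, LinearMap.toMatrix'_mulVec]
  have hkv : k *ᵥ v = v := by
    refine dotProduct_eq _ _ fun η => ?_
    rw [dotProduct_comm, dotProduct_mulVec, hkT, hTv, dotProduct_comm]
  have hkdet : k.det ≠ 0 := by
    intro h0
    obtain ⟨η, hη0', hη⟩ := (Matrix.exists_vecMul_eq_zero_iff (M := k)).2 h0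
    rw [hkT] at hη
    have hηv : η ⬝ᵥ v = 0 := by rw [← hTv, hη, zero_dotProduct]
    refine hη0' (rgt_eq_iff (α := α) ?_)
    have e := hT0 η hηv
    rw [hη, rgt_zero, Matrix.mul_zero] at e
    have e2 := congrArg (· * X') e
    simpa [Matrix.mul_assoc, hXX, rgt_zero] using e2
  set s := h ⊗ₖ k with hs
  have hD : ∀ η : Fin b → F, η ⬝ᵥ v = 0 → rgt α η * (X - s) = 0 := fun η hη => by
    rw [Matrix.mul_sub, hs, rgt_kron, hkT, hT0 η hη, sub_self]
  have hD' := eq_lft_mul hη0 (X - s) hD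
  set K := rgt α η0 * (X - s) with hKdef
  have hKv : K * lft α v = 0 := by
    rw [hKdef, Matrix.mul_assoc, Matrix.sub_mul, hh, hs, kron_lft, hkv, sub_self, Matrix.mul_zero]
  have hfac : X = s * (1 + lft α v * (h' * K)) := by
    rw [Matrix.mul_add, Matrix.mul_one, ← Matrix.mul_assoc, hs, kron_lft, hkv,
      Matrix.mul_assoc (lft α v) h, ← Matrix.mul_assoc h, hhh, Matrix.one_mul, ← hD', ← hs,
      add_sub_cancel]
  have hKv' : h' * K * lft α v = 0 := by rw [Matrix.mul_assoc, hKv, Matrix.mul_zero]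
  have hkk : k * k⁻¹ = 1 := Matrix.mul_nonsing_inv k (isUnit_iff_ne_zero.2 hkdet)
  have hkk' : k⁻¹ * k = 1 := Matrix.nonsing_inv_mul k (isUnit_iff_ne_zero.2 hkdet)
  set G0 := h' * K with hG0
  suffices hall : ∀ w : Fin b → F, ∃ c : F, G0 * lft α w = c • (1 : Matrix α α F) by
    obtain ⟨ψ, hψ⟩ := eq_rgt G0 hall
    rw [hfac, hψ, one_add_kron]
    exact IsPure.mul ⟨h, k, hs⟩ ⟨1, _, rfl⟩
  intro w
  obtain ⟨η, hη, hηv, hηw⟩ := exists_annihilator (F := F) (by rw [Fintype.card_fin]; exact H.three) v w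
  set G := G0 * lft α w with hG
  set N := lft α v * G0 with hN
  set R0 := lft α w * rgt α η with hR0
  set s' := h' ⊗ₖ k⁻¹ with hs'
  have hss' : s * s' = 1 := by rw [hs, hs', ← Matrix.mul_kronecker_mul, hhh, hkk, Matrix.one_kronecker_one]
  have hs's : s' * s = 1 := by rw [hs, hs', ← Matrix.mul_kronecker_mul, hhh', hkk', Matrix.one_kronecker_one]
  have hN2 : N * N = 0 := by
    rw [hN, Matrix.mul_assoc (lft α v), ← Matrix.mul_assoc G0, hKv', Matrix.zero_mul, Matrix.mul_zero]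
  have hR0N : R0 * N = 0 := by
    rw [hR0, hN, Matrix.mul_assoc (lft α w), ← Matrix.mul_assoc (rgt α η), rgt_mul_lft, hηv, zero_smul,
      Matrix.zero_mul, Matrix.mul_zero]
  have hR02 : R0 * R0 = 0 := by
    rw [hR0, Matrix.mul_assoc (lft α w), ← Matrix.mul_assoc (rgt α η), rgt_mul_lft, hηw, zero_smul,
      Matrix.zero_mul, Matrix.mul_zero]
  have hX' : X' = (1 - N) * s' := by
    have e : X * ((1 - N) * s') = 1 := by
      rw [hfac, Matrix.mul_assoc s, ← Matrix.mul_assoc (1 + N), Matrix.add_mul 1 N (1 - N), Matrix.one_mul,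
        Matrix.mul_sub, hN2, Matrix.mul_one, sub_zero, sub_add_cancel, Matrix.one_mul, hss']
    calc X' = X' * (X * ((1 - N) * s')) := by rw [e, Matrix.mul_one]
      _ = (1 - N) * s' := by rw [← Matrix.mul_assoc, hXX', Matrix.one_mul]
  have hηk : (-(η ᵥ* k⁻¹)) ⬝ᵥ (k *ᵥ w) = 0 := by
    rw [neg_dotProduct, ← dotProduct_mulVec, Matrix.mulVec_mulVec, hkk', Matrix.one_mulVec, hηw, neg_zero]
  have e1 : s * R0 * s' = lft α (k *ᵥ w) * rgt α (η ᵥ* k⁻¹) := by
    rw [hs, hs', hR0, ← Matrix.mul_assoc, kron_lft, Matrix.mul_assoc (lft α (k *ᵥ w) * h),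
      rgt_kron, Matrix.mul_assoc (lft α (k *ᵥ w)), ← Matrix.mul_assoc h, hhh, Matrix.one_mul]
  have h2 := H.root hηk
  rw [← neg_one_smul F (η ᵥ* k⁻¹), rgt_smul, Matrix.mul_smul, neg_one_smul, ← e1] at h2
  have h1 : InM M ((X * (1 + R0) * X') * (1 + -(s * R0 * s'))) := ((hX.mul (H.root hηw)).mul (hX.inv hXX)).mul h2
  have e2 : X * (1 + R0) * X' * (1 + -(s * R0 * s')) = 1 + s * (N * R0) * s' := by
    rw [hX', hfac]
    calc s * (1 + N) * (1 + R0) * ((1 - N) * s') * (1 + -(s * R0 * s'))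
        = s * ((1 + N) * (1 + R0) * (1 - N)) * (s' - (s' * s) * R0 * s') := by noncomm_ring
      _ = s * ((1 + N) * (1 + R0) * (1 - N) * (1 - R0)) * s' := by rw [hs's]; noncomm_ring
      _ = s * (1 + N * R0) * s' := by
          congr 2
          have e : (1 + N) * (1 + R0) * (1 - N) * (1 - R0) = 1 + N * R0 - N * N - N * (R0 * R0) - R0 * R0
              + N * N * R0 - R0 * N + R0 * N * R0 - N * (R0 * N) + N * (R0 * N) * R0 := by noncomm_ring
          rw [e, hN2, hR02, hR0N]; simp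
      _ = _ := by rw [Matrix.mul_add, Matrix.mul_one, Matrix.add_mul, hss']
  have e3 : s * (N * R0) * s' = lft α v * (h * G * h') * rgt α (η ᵥ* k⁻¹) := by
    rw [hG, hN, hR0, hs, hs']
    simp only [Matrix.mul_assoc, rgt_kron]
    rw [← Matrix.mul_assoc (h ⊗ₖ k), kron_lft, hkv, Matrix.mul_assoc]
  rw [e2, e3, lft_mid_rgt] at h1
  have hne : η ᵥ* k⁻¹ ≠ 0 := fun h0 => hη (by
    rw [← Matrix.vecMul_one η, ← hkk', ← Matrix.vecMul_vecMul, h0, Matrix.zero_vecMul])
  have hdot : (η ᵥ* k⁻¹) ⬝ᵥ v = 0 := by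
    rw [← dotProduct_mulVec]
    conv_lhs => arg 2; arg 2; rw [← hkv]
    rw [Matrix.mulVec_mulVec, hkk', Matrix.one_mulVec, hηv]
  obtain ⟨c, hc⟩ := hgood v _ (h * G * h') hv hne hdot h1
  refine ⟨c, ?_⟩
  calc G = (h' * h) * G * (h' * h) := by rw [hhh', Matrix.one_mul, Matrix.mul_one]
    _ = h' * (h * G * h') * h := by simp only [Matrix.mul_assoc]
    _ = c • 1 := by rw [hc, Matrix.mul_smul, Matrix.mul_one, Matrix.smul_mul, hhh']

/-- An element mapping a layer to a layer is a pure tensor. -/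
theorem RF.pure_of_layer [Nonempty α] (H : RF M) (hgood : Good M) {v u : Fin b → F} (hv : v ≠ 0) (hu : u ≠ 0)
    {X X' : Matrix Ix Ix F} (hX : InM M X) (hXX : X * X' = 1) {h h' : Matrix α α F}
    (hh : X * lft α v = lft α u * h) (hhh : h * h' = 1) : IsPure X := by
  have : Nontrivial (Fin b) := Fin.nontrivial_iff_two_le.mpr (by have := H.three; omega)
  obtain ⟨k, hk⟩ := Cfsg.Agent.H1.exists_SL_smul_eq (F := F) hu hv
  have hk' : (k : Matrix (Fin b) (Fin b) F) *ᵥ u = v := hk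
  set P := (1 : Matrix α α F) ⊗ₖ (k : Matrix (Fin b) (Fin b) F) with hP
  set P' := (1 : Matrix α α F) ⊗ₖ ((k⁻¹ : Matrix.SpecialLinearGroup (Fin b) F) : Matrix (Fin b) (Fin b) F)
    with hP'
  have hPP : P' * P = 1 := by
    rw [hP, hP', ← Matrix.mul_kronecker_mul, ← Matrix.SpecialLinearGroup.coe_mul, inv_mul_cancel,
      Matrix.SpecialLinearGroup.coe_one, Matrix.one_mul, Matrix.one_kronecker_one]
  have hp : IsPure (P * X) := by
    refine H.pure_of_fix hgood hv ((H.right_factor _ k.2).mul hX) (X' := X' * P') ?_ ?_ hhh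
    · rw [Matrix.mul_assoc, ← Matrix.mul_assoc X, hXX, Matrix.one_mul]
      exact mul_eq_one_comm.1 hPP
    · rw [Matrix.mul_assoc, hh, ← Matrix.mul_assoc, hP, kron_lft, hk', Matrix.mul_one]
  have := IsPure.mul (X := P') ⟨1, _, hP'⟩ hp
  rwa [← Matrix.mul_assoc, hPP, Matrix.one_mul] at this

/-- Contractions of elements that are not pure do not vanish. -/
theorem RF.contraction_ne [Nonempty α] (H : RF M) (hgood : Good M) {X X' : Matrix Ix Ix F}
    (hX : InM M X) (hXX : X * X' = 1) (hnp : ¬ IsPure X) {φ w : Fin b → F} (hφ : φ ≠ 0) (hw : w ≠ 0) :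
    rgt α φ * X * lft α w ≠ 0 := by
  intro hzero
  have : Nontrivial (Fin b) := Fin.nontrivial_iff_two_le.mpr (by have := H.three; omega)
  obtain ⟨v, hv, hφv, -⟩ := exists_common_zero (F := F) (by rw [Fintype.card_fin]; exact H.three) φ φ
  obtain ⟨k, hk⟩ := Cfsg.Agent.H1.exists_SL_smul_eq (F := F) hv hw
  have hk' : (k : Matrix (Fin b) (Fin b) F) *ᵥ v = w := hk
  set P := (1 : Matrix α α F) ⊗ₖ (k : Matrix (Fin b) (Fin b) F) with hP
  set P' := (1 : Matrix α α F) ⊗ₖ ((k⁻¹ : Matrix.SpecialLinearGroup (Fin b) F) : Matrix (Fin b) (Fin b) F)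
    with hP'
  have hPP : P * P' = 1 := by
    rw [hP, hP', ← Matrix.mul_kronecker_mul, ← Matrix.SpecialLinearGroup.coe_mul, mul_inv_cancel,
      Matrix.SpecialLinearGroup.coe_one, Matrix.one_mul, Matrix.one_kronecker_one]
  have hY : InM M (X * P) := hX.mul (H.right_factor _ k.2)
  set Y := X * P with hYdef
  set Y' := P' * X' with hY'def
  have hYY : Y * Y' = 1 := by
    rw [hYdef, hY'def, Matrix.mul_assoc, ← Matrix.mul_assoc P, hPP, Matrix.one_mul, hXX]
  have hYY' : Y' * Y = 1 := mul_eq_one_comm.1 hYY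
  have hz : rgt α φ * (Y * lft α v) = 0 := by
    rw [hYdef, Matrix.mul_assoc, hP, kron_lft, hk', Matrix.mul_one, ← Matrix.mul_assoc, hzero]
  set J0 := Y * lft α v with hJ0
  have hQ : ∀ v1 : Fin b → F, φ ⬝ᵥ v1 = 0 → ∃ u : Fin b → F, J0 * (rgt α φ * Y' * lft α v1) = lft α u := by
    intro v1 hv1
    set A := Y * (lft α v * rgt α φ) * Y' with hA
    set B := lft α v1 * rgt α φ with hB
    have hA2 : A * A = 0 := by
      have : A * A = Y * ((lft α v * rgt α φ) * ((Y' * Y) * (lft α v * rgt α φ))) * Y' := by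
        simp only [hA, Matrix.mul_assoc]
      rw [this, hYY', Matrix.one_mul, Matrix.mul_assoc (lft α v), ← Matrix.mul_assoc (rgt α φ), rgt_mul_lft,
        hφv, zero_smul, Matrix.zero_mul, Matrix.mul_zero, Matrix.mul_zero, Matrix.zero_mul]
    have hB2 : B * B = 0 := by
      rw [hB, Matrix.mul_assoc (lft α v1), ← Matrix.mul_assoc (rgt α φ), rgt_mul_lft, hv1, zero_smul,
        Matrix.zero_mul, Matrix.mul_zero]
    have hBA : B * A = 0 := by
      have : B * A = lft α v1 * ((rgt α φ * J0) * (rgt α φ * Y')) := by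
        simp only [hA, hB, hJ0, Matrix.mul_assoc]
      rw [this, hz, Matrix.zero_mul, Matrix.mul_zero]
    have h1 := ((H.root hφv).conj hY hYY).comm (H.root hv1) hA2 hB2 hBA
    have e : A * B = J0 * (rgt α φ * Y' * lft α v1) * rgt α φ := by
      simp only [hA, hB, hJ0, Matrix.mul_assoc]
    rw [← hA, ← hB, e] at h1
    refine H.axis_std hgood hφ ?_ h1
    rw [← Matrix.mul_assoc, hz, Matrix.zero_mul]
  have key : ∃ (u : Fin b → F) (h h' : Matrix α α F), u ≠ 0 ∧ J0 = lft α u * h ∧ h * h' = 1 := by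
    have hJne : J0 ≠ 0 := by
      intro h0
      apply lft_ne_zero (α := α) hv
      have := congrArg (Y' * ·) h0
      simpa [hJ0, ← Matrix.mul_assoc, hYY'] using this
    by_cases hne : ∃ v1 : Fin b → F, φ ⬝ᵥ v1 = 0 ∧ rgt α φ * Y' * lft α v1 ≠ 0
    · obtain ⟨v1, hv1, hQne⟩ := hne
      obtain ⟨u, hu⟩ := hQ v1 hv1
      have hu0 : u ≠ 0 := by
        intro h0
        rw [h0, lft_zero] at hu
        apply hQne
        have h2 : lft α v * (rgt α φ * Y' * lft α v1) = 0 := by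
          have := congrArg (Y' * ·) hu
          simpa [hJ0, ← Matrix.mul_assoc, hYY'] using this
        exact lft_injective hv (h2.trans (Matrix.mul_zero _).symm)
      obtain ⟨η, hη⟩ := exists_dual hu0
      set Q := rgt α φ * Y' * lft α v1
      have h3 : rgt α η * J0 * Q = 1 := by
        rw [Matrix.mul_assoc, hu, rgt_mul_lft, hη, one_smul]
      refine ⟨u, rgt α η * J0, Q, hu0, ?_, h3⟩
      calc J0 = J0 * (Q * (rgt α η * J0)) := by rw [mul_eq_one_comm.1 h3, Matrix.mul_one]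
        _ = lft α u * (rgt α η * J0) := by rw [← Matrix.mul_assoc, hu]
    · push Not at hne
      obtain ⟨u0, hu0⟩ := exists_dual' hφ
      set Hm := rgt α φ * Y' * lft α u0 with hHm
      have e1 : rgt α φ * Y' = Hm * rgt α φ := eq_mul_rgt hu0 _ hne
      have hinvH : Hm * (rgt α φ * Y * lft α u0) = 1 := by
        have e : Hm * (rgt α φ * Y * lft α u0) = rgt α φ * ((Y' * Y) * lft α u0) := by
          simp only [← Matrix.mul_assoc, ← e1]
        rw [e, hYY', Matrix.one_mul, rgt_mul_lft, hu0, one_smul]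
      have h1 : InM M (1 + J0 * Hm * rgt α φ) := by
        have := (H.root hφv).conj hY hYY
        rw [← Matrix.mul_assoc Y, Matrix.mul_assoc (Y * lft α v), e1, ← Matrix.mul_assoc] at this
        exact this
      obtain ⟨u, hu⟩ := H.axis_std hgood hφ (by rw [← Matrix.mul_assoc, hz, Matrix.zero_mul]) h1
      refine ⟨u, rgt α φ * Y * lft α u0, Hm, ?_, ?_, mul_eq_one_comm.1 hinvH⟩
      · intro h0
        rw [h0, lft_zero] at hu
        apply hJne
        have := congrArg (· * (rgt α φ * Y * lft α u0)) hu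
        simpa [Matrix.mul_assoc J0, hinvH] using this
      · rw [← hu, Matrix.mul_assoc J0, hinvH, Matrix.mul_one]
  obtain ⟨u, h, h', hu, hh, hhh⟩ := key
  have hpY := H.pure_of_layer hgood hv hu hY hYY hh hhh
  apply hnp
  have := IsPure.mul hpY (Y := P') ⟨1, _, hP'⟩
  rwa [hYdef, Matrix.mul_assoc, hPP, Matrix.mul_one] at this


end Cfsg.Agent.H5.C7
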