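import Cfsg.Agent.H5.C7.Tens
import Cfsg.Agent.H64.SLIndex.Transv

/-!
An algebra of matrices on a tensor power which is invariant under the factor groups and the permutations
of the factors and is not made of scalars is the full matrix algebra.
-/

set_option autoImplicit false
set_option linter.unusedSectionVars false

namespace Cfsg.Agent.H5.C7

open Matrix

variable {F : Type*} [Field F] {ι : Type} [Fintype ι] [DecidableEq ι] {m : ℕ}

local notation "MM" => Matrix (ι → Fin m) (ι → Fin m) F
local notation "mm" => Matrix (Fin m) (Fin m) F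

/-- The invariance properties. -/
structure AlgInv (W : Submodule F (Matrix (ι → Fin m) (ι → Fin m) F)) : Prop where
  three : 3 ≤ m
  one : (1 : MM) ∈ W
  mul : ∀ G ∈ W, ∀ G' ∈ W, G * G' ∈ W
  slot : ∀ (l : ι) (h h' : mm), h.det = 1 → h * h' = 1 → ∀ G ∈ W, sl l h * G * sl l h' ∈ W
  perm : ∀ σ : Equiv.Perm ι, ∃ k k' : ι → mm, (∀ j, k j * k' j = 1) ∧
    ∀ G ∈ W, wm σ k * G * wm σ⁻¹ (fun i => k' (σ⁻¹ i)) ∈ W

/-- A matrix unit in one factor. -/
def el (l : ι) (a b : Fin m) : Matrix (ι → Fin m) (ι → Fin m) F := sl l (Matrix.single a b 1)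

theorem el_mul_same (l : ι) (a b c : Fin m) : (el l a b : MM) * el l b c = el l a c := by
  rw [el, el, sl_mul, Matrix.single_mul_single_same, one_mul, el]

theorem el_mul_ne (l : ι) (a b c d : Fin m) (h : b ≠ c) : (el l a b : MM) * el l c d = 0 := by
  rw [el, el, sl_mul, Matrix.single_mul_single_of_ne (h := h), sl_zero]

theorem el_comm {l l' : ι} (h : l ≠ l') (a b c d : Fin m) : (el l a b : MM) * el l' c d = el l' c d * el l a b :=
  sl_comm h _ _

theorem el_sum (l : ι) : ∑ c : Fin m, (el l c c : MM) = 1 := by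
  have h : ∀ s : Finset (Fin m), ∑ c ∈ s, (el l c c : MM) = sl l (∑ c ∈ s, Matrix.single c c (1 : F)) := by
    intro s
    induction s using Finset.induction_on with
    | empty => simp [sl_zero]
    | insert a s ha ih => rw [Finset.sum_insert ha, Finset.sum_insert ha, sl_add, ih, el]
  rw [h Finset.univ, ← sl_one l]
  congr 1
  ext x y
  rw [Matrix.sum_apply]
  by_cases hxy : x = y
  · subst hxy; rw [Finset.sum_eq_single x] <;> simp +contextual [Matrix.single_apply]
  · rw [Matrix.one_apply_ne hxy, Finset.sum_eq_zero]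
    intro c _
    rw [Matrix.single_apply, if_neg (fun h => hxy (h.1.symm.trans h.2))]

theorem el_mul_apply (l : ι) (a b : Fin m) (Z : MM) (f g : ι → Fin m) :
    ((el l a b : MM) * Z) f g = if f l = a then Z (Function.update f l b) g else 0 := by
  rw [Matrix.mul_apply, Finset.sum_eq_single (Function.update f l b)]
  · rw [el, sl_apply, if_pos (fun j hj => (Function.update_of_ne hj _ _).symm), Function.update_self,
      Matrix.single_apply]
    by_cases h : f l = a
    · simp [h]
    · simp [h, Ne.symm h]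
  · intro h _ hne
    rw [el, sl_apply]
    split_ifs with h1
    · rw [Matrix.single_apply, if_neg, zero_mul]
      rintro ⟨-, h3⟩
      refine hne (funext fun j => ?_)
      by_cases hj : j = l
      · subst hj; rw [Function.update_self, h3]
      · rw [Function.update_of_ne hj, h1 j hj]
    · rw [zero_mul]
  · intro h; exact absurd (Finset.mem_univ _) h

theorem mul_el_apply (l : ι) (a b : Fin m) (Z : MM) (f g : ι → Fin m) :
    (Z * (el l a b : MM)) f g = if g l = b then Z f (Function.update g l a) else 0 := by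
  rw [Matrix.mul_apply, Finset.sum_eq_single (Function.update g l a)]
  · rw [el, sl_apply, if_pos (fun j hj => Function.update_of_ne hj _ _), Function.update_self, Matrix.single_apply]
    by_cases h : g l = b
    · simp [h]
    · simp [h, Ne.symm h]
  · intro h _ hne
    rw [el, sl_apply]
    split_ifs with h1
    · rw [Matrix.single_apply, if_neg, mul_zero]
      rintro ⟨h2, -⟩
      refine hne (funext fun j => ?_)
      by_cases hj : j = l
      · subst hj; rw [Function.update_self, h2]
      · rw [Function.update_of_ne hj, ← h1 j hj]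
    · rw [mul_zero]
  · intro h; exact absurd (Finset.mem_univ _) h

/-- `Z` is scalar in the factor `l`. -/
def ScalarAt (l : ι) (Z : MM) : Prop := ∀ a b : Fin m, el l a b * Z = Z * el l a b

/-- `Z` is a matrix unit off the diagonal in the factor `l`. -/
def ElemAt (l : ι) (Z : MM) : Prop := ∃ a b : Fin m, a ≠ b ∧ el l a a * Z * el l b b = Z

namespace AlgInv

variable {W : Submodule F (Matrix (ι → Fin m) (ι → Fin m) F)}

theorem conj_el (hW : AlgInv W) (l : ι) {a b : Fin m} (hab : a ≠ b) {G : MM} (hG : G ∈ W) :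
    (1 + el l a b) * G * (1 - el l a b) ∈ W := by
  have h1 : (1 + el l a b : MM) = sl l (1 + Matrix.single a b (1 : F)) := by rw [sl_add, sl_one, el]
  have h2 : (1 - el l a b : MM) = sl l (1 - Matrix.single a b (1 : F)) := by
    rw [sub_eq_add_neg (1 : mm), sl_add, sl_one, ← neg_one_smul F (Matrix.single a b (1 : F)), sl_smul,
      neg_one_smul, el, sub_eq_add_neg]
  rw [h1, h2]
  refine hW.slot l _ _ ?_ ?_ G hG
  · exact Matrix.det_transvection_of_ne a b hab 1
  · rw [add_mul, one_mul, mul_sub, mul_one, Matrix.single_mul_single_of_ne (h := hab.symm)]; simp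

theorem diff (hW : AlgInv W) (l : ι) {a b : Fin m} (hab : a ≠ b) {G : MM} (hG : G ∈ W) :
    el l a b * G - G * el l a b - el l a b * G * el l a b ∈ W := by
  have := W.sub_mem (hW.conj_el l hab hG) hG
  convert this using 1
  simp only [add_mul, one_mul, mul_sub, mul_one]
  abel

/-- Corners by matrix units off the diagonal. -/
theorem corner (hW : AlgInv W) (l : ι) {a b : Fin m} (hab : a ≠ b) {G : MM} (hG : G ∈ W) :
    el l a b * G * el l a b ∈ W := by
  obtain ⟨c, hca, hcb⟩ : ∃ c, c ≠ a ∧ c ≠ b := by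
    have : ∃ c, c ∉ ({a, b} : Finset (Fin m)) := by
      by_contra hc
      push Not at hc
      have h1 := Finset.card_le_card (fun x _ => hc x : (Finset.univ : Finset (Fin m)) ⊆ {a, b})
      have h2 := Finset.card_le_two (a := a) (b := b)
      have := hW.three
      rw [Finset.card_univ, Fintype.card_fin] at h1
      omega
    obtain ⟨c, hc⟩ := this
    simp only [Finset.mem_insert, Finset.mem_singleton, not_or] at hc
    exact ⟨c, hc.1, hc.2⟩
  set x : MM := el l a b
  set y : MM := el l a c
  set e : MM := el l c b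
  have hb1 := hW.conj_el l hab (hW.conj_el l (Ne.symm hca) hG)
  have hT : x * G * y + y * G * x ∈ W := by
    have h1 := W.sub_mem (W.sub_mem hb1 (hW.conj_el l hab hG)) (W.sub_mem (hW.conj_el l (Ne.symm hca) hG) hG)
    rw [← W.neg_mem_iff]
    convert h1 using 1
    have xy : x * y = 0 := el_mul_ne l a b a c (Ne.symm hab)
    have yx : y * x = 0 := el_mul_ne l a c a b hca
    have e1 : (1 + x) * (1 + y) = 1 + x + y := by simp only [add_mul, mul_add, one_mul, mul_one, xy]; abel
    have e2 : (1 - y) * (1 - x) = 1 - y - x := by simp only [sub_mul, mul_sub, one_mul, mul_one, yx]; abel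
    rw [← mul_assoc (1 + x), ← mul_assoc (1 + x) (1 + y), mul_assoc _ (1 - y), e1, e2]
    simp only [add_mul, one_mul, mul_sub, mul_one]
    abel
  have h2 := hW.diff l hcb hT
  rw [show (el l c b : MM) = e from rfl] at h2
  rw [← W.neg_mem_iff]
  convert h2 using 1
  have ex : e * x = 0 := el_mul_ne l c b a b (Ne.symm hab)
  have ey : e * y = 0 := el_mul_ne l c b a c (Ne.symm hab)
  have xe : x * e = 0 := el_mul_ne l a b c b (Ne.symm hcb)
  have ye : y * e = x := el_mul_same l a c b
  have z1 : ∀ z : MM, e * (x * z) = 0 := fun z => by rw [← mul_assoc, ex, zero_mul]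
  have z2 : ∀ z : MM, e * (y * z) = 0 := fun z => by rw [← mul_assoc, ey, zero_mul]
  simp only [mul_add, add_mul, mul_assoc, z1, z2, xe, ye, mul_zero, zero_mul, add_zero, zero_add, sub_zero, zero_sub]

/-- A matrix which is not scalar in a factor gives a nonzero one which is a matrix unit there. -/
theorem step (hW : AlgInv W) (l : ι) {Z : MM} (hZ : Z ∈ W) (hns : ¬ ScalarAt l Z) :
    ∃ Z' ∈ W, Z' ≠ 0 ∧ ElemAt l Z' ∧ ∀ l' ≠ l, (ScalarAt l' Z → ScalarAt l' Z') ∧
      (∀ a b, el l' a a * Z * el l' b b = Z → el l' a a * Z' * el l' b b = Z') := by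
  have main : ∃ a b : Fin m, a ≠ b ∧ (el l a b * Z * el l a b ≠ 0 ∨
      ∃ c d : Fin m, c ≠ d ∧ el l a b * (el l c d * Z - Z * el l c d) * el l a b ≠ 0 ∧
        el l c d * Z - Z * el l c d ∈ W) := by
    by_contra hc
    push Not at hc
    have h0 : ∀ a b : Fin m, a ≠ b → el l a b * Z * el l a b = 0 := fun a b hab => (hc a b hab).1
    have h1 : ∀ a b : Fin m, a ≠ b → el l b a * (el l a b * Z - Z * el l a b) * el l b a = 0 := by
      intro a b hab
      by_contra hne
      refine (hc b a (Ne.symm hab)).2 a b hab hne ?_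
      have := hW.diff l hab hZ
      rwa [h0 a b hab, sub_zero] at this
    have h2 : ∀ a b : Fin m, a ≠ b → el l a b * Z = Z * el l a b := by
      intro a b hab
      have e1 : el l b b * Z * el l b a - el l b a * Z * el l a a = 0 := by
        rw [← h1 a b hab]
        simp only [mul_sub, sub_mul, ← mul_assoc, el_mul_same]
        rw [mul_assoc _ (el l a b) (el l b a), el_mul_same]
      have e2 := congrArg (fun t => el l a b * t * el l a b) (sub_eq_zero.1 e1)
      simp only [← mul_assoc, el_mul_same] at e2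
      rw [mul_assoc _ (el l b a) (el l a b), el_mul_same, mul_assoc _ (el l a a) (el l a b), el_mul_same] at e2
      calc el l a b * Z = ∑ c, el l a b * Z * el l c c := by rw [← Finset.mul_sum, el_sum, mul_one]
        _ = el l a b * Z * el l b b := by
            refine Finset.sum_eq_single b (fun c _ hcb => ?_) (by simp)
            have : el l b b * Z * el l c c = el l b c * (el l c b * Z * el l c b) * el l b c := by
              simp only [← mul_assoc, el_mul_same]
              rw [mul_assoc _ (el l c b) (el l b c), el_mul_same]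
            have e3 : el l b b * Z * el l c c = 0 := by rw [this, h0 c b hcb]; simp
            rw [← el_mul_same l a b b, mul_assoc (el l a b) _ Z, mul_assoc (el l a b) _ (el l c c), e3, mul_zero]
        _ = el l a a * Z * el l a b := e2
        _ = ∑ c, el l c c * Z * el l a b := by
            symm
            refine Finset.sum_eq_single a (fun c _ hca => ?_) (by simp)
            have : el l c c * Z * el l a a = el l c a * (el l a c * Z * el l a c) * el l c a := by
              simp only [← mul_assoc, el_mul_same]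
              rw [mul_assoc _ (el l a c) (el l c a), el_mul_same]
            have e3 : el l c c * Z * el l a a = 0 := by rw [this, h0 a c (Ne.symm hca)]; simp
            rw [← el_mul_same l a a b, ← mul_assoc, e3, zero_mul]
        _ = Z * el l a b := by rw [← Finset.sum_mul, ← Finset.sum_mul, el_sum, one_mul]
    refine hns fun a b => ?_
    by_cases hab : a = b
    · subst hab
      obtain ⟨c, hc'⟩ : ∃ c, c ≠ a := by
        have := hW.three
        exact ⟨if a = ⟨0, by omega⟩ then ⟨1, by omega⟩ else ⟨0, by omega⟩, by split_ifs with h <;> simp_all [Fin.ext_iff, eq_comm]⟩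
      rw [← el_mul_same l a c a, mul_assoc, h2 c a hc', ← mul_assoc, h2 a c (Ne.symm hc'), mul_assoc]
    · exact h2 a b hab
  obtain ⟨a, b, hab, hcase⟩ := main
  have helem : ∀ X : MM, ElemAt l (el l a b * X * el l a b) := fun X => ⟨a, b, hab, by
    simp only [← mul_assoc, el_mul_same]
    rw [mul_assoc _ (el l a b) (el l b b), el_mul_same]⟩
  have hscal : ∀ {l'} (_ : l' ≠ l) (X : MM), ScalarAt l' X → ∀ c d, ScalarAt l' (el l c d * X) ∧
      ScalarAt l' (X * el l c d) := by
    intro l' hl X hX c d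
    refine ⟨fun p q => ?_, fun p q => ?_⟩
    · rw [← mul_assoc, el_comm hl, mul_assoc, hX p q, ← mul_assoc]
    · rw [← mul_assoc, hX p q, mul_assoc, el_comm hl, ← mul_assoc]
  have helm : ∀ {l'} (_ : l' ≠ l) (X : MM) (p q : Fin m), el l' p p * X * el l' q q = X → ∀ c d,
      el l' p p * (el l c d * X) * el l' q q = el l c d * X ∧
      el l' p p * (X * el l c d) * el l' q q = X * el l c d := by
    intro l' hl X p q hX c d
    refine ⟨?_, ?_⟩
    · conv_rhs => rw [← hX]
      rw [← mul_assoc, el_comm hl, mul_assoc (el l c d), mul_assoc (el l c d)]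
    · conv_rhs => rw [← hX]
      rw [← mul_assoc, mul_assoc _ (el l c d), ← el_comm hl, ← mul_assoc]
  rcases hcase with hne | ⟨c, d, hcd, hne, hmem⟩
  · refine ⟨_, hW.corner l hab hZ, hne, helem Z, fun l' hl => ⟨fun h => ?_, fun p q h => ?_⟩⟩
    · exact (hscal hl _ (hscal hl Z h a b).1 a b).2
    · exact (helm hl _ p q (helm hl Z p q h a b).1 a b).2
  · refine ⟨_, hW.corner l hab hmem, hne, helem _, fun l' hl => ⟨fun h => ?_, fun p q h => ?_⟩⟩
    · have h1 : ScalarAt l' (el l c d * Z - Z * el l c d) := fun p q => by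
        rw [mul_sub, sub_mul, (hscal hl Z h c d).1 p q, (hscal hl Z h c d).2 p q]
      exact (hscal hl _ (hscal hl _ h1 a b).1 a b).2
    · have h1 : el l' p p * (el l c d * Z - Z * el l c d) * el l' q q = el l c d * Z - Z * el l c d := by
        rw [mul_sub, sub_mul, (helm hl Z p q h c d).1, (helm hl Z p q h c d).2]
      exact (helm hl _ p q (helm hl _ p q h1 a b).1 a b).2

end AlgInv

/-- A matrix which is scalar or a matrix unit in every factor. -/
theorem eq_wm_of_classified {Z : MM} (hZ : Z ≠ 0) (h : ∀ l, ScalarAt l Z ∨ ElemAt l Z) :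
    ∃ (z : F) (A : ι → mm), z ≠ 0 ∧ Z = z • wm 1 A ∧
      ∀ l, (ScalarAt l Z ∧ A l = 1) ∨ (¬ ScalarAt l Z ∧ ∃ a b, a ≠ b ∧ A l = Matrix.single a b 1) := by
  classical
  obtain ⟨f0, g0, h0⟩ : ∃ f g, Z f g ≠ 0 := by
    by_contra hc; push Not at hc; exact hZ (by ext f g; exact hc f g)
  have hstep : ∀ l, ∃ A : mm, ((ScalarAt l Z ∧ A = 1) ∨ (¬ ScalarAt l Z ∧ ∃ a b, a ≠ b ∧ A = Matrix.single a b 1)) ∧
      ∀ f g, Z f g = A (f l) (g l) * Z (Function.update f l (f0 l)) (Function.update g l (g0 l)) := by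
    intro l
    by_cases hs : ScalarAt l Z
    · refine ⟨1, Or.inl ⟨hs, rfl⟩, fun f g => ?_⟩
      have hdiag : ∀ f g : ι → Fin m, f l ≠ g l → Z f g = 0 := by
        intro f g hne
        have := congrFun (congrFun (hs (f l) (f l)) f) g
        rw [el_mul_apply, mul_el_apply, if_pos rfl, Function.update_eq_self, if_neg (Ne.symm hne)] at this
        exact this
      have hfg : f0 l = g0 l := by by_contra hne; exact h0 (hdiag _ _ hne)
      by_cases he : f l = g l
      · rw [he, Matrix.one_apply_eq, one_mul]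
        have := congrFun (congrFun (hs (f l) (f0 l)) f) (Function.update g l (g0 l))
        rw [el_mul_apply, mul_el_apply, if_pos rfl, if_pos (by rw [Function.update_self, hfg]), Function.update_idem,
          he, Function.update_eq_self] at this
        exact this.symm
      · rw [Matrix.one_apply_ne he, zero_mul, hdiag f g he]
    · obtain ⟨a, b, hab, he⟩ := (h l).resolve_left hs
      refine ⟨Matrix.single a b 1, Or.inr ⟨hs, a, b, hab, rfl⟩, ?_⟩
      have key : ∀ f g : ι → Fin m, Z f g = if f l = a ∧ g l = b then Z (Function.update f l a) (Function.update g l b) else 0 := by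
        intro f g
        conv_lhs => rw [← he]
        rw [mul_el_apply]
        by_cases hg : g l = b
        · rw [if_pos hg, el_mul_apply]
          by_cases hf : f l = a
          · rw [if_pos hf, if_pos ⟨hf, hg⟩]
          · rw [if_neg hf, if_neg (fun h => hf h.1)]
        · rw [if_neg hg, if_neg (fun h => hg h.2)]
      have h00 : f0 l = a ∧ g0 l = b := by
        by_contra hc; exact h0 (by rw [key, if_neg hc])
      intro f g
      rw [key f g, h00.1, h00.2, Matrix.single_apply]
      by_cases hc : f l = a ∧ g l = b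
      · rw [if_pos hc, if_pos ⟨hc.1.symm, hc.2.symm⟩, one_mul]
      · rw [if_neg hc, if_neg (fun h => hc ⟨h.1.symm, h.2.symm⟩), zero_mul]
  choose A hA1 hA2 using hstep
  refine ⟨Z f0 g0, A, h0, ?_, hA1⟩
  ext f g
  have key : ∀ s : Finset ι, Z f g = (∏ l ∈ s, A l (f l) (g l)) *
      Z (fun l => if l ∈ s then f0 l else f l) (fun l => if l ∈ s then g0 l else g l) := by
    intro s
    induction s using Finset.induction_on with
    | empty => simp
    | insert l s hl ih =>
      have e1 : ∀ (u u0 : ι → Fin m), Function.update (fun j => if j ∈ s then u0 j else u j) l (u0 l) =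
          fun j => if j ∈ insert l s then u0 j else u j := fun u u0 => funext fun j => by
        by_cases hj : j = l
        · subst hj; simp
        · simp [hj]
      rw [ih, hA2 l, e1, e1, Finset.prod_insert hl]
      simp only [hl, if_false]
      ring
  rw [key Finset.univ, Matrix.smul_apply, wm_apply, smul_eq_mul, mul_comm]
  simp

theorem exists_common_kernel (hm : 3 ≤ m) {v φ : Fin m → F} (hv : v ≠ 0) (hφ : φ ≠ 0) (_h : φ ⬝ᵥ v = 0) :
    ∃ z χ : Fin m → F, φ ⬝ᵥ z = 0 ∧ χ ⬝ᵥ v = 0 ∧ χ ⬝ᵥ z = 1 := by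
  obtain ⟨u, hu⟩ : ∃ u, φ ⬝ᵥ u = 1 := by
    obtain ⟨i, hi⟩ := Function.ne_iff.1 hφ
    exact ⟨Pi.single i (φ i)⁻¹, by rw [dotProduct_single, mul_inv_cancel₀ hi]⟩
  obtain ⟨η, hη⟩ : ∃ η, η ⬝ᵥ v = 1 := by
    obtain ⟨i, hi⟩ := Function.ne_iff.1 hv
    exact ⟨Pi.single i (v i)⁻¹, by rw [single_dotProduct, inv_mul_cancel₀ hi]⟩
  let f : (Fin m → F) →ₗ[F] F × F :=
    { toFun := fun z => (φ ⬝ᵥ z, η ⬝ᵥ z)
      map_add' := fun a b => by simp [dotProduct_add]
      map_smul' := fun c a => by simp [dotProduct_smul] }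
  have hk : LinearMap.ker f ≠ ⊥ := LinearMap.ker_ne_bot_of_finrank_lt (by simp; omega)
  obtain ⟨z, hz, hz0⟩ := Submodule.exists_mem_ne_zero_of_ne_bot hk
  obtain ⟨i, hi⟩ := Function.ne_iff.1 hz0
  refine ⟨z, Pi.single i (z i)⁻¹ - (Pi.single i (z i)⁻¹ ⬝ᵥ v) • η, congrArg Prod.fst hz, ?_, ?_⟩
  · rw [sub_dotProduct, smul_dotProduct, hη, smul_eq_mul, mul_one, sub_self]
  · rw [sub_dotProduct, smul_dotProduct, show η ⬝ᵥ z = 0 from congrArg Prod.snd hz, single_dotProduct,
      inv_mul_cancel₀ hi, smul_zero, sub_zero]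

namespace AlgInv

variable {W : Submodule F (Matrix (ι → Fin m) (ι → Fin m) F)}

/-- Tensors of nilpotent rank one maps on the factors in `S`. -/
def Has (W : Submodule F (Matrix (ι → Fin m) (ι → Fin m) F)) (S : Finset ι) : Prop :=
  ∀ v φ : ι → Fin m → F, (∀ l ∈ S, v l ≠ 0 ∧ φ l ≠ 0 ∧ φ l ⬝ᵥ v l = 0) →
    wm 1 (fun l => if l ∈ S then vecMulVec (v l) (φ l) else 1) ∈ W

theorem has_of_one (hW : AlgInv W) {S : Finset ι} {v φ : ι → Fin m → F}
    (hvφ : ∀ l ∈ S, v l ≠ 0 ∧ φ l ≠ 0 ∧ φ l ⬝ᵥ v l = 0)
    (h : wm 1 (fun l => if l ∈ S then vecMulVec (v l) (φ l) else 1) ∈ W) : Has W S := by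
  intro v' φ' hv'
  suffices key : ∀ T : Finset ι,
      wm 1 (fun l => if l ∈ S then (if l ∈ T then vecMulVec (v' l) (φ' l) else vecMulVec (v l) (φ l)) else 1) ∈ W by
    convert key S using 2
    funext l
    by_cases hl : l ∈ S <;> simp [hl]
  intro T
  induction T using Finset.induction_on with
  | empty => simpa using h
  | insert l T hlT ih =>
    by_cases hlS : l ∈ S
    · obtain ⟨g, hg⟩ := H64.SLIndex.exists_conj_tv hW.three (hvφ l hlS).1 (hvφ l hlS).2.1 (hv' l hlS).1
        (hv' l hlS).2.1 (hvφ l hlS).2.2 (hv' l hlS).2.2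
      have e := congrArg (fun z : Matrix.SpecialLinearGroup (Fin m) F => (z : mm)) hg
      simp only [Matrix.SpecialLinearGroup.coe_mul, H64.SLIndex.tv_coe, mul_add, mul_one, add_mul] at e
      have hgg : (g : mm) * ((g⁻¹ : Matrix.SpecialLinearGroup (Fin m) F) : mm) = 1 := by
        rw [← Matrix.SpecialLinearGroup.coe_mul, mul_inv_cancel, Matrix.SpecialLinearGroup.coe_one]
      rw [hgg] at e
      have e' := add_left_cancel e
      have := hW.slot l (g : mm) _ g.2 hgg _ ih
      convert this using 1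
      rw [sl, sl, wm_mul, wm_mul]
      simp only [mul_one]
      congr 1
      funext j
      by_cases hj : j = l
      · subst hj
        simp [hlS, hlT, ← e']
      · by_cases hjS : j ∈ S <;> by_cases hjT : j ∈ T <;> simp [hj, hjS, hjT]
    · convert ih using 2
      funext j
      by_cases hjS : j ∈ S
      · have : j ≠ l := fun h => hlS (h ▸ hjS)
        simp [hjS, this]
      · simp [hjS]

/-- An algebra with a matrix which is not scalar contains all matrix units. -/
theorem all_single (hW : AlgInv W) {G : MM} (hG : G ∈ W) (hns : ¬ ∃ c : F, G = c • (1 : MM))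
    (f g : ι → Fin m) : Matrix.single f g (1 : F) ∈ W := by
  classical
  have hm := hW.three
  obtain ⟨l0, hl0⟩ : ∃ l, ¬ ScalarAt l G := by
    by_contra hc
    push Not at hc
    have hG0 : G ≠ 0 := fun h => hns ⟨0, by rw [h, zero_smul]⟩
    obtain ⟨z, A, -, e, hA⟩ := eq_wm_of_classified hG0 fun l => Or.inl (hc l)
    refine hns ⟨z, ?_⟩
    rw [e, ← wm_one]
    congr 2
    funext l
    rcases hA l with ⟨-, h⟩ | ⟨h, -⟩
    · exact h
    · exact absurd (hc l) h
  obtain ⟨Z0, hZ0, hne0, he0, -⟩ := hW.step l0 hG hl0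
  have hclass : ∀ T : Finset ι, ∃ Z ∈ W, Z ≠ 0 ∧ ElemAt l0 Z ∧ ∀ l ∈ T, ScalarAt l Z ∨ ElemAt l Z := by
    intro T
    induction T using Finset.induction_on with
    | empty => exact ⟨Z0, hZ0, hne0, he0, by simp⟩
    | insert l T hlT ih =>
      obtain ⟨Z, hZ, hne, he, hT⟩ := ih
      by_cases hl : ScalarAt l Z ∨ ElemAt l Z
      · exact ⟨Z, hZ, hne, he, fun j hj => (Finset.mem_insert.1 hj).elim (fun h => h ▸ hl) (hT j)⟩
      push Not at hl
      obtain ⟨Z', hZ', hne', he', hpres⟩ := hW.step l hZ hl.1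
      have hl0l : l0 ≠ l := fun h => hl.2 (h ▸ he)
      refine ⟨Z', hZ', hne', ?_, fun j hj => ?_⟩
      · obtain ⟨a, b, hab, hh⟩ := he
        exact ⟨a, b, hab, (hpres l0 hl0l).2 a b hh⟩
      · rcases Finset.mem_insert.1 hj with rfl | hj'
        · exact Or.inr he'
        · have hjl : j ≠ l := fun h => hlT (h ▸ hj')
          rcases hT j hj' with h | ⟨a, b, hab, hh⟩
          · exact Or.inl ((hpres j hjl).1 h)
          · exact Or.inr ⟨a, b, hab, (hpres j hjl).2 a b hh⟩
  obtain ⟨Z, hZ, hne, he, hall⟩ := hclass Finset.univ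
  obtain ⟨z, A, hz, hZe, hA⟩ := eq_wm_of_classified hne fun l => hall l (Finset.mem_univ l)
  have hAW : wm 1 A ∈ W := by
    have := W.smul_mem z⁻¹ hZ
    rwa [hZe, smul_smul, inv_mul_cancel₀ hz, one_smul] at this
  let S : Finset ι := Finset.univ.filter fun l => ¬ ScalarAt l Z
  let x0 : Fin m := ⟨0, by omega⟩
  let x1 : Fin m := ⟨1, by omega⟩
  have hx : x0 ≠ x1 := by simp [x0, x1, Fin.ext_iff]
  have hS : Has W S := by
    have hc : ∀ l, ∃ ab : Fin m × Fin m, ab.1 ≠ ab.2 ∧ (l ∈ S → A l = Matrix.single ab.1 ab.2 1) := by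
      intro l
      rcases hA l with ⟨h, -⟩ | ⟨-, a, b, hab, e⟩
      · exact ⟨(x0, x1), hx, fun hl => absurd h (Finset.mem_filter.1 hl).2⟩
      · exact ⟨(a, b), hab, fun _ => e⟩
    choose ab hab habA using hc
    refine hW.has_of_one (v := fun l => Pi.single (ab l).1 1) (φ := fun l => Pi.single (ab l).2 1)
      (fun l _ => ⟨by simp [Pi.single_eq_zero_iff], by simp [Pi.single_eq_zero_iff],
        by rw [single_dotProduct, Pi.single_eq_of_ne (hab l).symm, mul_zero]⟩) ?_
    convert hAW using 2
    funext l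
    by_cases hl : l ∈ S
    · rw [if_pos hl, habA l hl]
      ext p q
      rw [Matrix.vecMulVec_apply, Matrix.single_apply]
      by_cases h1 : (ab l).1 = p <;> by_cases h2 : (ab l).2 = q <;> simp [h1, h2, Pi.single_apply, eq_comm]
    · rcases hA l with ⟨-, h⟩ | ⟨h, -⟩
      · rw [if_neg hl, h]
      · exact absurd (Finset.mem_filter.2 ⟨Finset.mem_univ l, h⟩) hl
  have hl0S : l0 ∈ S := by
    refine Finset.mem_filter.2 ⟨Finset.mem_univ _, fun hs => ?_⟩
    obtain ⟨a, b, hab, hh⟩ := he
    apply hne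
    rw [← hh, hs a a, mul_assoc, el_mul_ne l0 a a b b hab, mul_zero]
  have hunion : ∀ S S' : Finset ι, Has W S → Has W S' → Has W (S ∪ S') := by
    intro S S' h h' v φ hvφ
    have hz : ∀ l, ∃ zc : (Fin m → F) × (Fin m → F), l ∈ S ∪ S' → φ l ⬝ᵥ zc.1 = 0 ∧ zc.2 ⬝ᵥ v l = 0 ∧ zc.2 ⬝ᵥ zc.1 = 1 := by
      intro l
      by_cases hl : l ∈ S ∪ S'
      · obtain ⟨z, χ, h1⟩ := exists_common_kernel hm (hvφ l hl).1 (hvφ l hl).2.1 (hvφ l hl).2.2
        exact ⟨(z, χ), fun _ => h1⟩
      · exact ⟨0, fun h => absurd h hl⟩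
    choose zc hzc using hz
    have hne : ∀ l ∈ S ∪ S', (zc l).1 ≠ 0 ∧ (zc l).2 ≠ 0 := fun l hl =>
      ⟨fun h0 => by simpa [h0] using (hzc l hl).2.2, fun h0 => by simpa [h0] using (hzc l hl).2.2⟩
    have m1 := h v (fun l => if l ∈ S' then (zc l).2 else φ l) (fun l hl => by
      have hu := Finset.mem_union_left S' hl
      by_cases hl' : l ∈ S'
      · rw [if_pos hl']; exact ⟨(hvφ l hu).1, (hne l hu).2, (hzc l hu).2.1⟩
      · rw [if_neg hl']; exact hvφ l hu)
    have m2 := h' (fun l => if l ∈ S then (zc l).1 else v l) φ (fun l hl => by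
      have hu := Finset.mem_union_right S hl
      by_cases hl' : l ∈ S
      · rw [if_pos hl']; exact ⟨(hne l hu).1, (hvφ l hu).2.1, (hzc l hu).1⟩
      · rw [if_neg hl']; exact hvφ l hu)
    convert hW.mul _ m1 _ m2 using 1
    rw [wm_mul, mul_one]
    congr 1
    funext l
    rw [Equiv.Perm.one_apply]
    by_cases h1 : l ∈ S <;> by_cases h2 : l ∈ S'
    · rw [if_pos (Finset.mem_union_left _ h1), if_pos h1, if_pos h2, if_pos h1, if_pos h2, vecMulVec_mul_vecMulVec,
        (hzc l (Finset.mem_union_left _ h1)).2.2, one_smul]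
    · rw [if_pos (Finset.mem_union_left _ h1), if_pos h1, if_neg h2, if_neg h2, mul_one]
    · rw [if_pos (Finset.mem_union_right _ h2), if_neg h1, if_neg h1, if_pos h2, one_mul]
    · rw [if_neg (by simp [h1, h2]), if_neg h1, if_neg h2, one_mul]
  have hperm : ∀ (S : Finset ι) (σ : Equiv.Perm ι), Has W S → Has W (Finset.univ.filter fun j => σ j ∈ S) := by
    intro S σ h
    obtain ⟨k, k', hkk, hk⟩ := hW.perm σ
    have hv0 : (Pi.single x0 (1 : F) : Fin m → F) ≠ 0 := by simp [Pi.single_eq_zero_iff]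
    have hv1 : (Pi.single x1 (1 : F) : Fin m → F) ≠ 0 := by simp [Pi.single_eq_zero_iff]
    have hdot : (Pi.single x1 (1 : F) : Fin m → F) ⬝ᵥ (Pi.single x0 (1 : F)) = 0 := by
      rw [single_dotProduct, Pi.single_eq_of_ne hx.symm, mul_zero]
    have h1 := hk _ (h (fun _ => Pi.single x0 1) (fun _ => Pi.single x1 1) fun _ _ => ⟨hv0, hv1, hdot⟩)
    refine hW.has_of_one (v := fun j => k j *ᵥ Pi.single x0 1) (φ := fun j => Pi.single x1 1 ᵥ* k' j)
      (fun j _ => ⟨?_, ?_, ?_⟩) ?_
    · intro h0
      have := congrArg (k' j *ᵥ ·) h0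
      simp only [Matrix.mulVec_mulVec, mul_eq_one_comm.1 (hkk j), Matrix.one_mulVec, Matrix.mulVec_zero] at this
      exact hv0 this
    · intro h0
      have := congrArg (· ᵥ* k j) h0
      simp only [Matrix.vecMul_vecMul, mul_eq_one_comm.1 (hkk j), Matrix.vecMul_one, Matrix.zero_vecMul] at this
      exact hv1 this
    · rw [← dotProduct_mulVec, Matrix.mulVec_mulVec, mul_eq_one_comm.1 (hkk j), Matrix.one_mulVec, hdot]
    · convert h1 using 1
      rw [wm_mul, wm_mul]
      congr 1
      · simp
      · funext j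
        simp only [one_mul, Finset.mem_filter, Finset.mem_univ, true_and, Equiv.Perm.inv_def, Equiv.symm_apply_apply]
        by_cases hj : σ j ∈ S
        · rw [if_pos hj, if_pos hj, Matrix.mul_vecMulVec, Matrix.vecMulVec_mul]
        · rw [if_neg hj, if_neg hj, Matrix.mul_one, hkk]
  obtain ⟨Sx, hSx, hmax⟩ := Finset.exists_max_image
    (Finset.univ.filter fun T : Finset ι => l0 ∈ T ∧ Has W T) Finset.card ⟨S, by simp [hl0S, hS]⟩
  obtain ⟨hl0x, hHas⟩ := (Finset.mem_filter.1 hSx).2
  have hfull : Sx = Finset.univ := by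
    by_contra hne
    obtain ⟨l, hl⟩ : ∃ l, l ∉ Sx := by
      by_contra hc; push Not at hc; exact hne (Finset.eq_univ_of_forall hc)
    have h2 := hunion _ _ hHas (hperm Sx (Equiv.swap l l0) hHas)
    have h3 := hmax _ (Finset.mem_filter.2 ⟨Finset.mem_univ _, Finset.mem_union_left _ hl0x, h2⟩)
    have h4 : insert l Sx ⊆ Sx ∪ Finset.univ.filter fun j => Equiv.swap l l0 j ∈ Sx := by
      intro j hj
      rcases Finset.mem_insert.1 hj with rfl | hj'
      · exact Finset.mem_union_right _ (by simp [hl0x])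
      · exact Finset.mem_union_left _ hj'
    have := Finset.card_le_card h4
    rw [Finset.card_insert_of_notMem hl] at this
    omega
  have hunits : ∀ f g : ι → Fin m, (∀ l, f l ≠ g l) → Matrix.single f g (1 : F) ∈ W := by
    intro f g hfg
    have h1 := hHas (fun l => Pi.single (f l) 1) (fun l => Pi.single (g l) 1) fun l _ =>
      ⟨by simp [Pi.single_eq_zero_iff], by simp [Pi.single_eq_zero_iff],
        by rw [single_dotProduct, Pi.single_eq_of_ne (Ne.symm (hfg l)), mul_zero]⟩
    convert h1 using 1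
    ext p q
    rw [wm_apply, Matrix.single_apply]
    simp only [hfull, Finset.mem_univ, if_true, Matrix.vecMulVec_apply, Equiv.Perm.one_apply]
    by_cases hpq : f = p ∧ g = q
    · obtain ⟨rfl, rfl⟩ := hpq; simp
    · rw [if_neg hpq]
      symm
      rw [Finset.prod_eq_zero_iff]
      rcases not_and_or.1 hpq with h | h
      · obtain ⟨l, hl⟩ := Function.ne_iff.1 h
        exact ⟨l, Finset.mem_univ l, by simp [Pi.single_apply, Ne.symm hl]⟩
      · obtain ⟨l, hl⟩ := Function.ne_iff.1 h
        exact ⟨l, Finset.mem_univ l, by simp [Pi.single_apply, Ne.symm hl]⟩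
  have hh : ∀ l, ∃ x : Fin m, x ∉ ({f l, g l} : Finset (Fin m)) := by
    intro l
    by_contra hc
    push Not at hc
    have h1 := Finset.card_le_card (fun x _ => hc x : (Finset.univ : Finset (Fin m)) ⊆ {f l, g l})
    have h2 := Finset.card_le_two (a := f l) (b := g l)
    rw [Finset.card_univ, Fintype.card_fin] at h1
    omega
  choose h hh using hh
  simp only [Finset.mem_insert, Finset.mem_singleton, not_or] at hh
  have := hW.mul _ (hunits f h fun l => Ne.symm (hh l).1) _ (hunits h g fun l => (hh l).2)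
  rwa [Matrix.single_mul_single_same, one_mul] at this

end AlgInv

end Cfsg.Agent.H5.C7
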