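import Cfsg.Agent.H5.C7.Split
import Cfsg.Agent.H5.C7.Span

/-!
A matrix on a tensor power sending the roots of every factor to elements of single factors is a monomial
tensor, whatever the form preserved by the factors.
-/

set_option autoImplicit false
set_option linter.unusedSectionVars false

namespace Cfsg.Agent.H5.C7

open Matrix
open scoped Kronecker

variable {F : Type*} [Field F] {ι : Type} [Fintype ι] [DecidableEq ι] {m : ℕ}

local notation "MM" => Matrix (ι → Fin m) (ι → Fin m) F
local notation "mm" => Matrix (Fin m) (Fin m) F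

/-- A matrix which is scalar in every factor is a scalar. -/
theorem eq_smul_one_of_scalarAt {Z : MM} (h : ∀ l, ScalarAt l Z) : ∃ z : F, Z = z • (1 : MM) := by
  by_cases hZ : Z = 0
  · exact ⟨0, by rw [hZ, zero_smul]⟩
  obtain ⟨z, A, -, e, hA⟩ := eq_wm_of_classified hZ fun l => Or.inl (h l)
  refine ⟨z, ?_⟩
  rw [e, ← wm_one]
  congr 2
  funext l
  rcases hA l with ⟨-, h1⟩ | ⟨h1, -⟩
  · exact h1
  · exact absurd (h l) h1

/-- A matrix which is the identity on the factor `l` is scalar there. -/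
theorem scalarAt_of_rI {l : ι} {Z : MM} {K : Matrix ({j : ι // j ≠ l} → Fin m) ({j : ι // j ≠ l} → Fin m) F}
    (h : rI l Z = K ⊗ₖ (1 : mm)) : ScalarAt l Z := by
  intro a b
  refine (rI l).injective ?_
  rw [map_mul, map_mul, h, el, rI_sl_self, ← Matrix.mul_kronecker_mul, ← Matrix.mul_kronecker_mul,
    Matrix.one_mul, Matrix.mul_one, Matrix.one_mul, Matrix.mul_one]

theorem mul_sl_of_scalarAt {l : ι} {Z : MM} (h : ScalarAt l Z) (A : mm) : sl l A * Z = Z * sl l A := by
  induction A using Matrix.induction_on' with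
  | h_zero => rw [sl_zero, zero_mul, mul_zero]
  | h_add p q hp hq => rw [sl_add, add_mul, mul_add, hp, hq]
  | h_std_basis i j x =>
    rw [show Matrix.single i j x = x • Matrix.single i j (1 : F) by rw [Matrix.smul_single, smul_eq_mul, mul_one],
      sl_smul, smul_mul_assoc, mul_smul_comm, show sl l (Matrix.single i j (1 : F)) = el l i j from rfl, h]

/-- A non-trivial square-zero deviation from one which is scalar or in one factor, at every factor, lives in
one factor. -/
theorem exists_slot [Nonempty ι] (hm : 0 < m) {Y : MM} (hsq : (Y - 1) * (Y - 1) = 0)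
    (h : ∀ j, ScalarAt j (Y - 1) ∨ ∃ k : mm, Y = sl j k) : ∃ (j : ι) (k : mm), Y = sl j k := by
  by_cases hs : ∀ j, ScalarAt j (Y - 1)
  · obtain ⟨z, hz⟩ := eq_smul_one_of_scalarAt hs
    have hne : (1 : MM) ≠ 0 := fun h0 => by
      have := congrFun (congrFun h0 fun _ => ⟨0, hm⟩) fun _ => ⟨0, hm⟩
      simp at this
    rw [hz, smul_mul_assoc, one_mul, smul_smul, smul_eq_zero, or_iff_left hne, mul_self_eq_zero] at hsq
    rw [hsq, zero_smul, sub_eq_zero] at hz
    exact ⟨Classical.arbitrary ι, 1, by rw [sl_one, hz]⟩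
  · push Not at hs
    obtain ⟨j, hj⟩ := hs
    obtain ⟨k, hk⟩ := (h j).resolve_left hj
    exact ⟨j, k, hk⟩

/-- The component in one factor. -/
def comp (hm : 0 < m) (j : ι) : MM →ₗ[F] mm where
  toFun Z := Matrix.of fun a b => Z (Function.update (fun _ => ⟨0, hm⟩) j a) (Function.update (fun _ => ⟨0, hm⟩) j b)
  map_add' X Y := rfl
  map_smul' c X := rfl

theorem comp_sl (hm : 0 < m) (j : ι) (k : mm) : comp hm j (sl j k : MM) = k := by
  ext a b
  show sl j k _ _ = _
  rw [sl_apply, if_pos (fun l hl => by rw [Function.update_of_ne hl, Function.update_of_ne hl]),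
    Function.update_self, Function.update_self]

theorem sl_injective (hm : 0 < m) (j : ι) : Function.Injective (sl j : mm → MM) := fun A B h => by
  have := congrArg (comp hm j) h
  rwa [comp_sl, comp_sl] at this

/-- A matrix normalising the algebra of each factor, compatibly, is a tensor at each factor. -/
theorem exists_unit_of_intertwine (i : ι) {Z Z' : MM} (hZ : Z * Z' = 1) (hm : 0 < m) {f : mm → mm}
    (hf : ∀ A, Z * sl i A * Z' = sl i (f A)) :
    ∃ (U : mm) (g : Matrix ({j : ι // j ≠ i} → Fin m) ({j : ι // j ≠ i} → Fin m) F),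
      IsUnit U.det ∧ rI i Z = g ⊗ₖ U := by
  classical
  set B : ({j : ι // j ≠ i} → Fin m) → ({j : ι // j ≠ i} → Fin m) → mm :=
    fun p q => Matrix.of fun x y => rI i Z (p, x) (q, y) with hB
  have hZZ : Z' * Z = 1 := mul_eq_one_comm.1 hZ
  have hrel : ∀ A p q, B p q * A = f A * B p q := by
    intro A p q
    have h1 : Z * sl i A = sl i (f A) * Z := by rw [← hf, mul_assoc _ Z' Z, hZZ, mul_one]
    have h2 := congrArg (rI i) h1
    rw [map_mul, map_mul, rI_sl_self, rI_sl_self] at h2
    ext x y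
    have h3 := congrFun (congrFun h2 (p, x)) (q, y)
    simp only [Matrix.mul_apply, Fintype.sum_prod_type, Matrix.kronecker_apply] at h3
    rw [Finset.sum_eq_single q, Finset.sum_eq_single p] at h3
    · simpa [hB, Matrix.mul_apply] using h3
    · intro r _ hr; simp [Matrix.one_apply_ne (Ne.symm hr)]
    · simp
    · intro r _ hr; simp [Matrix.one_apply_ne hr]
    · simp
  obtain ⟨p0, q0, h0⟩ : ∃ p q, B p q ≠ 0 := by
    by_contra hc
    push Not at hc
    have hz : rI i Z = 0 := by ext ⟨p, x⟩ ⟨q, y⟩; exact congrFun (congrFun (hc p q) x) y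
    rw [map_eq_zero_iff _ (rI i).injective] at hz
    rw [hz, zero_mul] at hZ
    have := congrFun (congrFun hZ fun _ => ⟨0, hm⟩) fun _ => ⟨0, hm⟩
    simp at this
  set U := B p0 q0 with hU
  have hu : IsUnit U.det := by
    rw [isUnit_iff_ne_zero]
    intro hd
    obtain ⟨v, hv, hUv⟩ := Matrix.exists_mulVec_eq_zero_iff.2 hd
    obtain ⟨x0, hx0⟩ := Function.ne_iff.1 hv
    rw [Pi.zero_apply] at hx0
    refine h0 (Matrix.ext_iff_mulVec.2 fun w => ?_)
    have hw : Matrix.of (fun x y => w x * (Pi.single x0 (v x0)⁻¹ : Fin m → F) y) *ᵥ v = w := by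
      funext x
      simp [Matrix.mulVec, dotProduct, Pi.single_apply, hx0]
    rw [Matrix.zero_mulVec, ← hw, Matrix.mulVec_mulVec, hrel, ← Matrix.mulVec_mulVec, hUv, Matrix.mulVec_zero]
  have hg : ∀ p q, ∃ c : F, B p q = c • U := by
    intro p q
    obtain ⟨c, hc⟩ : U⁻¹ * B p q ∈ Set.range (Matrix.scalar (Fin m)) := by
      refine Matrix.mem_range_scalar_iff_commute_single'.2 fun a b => ?_
      show Matrix.single a b (1 : F) * (U⁻¹ * B p q) = (U⁻¹ * B p q) * Matrix.single a b 1
      rw [mul_assoc, hrel, ← mul_assoc, ← mul_assoc]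
      congr 1
      calc Matrix.single a b (1 : F) * U⁻¹
          = U⁻¹ * (U * Matrix.single a b 1) * U⁻¹ := by
            rw [← mul_assoc, Matrix.nonsing_inv_mul U hu, one_mul]
        _ = U⁻¹ * f (Matrix.single a b 1) := by
            rw [hU, hrel, ← hU, mul_assoc, mul_assoc, Matrix.mul_nonsing_inv U hu, mul_one]
    refine ⟨c, ?_⟩
    have h1 := congrArg (U * ·) hc
    simp only [← mul_assoc, Matrix.mul_nonsing_inv U hu, one_mul] at h1
    rw [← h1, Matrix.scalar_apply, ← Matrix.smul_one_eq_diagonal, mul_smul_comm, mul_one]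
  choose c hc using hg
  refine ⟨U, Matrix.of fun p q => c p q, hu, ?_⟩
  ext ⟨p, x⟩ ⟨q, y⟩
  rw [Matrix.kronecker_apply, Matrix.of_apply]
  exact congrFun (congrFun (hc p q) x) y

/-- A matrix normalising every factor algebra is a tensor. -/
theorem isWreath_of_normalises [Nonempty ι] (hm : 0 < m) {Z Z' : MM} (hZ : Z * Z' = 1) {f : ι → mm → mm}
    (hf : ∀ i A, Z * sl i A * Z' = sl i (f i A)) : IsWreath Z := by
  classical
  choose U g hU hg using fun i => exists_unit_of_intertwine i hZ hm (hf i)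
  set C : MM := wm 1 fun j => (U j)⁻¹
  have hsc : ∀ l, ScalarAt l (C * Z) := fun l => by
    refine scalarAt_of_rI (K := (wm 1 fun j : {j : ι // j ≠ l} => (U j.1)⁻¹) * g l) ?_
    rw [map_mul, rI_tens, hg, ← Matrix.mul_kronecker_mul, Matrix.nonsing_inv_mul _ (hU l)]
  obtain ⟨z, hz⟩ := eq_smul_one_of_scalarAt hsc
  have h1 : (wm 1 U : MM) * C = 1 := by
    rw [wm_mul, ← wm_one, mul_one]
    congr 1
    funext j
    exact Matrix.mul_nonsing_inv _ (hU j)
  have h2 : Z = z • (wm 1 U : MM) := by
    calc Z = (wm 1 U : MM) * (C * Z) := by rw [← mul_assoc, h1, one_mul]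
      _ = _ := by rw [hz, mul_smul_comm, mul_one]
  let i := Classical.arbitrary ι
  have h3 : z • (1 : MM) = wm 1 (Function.update (fun _ => (1 : mm)) i (z • 1)) := by
    rw [← sl, sl_smul, sl_one]
  rw [h2, show z • (wm 1 U : MM) = z • (1 : MM) * wm 1 U by rw [smul_mul_assoc, one_mul], h3, wm_mul]
  exact ⟨_, _, rfl⟩

/-- A matrix sending the roots of every factor to elements of single factors is monomial. -/
theorem isWreath_of_slots [Nonempty ι] (hm : 2 ≤ m) {R : Set (Matrix (Fin m) (Fin m) F)}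
    (hne : R.Nonempty) (hgen : Algebra.adjoin F R = ⊤)
    (hconn : ∀ r ∈ R, ∀ s ∈ R, ∃ u ∈ R, r * u ≠ u * r ∧ u * s ≠ s * u)
    {X X' : MM} (hX : X * X' = 1)
    (h : ∀ (i : ι), ∀ r ∈ R, ∃ (j : ι) (k : mm), X * sl i r * X' = sl j k) : IsWreath X := by
  classical
  have hm0 : 0 < m := by omega
  have hXX : X' * X = 1 := mul_eq_one_comm.1 hX
  have hc : ∀ (P Q : MM), X * P * X' * (X * Q * X') = X * (P * Q) * X' := fun P Q => by
    simp only [mul_assoc]; rw [← mul_assoc X' X, hXX, one_mul]
  have hinj : ∀ P Q : MM, X * P * X' = X * Q * X' → P = Q := fun P Q e => by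
    have := congrArg (fun T => X' * T * X) e
    simp only [mul_assoc, hXX, mul_one] at this
    rwa [← mul_assoc X' X, ← mul_assoc X' X, hXX, one_mul, one_mul] at this
  obtain ⟨r0, hr0⟩ := hne
  choose σ hσ using fun i => h i r0 hr0
  -- noncommuting roots go to the same factor
  have hsame : ∀ (i : ι) (r s : mm), r * s ≠ s * r → ∀ (j j' : ι) (k k' : mm),
      X * sl i r * X' = sl j k → X * sl i s * X' = sl j' k' → j = j' := by
    intro i r s hrs j j' k k' e e'
    by_contra hjj
    apply hrs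
    refine sl_injective hm0 i (hinj _ _ ?_)
    rw [← sl_mul, ← sl_mul, ← hc, ← hc, e, e', sl_comm hjj]
  have hall : ∀ i, ∀ r ∈ R, ∃ k : mm, X * sl i r * X' = sl (σ i) k := by
    intro i r hr
    obtain ⟨j, k, e⟩ := h i r hr
    obtain ⟨u, hu, h1, h2⟩ := hconn r hr r0 hr0
    obtain ⟨j', k', e'⟩ := h i u hu
    obtain ⟨k0, e0⟩ := hσ i
    have hjj : j = σ i := (hsame i r u h1 j j' k k' e e').trans (hsame i u r0 h2 j' (σ i) k' k0 e' e0)
    exact ⟨k, hjj ▸ e⟩
  have halg : ∀ i, ∀ A : mm, ∃ k : mm, X * sl i A * X' = sl (σ i) k := by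
    intro i A
    have hA : A ∈ Algebra.adjoin F R := hgen ▸ Algebra.mem_top
    induction hA using Algebra.adjoin_induction with
    | mem r hr => exact hall i r hr
    | algebraMap c =>
      refine ⟨c • 1, ?_⟩
      rw [Algebra.algebraMap_eq_smul_one, sl_smul, sl_smul, sl_one, sl_one, mul_smul_comm, smul_mul_assoc,
        mul_one, hX]
    | add p q _ _ hp hq =>
      obtain ⟨k, hk⟩ := hp
      obtain ⟨k', hk'⟩ := hq
      exact ⟨k + k', by rw [sl_add, mul_add, add_mul, hk, hk', sl_add]⟩
    | mul p q _ _ hp hq =>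
      obtain ⟨k, hk⟩ := hp
      obtain ⟨k', hk'⟩ := hq
      exact ⟨k * k', by rw [← sl_mul, ← hc, hk, hk', sl_mul]⟩
  choose φ hφ using halg
  have hφ_inj : ∀ i, Function.Injective (φ i) := fun i A B e =>
    sl_injective hm0 i (hinj _ _ (by rw [hφ, hφ, e]))
  have hφ_surj : ∀ i, Function.Surjective (φ i) := by
    intro i
    have hlin : ∀ A, φ i A = comp hm0 (σ i) (X * sl i A * X') := fun A => by rw [hφ, comp_sl]
    let L : mm →ₗ[F] mm :=
      { toFun := φ i
        map_add' := fun A B => by rw [hlin, hlin, hlin, sl_add, mul_add, add_mul, map_add]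
        map_smul' := fun c A => by
          rw [hlin, hlin, sl_smul, mul_smul_comm, smul_mul_assoc, map_smul, RingHom.id_apply] }
    exact LinearMap.surjective_of_injective (f := L) (hφ_inj i)
  have hσ_inj : Function.Injective σ := by
    intro i l e
    by_contra hil
    have h0 : (⟨0, by omega⟩ : Fin m) ≠ ⟨1, by omega⟩ := by simp [Fin.ext_iff]
    obtain ⟨A, hA⟩ := hφ_surj i (Matrix.single ⟨0, by omega⟩ ⟨1, by omega⟩ (1 : F))
    obtain ⟨B, hB⟩ := hφ_surj l (Matrix.single ⟨1, by omega⟩ ⟨0, by omega⟩ (1 : F))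
    have h1 := congrArg (fun T => X * T * X') (sl_comm hil A B)
    simp only [← hc, hφ, hA, hB, ← e, sl_mul] at h1
    have h2 := congrFun (congrFun (sl_injective hm0 (σ i) h1) ⟨0, by omega⟩) ⟨0, by omega⟩
    simp [Matrix.mul_apply, Matrix.single_apply, h0, h0.symm] at h2
  let π : Equiv.Perm ι := Equiv.ofBijective σ (Finite.injective_iff_bijective.1 hσ_inj)
  set W : MM := wm π fun _ => 1
  set W' : MM := wm π⁻¹ fun _ => 1
  have hWW : W * W' = 1 := wm_mul_inv π (fun _ => 1) (fun _ => 1) fun _ => one_mul 1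
  have hW : ∀ i (k : mm), W * sl (σ i) k * W' = sl i k := by
    intro i k
    have e : W * sl (σ i) k = sl i k * W := by
      rw [sl, sl, wm_mul, wm_mul]
      congr 1
      funext j
      simp only [one_mul, mul_one, Equiv.Perm.one_apply]
      by_cases hj : j = i
      · subst hj; rw [Function.update_self, show π j = σ j from rfl, Function.update_self]
      · rw [Function.update_of_ne hj, Function.update_of_ne (show π j ≠ σ i from fun h => hj (hσ_inj h))]
    rw [e, mul_assoc, hWW, mul_one]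
  have hZ : W * X * (X' * W') = 1 := by rw [mul_assoc, ← mul_assoc X, hX, one_mul, hWW]
  have h1 : IsWreath (W * X) := isWreath_of_normalises hm0 hZ (f := φ) fun i A => by
    rw [← hW i (φ i A), ← hφ]; simp only [mul_assoc]
  have h2 := IsWreath.mul (⟨π⁻¹, fun _ => 1, rfl⟩ : IsWreath W') h1
  rwa [← mul_assoc, mul_eq_one_comm.1 hWW, one_mul] at h2

end Cfsg.Agent.H5.C7
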