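import Cfsg.Agent.H5.C7.Outer
import Cfsg.Agent.H99.TensorS.Purity

/-!
Monomial unipotent elements `1 + c (x) A_i` of a group of isometries of a tensor power of an alternating form:
each `A_i` is trivial, a symplectic transvection part or an alternating part of rank two.
-/

set_option autoImplicit false
set_option linter.unusedSectionVars false

namespace Cfsg.Agent.H5.C7

open Matrix
open Cfsg.Agent.H99.TensorS (SympMat bf rk adj wedge)

variable {F : Type*} [Field F] {ι : Type} [Fintype ι] [DecidableEq ι] {m : ℕ}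

local notation "MM" => Matrix (ι → Fin m) (ι → Fin m) F
local notation "mm" => Matrix (Fin m) (Fin m) F

/-- The transvection part of a non-zero vector. -/
def IsN (J A : Matrix (Fin m) (Fin m) F) : Prop := ∃ v, v ≠ 0 ∧ A = rk J v v

/-- The part of two independent orthogonal vectors. -/
def IsT (J A : Matrix (Fin m) (Fin m) F) : Prop :=
  ∃ x y, x ≠ 0 ∧ (∀ s : F, y ≠ s • x) ∧ bf J x y = 0 ∧ A = wedge J x y

/-- The setting: the factor transvections and three-cycles of the factors in a group of isometries. -/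
structure SW0 (J : Matrix (Fin m) (Fin m) F) (M : Subgroup (GL (ι → Fin m) F)) : Prop where
  sJ : SympMat J
  slot : ∀ (i : ι) (v : Fin m → F) (d : F), Mem M (sl i (1 + d • rk J v v))
  cyc : ∀ a b c : ι, a ≠ b → b ≠ c → a ≠ c →
    Mem M (wm (Equiv.swap a b * Equiv.swap b c) fun _ => (1 : mm))
  iso : ∀ y ∈ M, (y : MM)ᵀ * wm 1 (fun _ => J) * (y : MM) = wm 1 fun _ => J

/-- The setting in odd characteristic. -/
structure SW (J : Matrix (Fin m) (Fin m) F) (M : Subgroup (GL (ι → Fin m) F)) : Prop extends SW0 J M where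
  two : (2 : F) ≠ 0

/-- All monomial elements of a given type. -/
def Mono (J : Matrix (Fin m) (Fin m) F) (M : Subgroup (GL (ι → Fin m) F)) (P Q : Finset ι) : Prop :=
  ∀ (c : F) (k : ι → Matrix (Fin m) (Fin m) F), (∀ i ∈ P, IsN J (k i)) → (∀ i ∈ Q, IsT J (k i)) →
    (∀ i, i ∉ P → i ∉ Q → k i = 1) → Mem M (1 + c • wm 1 k)

section Algebra

theorem wm1_mul (k l : ι → mm) : (wm 1 k : MM) * wm 1 l = wm 1 fun i => k i * l i := by
  rw [wm_mul, one_mul]
  rfl

theorem wm1_update (k : ι → mm) (i : ι) (A : mm) :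
    (wm 1 (Function.update k i A) : MM) = sl i A * wm 1 (Function.update k i 1) := by
  rw [sl, wm1_mul]
  congr 1
  funext j
  by_cases h : j = i
  · subst h; simp
  · simp [h]

theorem sl_wm1_sl (k : ι → mm) (i : ι) (A B : mm) :
    (sl i A : MM) * wm 1 k * sl i B = wm 1 (Function.update k i (A * k i * B)) := by
  rw [sl, sl, wm1_mul, wm1_mul]
  congr 1
  funext j
  by_cases h : j = i
  · subst h; simp
  · simp [h]

theorem sl_mul_wm1 (k : ι → mm) (i : ι) (A : mm) :
    (sl i A : MM) * wm 1 k = wm 1 (Function.update k i (A * k i)) := by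
  have := sl_wm1_sl k i A 1
  rwa [sl_one, mul_one, mul_one] at this

theorem wm1_mul_sl (k : ι → mm) (i : ι) (A : mm) :
    (wm 1 k : MM) * sl i A = wm 1 (Function.update k i (k i * A)) := by
  have := sl_wm1_sl k i 1 A
  rwa [sl_one, one_mul, one_mul] at this

theorem wm1_update_add (k : ι → mm) (i : ι) (A B : mm) :
    (wm 1 (Function.update k i (A + B)) : MM) = wm 1 (Function.update k i A) + wm 1 (Function.update k i B) := by
  rw [wm1_update, wm1_update k i A, wm1_update k i B, sl_add, add_mul]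

theorem wm1_update_smul (k : ι → mm) (i : ι) (c : F) (A : mm) :
    (wm 1 (Function.update k i (c • A)) : MM) = c • wm 1 (Function.update k i A) := by
  rw [wm1_update, wm1_update k i A, sl_smul, smul_mul_assoc]

theorem wm1_update_sub (k : ι → mm) (i : ι) (A B : mm) :
    (wm 1 (Function.update k i (A - B)) : MM) = wm 1 (Function.update k i A) - wm 1 (Function.update k i B) := by
  rw [sub_eq_add_neg, ← neg_one_smul F B, wm1_update_add, wm1_update_smul, neg_one_smul, ← sub_eq_add_neg]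

theorem wm1_eq_zero {k : ι → mm} (i : ι) (h : k i = 0) : (wm 1 k : MM) = 0 := by
  rw [← Function.update_eq_self i k, h, wm1_update, sl_zero, zero_mul]

theorem wm1_ne {k : ι → mm} (h : ∀ i, k i ≠ 0) : (wm 1 k : MM) ≠ 0 := by
  intro e
  choose f g hfg using fun i => show ∃ a b, k i a b ≠ 0 by
    by_contra hc
    push Not at hc
    exact h i (Matrix.ext fun a b => hc a b)
  have := congrFun (congrFun e f) g
  rw [wm_apply, Matrix.zero_apply, Finset.prod_eq_zero_iff] at this
  obtain ⟨i, -, hi⟩ := this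
  exact hfg i (by simpa using hi)

theorem wm1_prod_smul (s : ι → F) (k : ι → mm) :
    (wm 1 (fun i => s i • k i) : MM) = (∏ i, s i) • wm 1 k := by
  ext f g
  simp [wm_apply, Finset.prod_mul_distrib]

theorem wm1_transpose (k : ι → mm) : (wm 1 k : MM)ᵀ = wm 1 fun i => (k i)ᵀ := by
  ext f g
  simp [wm_apply]

end Algebra

section Parts

variable {J : Matrix (Fin m) (Fin m) F}

theorem IsN.sq (hJ : SympMat J) {A : mm} (h : IsN J A) : A * A = 0 := by
  obtain ⟨v, -, rfl⟩ := h
  rw [H99.TensorS.rk_mul, hJ.self, zero_smul]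

theorem IsT.sq (hJ : SympMat J) {A : mm} (h : IsT J A) : A * A = 0 := by
  obtain ⟨x, y, -, -, hxy, rfl⟩ := h
  exact H99.TensorS.wedge_sq hJ hxy

theorem IsT.ne (hJ : SympMat J) {A : mm} (h : IsT J A) : A ≠ 0 := by
  obtain ⟨x, y, hx, hy, -, rfl⟩ := h
  exact H99.TensorS.wedge_ne hJ hx hy

theorem IsN.ne (hJ : SympMat J) {A : mm} (h : IsN J A) : A ≠ 0 := by
  obtain ⟨v, hv, rfl⟩ := h
  intro e
  obtain ⟨w, hw⟩ := hJ.exists_one hv
  have := congrArg (· *ᵥ w) e
  simp only [H99.TensorS.rk_mulVec, hw, one_smul, zero_mulVec] at this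
  exact hv this

theorem mul_adj (hJ : SympMat J) (X : mm) : J * adj J J X = Xᵀ * J := by
  rw [adj, ← Matrix.mul_assoc, ← Matrix.mul_assoc, mul_nonsing_inv J hJ.unit, Matrix.one_mul]

theorem IsN.transpose (hJ : SympMat J) {A : mm} (h : IsN J A) : Aᵀ * J = (-1 : F) • (J * A) := by
  obtain ⟨v, -, rfl⟩ := h
  rw [← mul_adj hJ, H99.TensorS.adj_rk hJ, Matrix.mul_neg, neg_one_smul]

theorem IsT.transpose (hJ : SympMat J) {A : mm} (h : IsT J A) : Aᵀ * J = (1 : F) • (J * A) := by
  obtain ⟨x, y, -, -, -, rfl⟩ := h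
  rw [← mul_adj hJ, H99.TensorS.adj_wedge hJ, one_smul]

theorem four_le_of_isT (hJ : SympMat J) {A : mm} (h : IsT J A) : 3 ≤ m := by
  obtain ⟨x, y, hx, hy, hxy, rfl⟩ := h
  by_contra hm
  obtain ⟨u, hu⟩ := hJ.exists_one hx
  have hli : LinearIndependent F ![x, y, u] := by
    rw [Fintype.linearIndependent_iff]
    intro g hg
    simp only [Fin.sum_univ_three, Matrix.cons_val_zero, Matrix.cons_val_one, Matrix.cons_val_two,
      Matrix.tail_cons, Matrix.head_cons] at hg
    have h2 : g 2 = 0 := by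
      have := congrArg (bf J x) hg
      simpa [H99.TensorS.bf_add_right, H99.TensorS.bf_smul_right, hJ.self, hxy, hu,
        H99.TensorS.bf_zero_right] using this
    have h1 : g 1 = 0 := by
      by_contra h1
      refine hy (-(g 1)⁻¹ * g 0) ?_
      rw [h2, zero_smul, add_zero, add_comm] at hg
      have := eq_neg_of_add_eq_zero_left hg
      calc y = (g 1)⁻¹ • (g 1 • y) := by rw [smul_smul, inv_mul_cancel₀ h1, one_smul]
        _ = _ := by rw [this, smul_neg, smul_smul, ← neg_smul, neg_mul]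
    have h0 : g 0 = 0 := by
      rw [h1, h2, zero_smul, zero_smul, add_zero, add_zero, smul_eq_zero] at hg
      exact hg.resolve_right hx
    intro i
    fin_cases i <;> assumption
  have := hli.fintype_card_le_finrank
  rw [Fintype.card_fin, Module.finrank_fintype_fun_eq_card, Fintype.card_fin] at this
  omega

end Parts

section Common

variable {J : Matrix (Fin m) (Fin m) F} {M : Subgroup (GL (ι → Fin m) F)} (H : SW0 J M)
include H

omit H in
theorem Mem.neg {A : MM} (hA : Mem M (1 + A)) (h : A * A = 0) : Mem M (1 - A) :=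
  hA.inv (by rw [mul_sub, mul_one, add_mul, one_mul, h]; simp)

omit H in
theorem Mem.add {A B : MM} (hA : Mem M (1 + A)) (hB : Mem M (1 + B)) (h : A * B = 0) : Mem M (1 + (A + B)) := by
  have := hA.mul hB
  rwa [mul_add, mul_one, add_mul, one_mul, h, add_zero, add_assoc] at this

omit H in
theorem Mem.conj' {A P P' : MM} (hA : Mem M (1 + A)) (hP : Mem M P) (h : P * P' = 1) :
    Mem M (1 + P * A * P') := by
  have := (hP.mul hA).mul (hP.inv h)
  rwa [mul_add, mul_one, add_mul, h] at this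

omit H in
/-- A commutator of two elements with null products. -/
theorem Mem.comm₂ {A B : MM} (hA : Mem M (1 + A)) (hB : Mem M (1 + B)) (hAA : A * A = 0)
    (hBB : B * B = 0) (hABA : A * B * A = 0) (hBAB : B * A * B = 0) : Mem M (1 + (A * B - B * A)) := by
  have hc := ((hA.mul hB).mul (hA.neg hAA)).mul (hB.neg hBB)
  have e : (1 + A) * (1 + B) * (1 - A) * (1 - B) - (1 + (A * B - B * A)) =
      -(A * A) - B * B + A * A * B - A * (B * B) - A * B * A + B * A * B + A * B * A * B := by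
    noncomm_ring
  rw [hABA, hBAB, hAA, hBB] at e
  simp only [neg_zero, zero_mul, mul_zero, sub_zero, add_zero] at e
  rwa [sub_eq_zero.1 e] at hc

/-- An element of a factor group. -/
def Mv (J : Matrix (Fin m) (Fin m) F) (M : Subgroup (GL (ι → Fin m) F)) (i : ι)
    (g : Matrix (Fin m) (Fin m) F) : Prop :=
  Mem M (sl i g) ∧ adj J J g * g = 1

theorem SW0.mv_trans (i : ι) (v : Fin m → F) (d : F) : Mv J M i (1 + d • rk J v v) :=
  ⟨H.slot i v d, H99.TensorS.trans_unitary H.sJ v d⟩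

theorem SW0.mv_mul {i : ι} {g h : mm} (hg : Mv J M i g) (hh : Mv J M i h) : Mv J M i (g * h) := by
  refine ⟨?_, ?_⟩
  · have := hg.1.mul hh.1
    rwa [sl_mul] at this
  · rw [H99.TensorS.adj_mul H.sJ.unit, Matrix.mul_assoc, ← Matrix.mul_assoc (adj J J g), hg.2, Matrix.one_mul, hh.2]

theorem SW0.mv_move {i : ι} {a c : Fin m → F} (hca : bf J c a ≠ 0) :
    ∃ g : mm, Mv J M i g ∧ g *ᵥ a = c ∧ ∀ x, bf J a x = 0 → bf J c x = 0 → g *ᵥ x = x := by
  obtain ⟨d, e, h⟩ := H99.TensorS.exists_move H.sJ hca one_ne_zero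
  refine ⟨_, H.mv_mul (H.mv_trans i a e) (H.mv_trans i c d), by rw [h, one_smul], fun x hax hcx => ?_⟩
  simp only [← mulVec_mulVec, add_mulVec, one_mulVec, smul_mulVec, H99.TensorS.rk_mulVec, hax, hcx, zero_smul,
    smul_zero, add_zero]

theorem SW0.mv_map (i : ι) {a c : Fin m → F} (ha : a ≠ 0) (hc : c ≠ 0) :
    ∃ g : mm, Mv J M i g ∧ g *ᵥ a = c := by
  obtain ⟨u, hua, huc⟩ := H.sJ.exists_common₂ ha hc
  obtain ⟨g₁, m₁, e₁, -⟩ := H.mv_move (i := i) hua
  obtain ⟨g₂, m₂, e₂, -⟩ := H.mv_move (i := i) (a := u) (c := c) fun h => huc (H.sJ.zero_comm.1 h)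
  exact ⟨g₂ * g₁, H.mv_mul m₂ m₁, by rw [← mulVec_mulVec, e₁, e₂]⟩

theorem SW0.mv_map_pair (i : ι) {x y x' y' : Fin m → F} (hx : x ≠ 0) (hy : ∀ s : F, y ≠ s • x)
    (hxy : bf J x y = 0) (hx' : x' ≠ 0) (hy' : ∀ s : F, y' ≠ s • x') (hxy' : bf J x' y' = 0) :
    ∃ g : mm, Mv J M i g ∧ g *ᵥ x = x' ∧ g *ᵥ y = y' := by
  obtain ⟨g, hg, hgx⟩ := H.mv_map i hx hx'
  set y₁ := g *ᵥ y with hy₁
  have h1 : bf J x' y₁ = 0 := by rw [← hgx, hy₁, H99.TensorS.bf_mulVec H.sJ hg.2, hxy]
  have h1' : ∀ s : F, y₁ ≠ s • x' := fun s hs => hy s (by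
    have := congrArg (adj J J g *ᵥ ·) hs
    simp only [hy₁, mulVec_smul] at this
    rwa [mulVec_mulVec, ← hgx, mulVec_mulVec, hg.2, one_mulVec, one_mulVec] at this)
  obtain ⟨u, hxu, hu1, hu2⟩ := H.sJ.exists_common h1' hy'
  obtain ⟨g₁, m₁, e₁, f₁⟩ := H.mv_move (i := i) hu1
  obtain ⟨g₂, m₂, e₂, f₂⟩ := H.mv_move (i := i) (a := u) (c := y') fun h => hu2 (H.sJ.zero_comm.1 h)
  have hux := H.sJ.zero_comm.1 hxu
  have hy1x := H.sJ.zero_comm.1 h1
  have hy'x := H.sJ.zero_comm.1 hxy'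
  refine ⟨g₂ * g₁ * g, H.mv_mul (H.mv_mul m₂ m₁) hg, ?_, ?_⟩
  · rw [← mulVec_mulVec, hgx, ← mulVec_mulVec, f₁ x' hy1x hux, f₂ x' hux hy'x]
  · rw [← mulVec_mulVec, ← hy₁, ← mulVec_mulVec, e₁, e₂]

theorem SW0.mem_conj_slot {i : ι} {g : mm} (hg : Mv J M i g) {c : F} {k : ι → mm} (h : Mem M (1 + c • wm 1 k)) :
    Mem M (1 + c • wm 1 (Function.update k i (g * k i * adj J J g))) := by
  have := h.conj' hg.1 (P' := sl i (adj J J g)) (by rw [sl_mul, mul_eq_one_comm.1 hg.2, sl_one])
  rwa [mul_smul_comm, smul_mul_assoc, sl_wm1_sl] at this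

theorem SW0.isT_of {e e' h : Fin m → F} (hee : bf J e e' = 1) (hh : h ≠ 0) (heh : bf J e h = 0)
    (he'h : bf J e' h = 0) : IsT J (wedge J e h) ∧ IsT J (wedge J e' h) := by
  have h1 : ∀ a b : Fin m → F, bf J a b ≠ 0 → bf J b h = 0 → bf J a h = 0 → IsT J (wedge J a h) := by
    intro a b hab hbh hah
    have ha : a ≠ 0 := fun h0 => hab (by rw [h0, H99.TensorS.bf_zero_left])
    refine ⟨a, h, ha, fun t ht => ?_, hah, rfl⟩
    rw [ht, H99.TensorS.bf_smul_right] at hbh
    rcases mul_eq_zero.1 hbh with h0 | h0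
    · exact hh (by rw [ht, h0, zero_smul])
    · exact hab (H.sJ.zero_comm.1 h0)
  exact ⟨h1 e e' (by rw [hee]; exact one_ne_zero) he'h heh,
    h1 e' e (by rw [H.sJ.swap e e', hee]; exact neg_ne_zero.2 one_ne_zero) heh he'h⟩

/-- Three-cycles of the factors act on the types. -/
theorem SW0.mono_cycle {P Q : Finset ι} (h : Mono J M P Q) {x y z : ι} (hxy : x ≠ y) (hyz : y ≠ z) (hxz : x ≠ z) :
    Mono J M (P.image (Equiv.swap x y * Equiv.swap y z)) (Q.image (Equiv.swap x y * Equiv.swap y z)) := by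
  set σ : Equiv.Perm ι := Equiv.swap x y * Equiv.swap y z with hσ
  set π : Equiv.Perm ι := Equiv.swap x z * Equiv.swap z y with hπ
  have hinv : π * σ = 1 := by
    refine Equiv.ext fun w => ?_
    simp only [hπ, hσ, Equiv.Perm.mul_apply, Equiv.Perm.one_apply, Equiv.swap_apply_def]
    split_ifs <;> simp_all
  have hπm := H.cyc x z y hxz hyz.symm hxy
  intro c k kP kQ k1
  set k₀ : ι → mm := fun i => k (σ i) with hk₀
  have hmem := h c k₀ (fun i hi => kP _ (Finset.mem_image_of_mem σ hi))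
    (fun i hi => kQ _ (Finset.mem_image_of_mem σ hi))
    (fun i hi hi' => k1 _ (fun e => hi (σ.injective.mem_finset_image.1 e))
      (fun e => hi' (σ.injective.mem_finset_image.1 e)))
  have := hmem.conj' hπm (P' := wm π⁻¹ fun _ => 1) (wm_mul_inv π (fun _ => 1) (fun _ => 1) fun _ => one_mul 1)
  rw [mul_smul_comm, smul_mul_assoc, wm_mul, one_mul, wm_mul, inv_mul_cancel] at this
  convert this using 4
  funext i
  simp only [hk₀, Matrix.one_mul, Matrix.mul_one]
  have e : σ (π i) = i := by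
    have := congrArg (fun f : Equiv.Perm ι => f i) (mul_eq_one_comm.1 hinv)
    simpa using this
  rw [e]

end Common

variable {J : Matrix (Fin m) (Fin m) F} {M : Subgroup (GL (ι → Fin m) F)} (H : SW J M)
include H

/-- The parity of the transvection parts. -/
theorem SW.odd_of_mem {P Q : Finset ι} {c : F} (hc : c ≠ 0) {k : ι → mm} (hP : ∀ i ∈ P, IsN J (k i))
    (hQ : ∀ i ∈ Q, IsT J (k i)) (h1 : ∀ i, i ∉ P → i ∉ Q → k i = 1) (hdis : Disjoint P Q)
    (hne : (P ∪ Q).Nonempty) (hmem : Mem M (1 + c • wm 1 k)) : Odd P.card := by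
  set s : ι → F := fun i => if i ∈ P then -1 else 1 with hs
  have hJ := H.sJ
  obtain ⟨i₀, hi₀⟩ := hne
  have hm : 0 < m := by
    by_contra hm
    have hk : k i₀ = 0 := by
      ext a
      exact absurd a.2 (by omega)
    rcases Finset.mem_union.1 hi₀ with h | h
    · exact (hP _ h).ne hJ hk
    · exact (hQ _ h).ne hJ hk
  have hk : ∀ i, (k i)ᵀ * J = s i • (J * k i) := by
    intro i
    by_cases hiP : i ∈ P
    · simp only [hs, if_pos hiP]; exact (hP i hiP).transpose hJ
    simp only [hs, if_neg hiP]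
    by_cases hiQ : i ∈ Q
    · exact (hQ i hiQ).transpose hJ
    · rw [h1 i hiP hiQ, transpose_one, Matrix.one_mul, Matrix.mul_one, one_smul]
  have hsq : k i₀ * k i₀ = 0 := by
    rcases Finset.mem_union.1 hi₀ with h | h
    · exact (hP _ h).sq hJ
    · exact (hQ _ h).sq hJ
  obtain ⟨y, hy, hyX⟩ := hmem
  have e := H.iso y hy
  rw [hyX] at e
  set W : MM := wm 1 (fun _ => J) with hW
  have a1 : (wm 1 k : MM)ᵀ * W = (∏ i, s i) • wm 1 (fun i => J * k i) := by
    rw [wm1_transpose, hW, wm1_mul, ← wm1_prod_smul]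
    congr 1
    exact funext hk
  have a2 : W * (wm 1 k : MM) = wm 1 (fun i => J * k i) := by rw [hW, wm1_mul]
  have a3 : (wm 1 k : MM)ᵀ * W * wm 1 k = 0 := by
    rw [a1, smul_mul_assoc, wm1_mul, wm1_eq_zero i₀ (by rw [Matrix.mul_assoc, hsq, Matrix.mul_zero]), smul_zero]
  rw [transpose_add, transpose_one, transpose_smul] at e
  simp only [Matrix.add_mul, Matrix.mul_add, Matrix.one_mul, Matrix.mul_one, Matrix.smul_mul, Matrix.mul_smul,
    a1, a2, smul_smul] at e
  rw [a1, smul_mul_assoc] at a3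
  have a4 : (wm 1 (fun i => J * k i) : MM) * wm 1 k = 0 := by
    rw [wm1_mul, wm1_eq_zero i₀ (by rw [Matrix.mul_assoc, hsq, Matrix.mul_zero])]
  rw [a4, smul_zero, add_zero, add_assoc, add_eq_left, ← add_smul] at e
  have hne' : (wm 1 (fun i => J * k i) : MM) ≠ 0 := wm1_ne fun i h0 => by
    have h2 : k i = 0 := by
      have := congrArg (J⁻¹ * ·) h0
      simpa [← Matrix.mul_assoc, nonsing_inv_mul J hJ.unit] using this
    by_cases hiP : i ∈ P
    · exact (hP i hiP).ne hJ h2
    by_cases hiQ : i ∈ Q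
    · exact (hQ i hiQ).ne hJ h2
    rw [h1 i hiP hiQ] at h2
    have := congrFun (congrFun h2 ⟨0, hm⟩) ⟨0, hm⟩
    simp at this
  have e2 := (smul_eq_zero.1 e).resolve_right hne'
  have hprod : (∏ i, s i) = (-1) ^ P.card := by
    rw [hs, Finset.prod_ite_mem, Finset.univ_inter, Finset.prod_const]
  rw [hprod] at e2
  rcases Nat.even_or_odd P.card with he | ho
  · rw [he.neg_one_pow] at e2
    exact absurd (by linear_combination e2 : (2 : F) * c = 0) (mul_ne_zero H.two hc)
  · exact ho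

/-- One monomial element gives all of its type. -/
theorem SW.mono_of {P Q : Finset ι} {c₀ : F} (hc₀ : c₀ ≠ 0) {k₀ : ι → mm} (hP : ∀ i ∈ P, IsN J (k₀ i))
    (hQ : ∀ i ∈ Q, IsT J (k₀ i)) (h1 : ∀ i, i ∉ P → i ∉ Q → k₀ i = 1) (hdis : Disjoint P Q)
    (hne : (P ∪ Q).Nonempty) (hmem : Mem M (1 + c₀ • wm 1 k₀)) : Mono J M P Q := by
  have hJ := H.sJ
  have hodd := H.odd_of_mem hc₀ hP hQ h1 hdis hne hmem
  have all : ∀ k : ι → mm, (∀ i ∈ P, IsN J (k i)) → (∀ i ∈ Q, IsT J (k i)) →
      (∀ i, i ∉ P → i ∉ Q → k i = 1) → Mem M (1 + c₀ • wm 1 k) := by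
    intro k kP kQ k1
    suffices h : ∀ S : Finset ι, Mem M (1 + c₀ • wm 1 (S.piecewise k k₀)) by
      simpa using h Finset.univ
    intro S
    induction S using Finset.induction with
    | empty => simpa using hmem
    | insert a S ha ih =>
      rw [Finset.piecewise_insert]
      have hval : S.piecewise k k₀ a = k₀ a := Finset.piecewise_eq_of_notMem _ _ _ ha
      by_cases haP : a ∈ P
      · obtain ⟨v, hv, ev⟩ := hP a haP
        obtain ⟨w, hw, ew⟩ := kP a haP
        obtain ⟨g, hg, hgv⟩ := H.mv_map a hv hw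
        have := H.mem_conj_slot hg ih
        rwa [hval, ev, H99.TensorS.rk_conj hJ, hgv, ← ew] at this
      by_cases haQ : a ∈ Q
      · obtain ⟨x, y, hx, hy, hxy, exy⟩ := hQ a haQ
        obtain ⟨x', y', hx', hy', hxy', exy'⟩ := kQ a haQ
        obtain ⟨g, hg, hgx, hgy⟩ := H.mv_map_pair a hx hy hxy hx' hy' hxy'
        have := H.mem_conj_slot hg ih
        rwa [hval, exy, H99.TensorS.wedge_conj hJ, hgx, hgy, ← exy'] at this
      · rwa [k1 a haP haQ, ← h1 a haP haQ, ← hval, Function.update_eq_self]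
  intro c k kP kQ k1
  obtain ⟨a, ha⟩ : P.Nonempty := Finset.card_pos.1 hodd.pos
  obtain ⟨v, hv, ev⟩ := kP a ha
  have hsq : (wm 1 k : MM) * wm 1 k = 0 := by
    rw [wm1_mul, wm1_eq_zero a ((kP a ha).sq hJ)]
  have hscale : ∀ u : F, Mem M (1 + (c₀ * (u * u)) • wm 1 k) := by
    intro u
    rcases eq_or_ne u 0 with rfl | hu
    · rw [mul_zero, mul_zero, zero_smul, add_zero]; exact Mem.one
    have h := all (Function.update k a (rk J (u • v) (u • v))) ?_ ?_ ?_
    · rwa [H99.TensorS.rk_smul_left, H99.TensorS.rk_smul_right, smul_smul, wm1_update_smul, smul_smul, ← ev,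
        Function.update_eq_self] at h
    · intro i hi
      by_cases hia : i = a
      · subst hia
        rw [Function.update_self]
        exact ⟨u • v, smul_ne_zero hu hv, rfl⟩
      · rw [Function.update_of_ne hia]; exact kP i hi
    · intro i hi
      rw [Function.update_of_ne (show i ≠ a from fun e => Finset.disjoint_left.1 hdis ha (e ▸ hi))]
      exact kQ i hi
    · intro i hi hi'
      rw [Function.update_of_ne (show i ≠ a from fun e => hi (e.symm ▸ ha))]
      exact k1 i hi hi'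
  set r := c / c₀ with hr
  have h2 := (hscale ((r - 1) / 2)).neg (by rw [smul_mul_smul_comm, hsq, smul_zero])
  rw [sub_eq_add_neg, ← neg_smul] at h2
  have h3 := (hscale ((r + 1) / 2)).add h2 (by rw [smul_mul_smul_comm, hsq, smul_zero])
  rw [← add_smul] at h3
  convert h3 using 3
  have hr' : c₀ * r = c := by rw [hr, mul_div_cancel₀ _ hc₀]
  have := H.two
  field_simp
  linear_combination -(4 : F) * hr'

end Cfsg.Agent.H5.C7
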