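import Cfsg.Agent.H5.C7.SympRoots
import Cfsg.Agent.H5.C7.Mono

/-!
When the conjugates of the transvections of every factor lie in one factor or in the others, all members are
monomial tensors.
-/

set_option autoImplicit false
set_option linter.unusedSectionVars false

namespace Cfsg.Agent.H5.C7

open Matrix Cfsg.Agent.H99.Tensor
open Cfsg.Agent.H99.TensorS (SympMat bf adj)
open scoped Kronecker

variable {F : Type*} [Field F] {ι : Type} [Fintype ι] [DecidableEq ι] {m : ℕ}

local notation "MM" => Matrix (ι → Fin m) (ι → Fin m) F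
local notation "mm" => Matrix (Fin m) (Fin m) F

/-- With two factors a matrix trivial on one factor lives in the other. -/
theorem sl_of_two (hm : 0 < m) {i j : ι} (hij : i ≠ j) (hι : ∀ l, l = i ∨ l = j) {Z : MM}
    {K : Matrix ({l : ι // l ≠ i} → Fin m) ({l : ι // l ≠ i} → Fin m) F} (h : rI i Z = K ⊗ₖ (1 : mm)) :
    ∃ k : mm, Z = sl j k := by
  refine ⟨Matrix.of fun a b => K (fun _ => a) (fun _ => b), Matrix.ext fun f g => ?_⟩
  have e := congrFun (congrFun h (eI i f)) (eI i g)
  rw [rI_apply, Equiv.symm_apply_apply, Equiv.symm_apply_apply, Matrix.kronecker_apply] at e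
  have e1 : ∀ f : ι → Fin m, (eI i f).1 = fun _ => f j := fun f => by
    funext l
    rw [show (eI i f).1 l = f l.1 by simp [eI_apply], (hι l.1).resolve_left l.2]
  rw [e, e1, e1, sl_apply, Matrix.of_apply]
  have e2 : ∀ f : ι → Fin m, (eI i f).2 = f i := fun f => rfl
  rw [e2, e2, Matrix.one_apply]
  by_cases hfg : f i = g i
  · rw [if_pos hfg, mul_one, if_pos fun l hl => by rw [(hι l).resolve_right hl]; exact hfg]
  · rw [if_neg hfg, mul_zero, if_neg fun h => hfg (h i hij)]

variable {J : Matrix (Fin m) (Fin m) F} {M : Subgroup (GL (ι → Fin m) F)} (H : SW0 J M)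
include H

/-- All members are monomial tensors. -/
theorem SW0.isWreath_of_split (hm : 2 ≤ m) (hι : 2 ≤ Fintype.card ι)
    (hsplit : ∀ (i : ι), ∀ g ∈ M, ∀ v : Fin m → F, v ≠ 0 →
      (∃ K, rI i ((g : MM) * sl i (H99.TensorS.rk J v v) * ((g⁻¹ : GL (ι → Fin m) F) : MM)) = K ⊗ₖ (1 : mm)) ∨
        ∃ N : mm, rI i ((g : MM) * sl i (H99.TensorS.rk J v v) * ((g⁻¹ : GL (ι → Fin m) F) : MM)) = 1 ⊗ₖ N)
    {x : GL (ι → Fin m) F} (hx : x ∈ M) : IsWreath (x : MM) := by
  classical
  haveI : Nonempty ι := Fintype.card_pos_iff.1 (by omega)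
  have hm0 : 0 < m := by omega
  set X := (x : MM) with hXd
  set X' := ((x⁻¹ : GL (ι → Fin m) F) : MM) with hX'd
  have hXX : X * X' = 1 := x.mul_inv
  have hX'X : X' * X = 1 := x.inv_mul
  refine isWreath_of_slots hm (sympRoots_nonempty hm0) (sympRoots_adjoin H.sJ) (sympRoots_conn H.sJ) hXX
    fun i r hr => ?_
  obtain ⟨v, hv, rfl⟩ := hr
  set N : MM := sl i (H99.TensorS.rk J v v) with hN
  have hY : X * sl i (1 + H99.TensorS.rk J v v) * X' = 1 + X * N * X' := by
    rw [sl_add, sl_one, Matrix.mul_add, Matrix.mul_one, Matrix.add_mul, hXX]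
  refine exists_slot hm0 ?_ fun j => ?_
  · rw [hY, add_sub_cancel_left, show X * N * X' * (X * N * X') = X * (N * ((X' * X) * N)) * X' by
      simp only [Matrix.mul_assoc], hX'X, Matrix.one_mul, hN, sl_mul, H99.TensorS.rk_mul, H.sJ.self, zero_smul,
      sl_zero, Matrix.mul_zero, Matrix.zero_mul]
  rw [hY, add_sub_cancel_left]
  by_cases h3 : ∃ l, (l ≠ i ∧ l ≠ j) ∨ i = j
  · -- a member moving the factor `j` to `i`
    obtain ⟨σ, ⟨y, hy, hye⟩, hσij⟩ : ∃ σ : Equiv.Perm ι, Mem M (wm σ fun _ => (1 : mm)) ∧ σ i = j := by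
      obtain ⟨l, hl⟩ := h3
      by_cases hij : i = j
      · exact ⟨1, by rw [wm_one]; exact Mem.one, by rw [hij]; rfl⟩
      obtain ⟨hli, hlj⟩ := hl.resolve_right hij
      refine ⟨Equiv.swap j l * Equiv.swap l i, H.cyc j l i hlj.symm hli (Ne.symm hij), ?_⟩
      rw [Equiv.Perm.mul_apply, Equiv.swap_apply_right, Equiv.swap_apply_right]
    have e : (y : MM) * sl j (H99.TensorS.rk J v v) = N * (y : MM) := by
      rw [hye, hN, sl, sl, wm_mul, wm_mul]
      congr 1
      funext l
      simp only [one_mul, mul_one, Equiv.Perm.one_apply]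
      by_cases hl : l = i
      · subst hl; rw [Function.update_self, hσij, Function.update_self]
      · rw [Function.update_of_ne hl, Function.update_of_ne (fun h => hl (σ.injective (h.trans hσij.symm)))]
    have hyy : (y : MM) * ((y⁻¹ : GL (ι → Fin m) F) : MM) = 1 := y.mul_inv
    have eY : X * N * X' = ((x * y : GL (ι → Fin m) F) : MM) * sl j (H99.TensorS.rk J v v) *
        (((x * y)⁻¹ : GL (ι → Fin m) F) : MM) := by
      rw [_root_.mul_inv_rev, Units.val_mul, Units.val_mul, Matrix.mul_assoc (x : MM) (y : MM), e]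
      simp only [Matrix.mul_assoc]
      rw [← Matrix.mul_assoc (y : MM) ((y⁻¹ : GL (ι → Fin m) F) : MM), hyy, Matrix.one_mul]
    rcases hsplit j (x * y) (M.mul_mem hx hy) v hv with ⟨K, hK⟩ | ⟨k, hk⟩
    · exact Or.inl (scalarAt_of_rI (K := K) (by rw [eY, hK]))
    · refine Or.inr ⟨1 + k, ?_⟩
      rw [← eY] at hk
      rw [sl_add, sl_one]
      congr 1
      exact (rI j).injective (by rw [hk, rI_sl_self])
  · have hιj : ∀ l, l = i ∨ l = j := fun l => by
      by_contra hc
      push Not at hc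
      exact h3 ⟨l, Or.inl hc⟩
    have hij : i ≠ j := fun h => h3 ⟨i, Or.inr h⟩
    rcases hsplit i x hx v hv with ⟨K, hK⟩ | ⟨k, hk⟩
    · obtain ⟨k, hk⟩ := sl_of_two hm0 hij hιj hK
      exact Or.inr ⟨1 + k, by rw [hN, hk, sl_add, sl_one]⟩
    · refine Or.inl fun a b => ?_
      have e : X * N * X' = sl i k := (rI i).injective (by rw [hN, hk, rI_sl_self])
      rw [e]
      exact sl_comm hij.symm _ _

end Cfsg.Agent.H5.C7
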