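import Cfsg.Agent.H5.C7.Endgame
import Cfsg.Agent.H99.TensorS.Group

/-!
Symplectic transvections of one factor generate all matrices and are connected by non-commuting pairs.
-/

set_option autoImplicit false
set_option linter.unusedSectionVars false

namespace Cfsg.Agent.H5.C7

open Matrix
open Cfsg.Agent.H99.TensorS (SympMat bf rk rk_mul rk_mulVec)

variable {F : Type*} [Field F] {m : ℕ} {J : Matrix (Fin m) (Fin m) F}

local notation "mm" => Matrix (Fin m) (Fin m) F

/-- The symplectic transvections. -/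
def sympRoots (J : Matrix (Fin m) (Fin m) F) : Set (Matrix (Fin m) (Fin m) F) :=
  {r | ∃ v, v ≠ 0 ∧ r = 1 + rk J v v}

theorem sympRoots_nonempty (hm : 0 < m) : (sympRoots J).Nonempty :=
  ⟨_, Pi.single ⟨0, hm⟩ 1, by simp [Pi.single_eq_zero_iff], rfl⟩

theorem sympRoots_conn (hJ : SympMat J) : ∀ r ∈ sympRoots J, ∀ s ∈ sympRoots J,
    ∃ u ∈ sympRoots J, r * u ≠ u * r ∧ u * s ≠ s * u := by
  have key : ∀ u v : Fin m → F, bf J u v ≠ 0 → (1 + rk J u u : mm) * (1 + rk J v v) ≠ (1 + rk J v v) * (1 + rk J u u) := by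
    intro u v h e
    have h2 : rk J u u * rk J v v = rk J v v * rk J u u := by
      simp only [mul_add, add_mul, one_mul, mul_one] at e
      rw [← sub_eq_zero] at e ⊢
      rw [← e]; abel
    rw [rk_mul, rk_mul, hJ.swap u v] at h2
    have h3 := congrArg (· *ᵥ u) h2
    simp only [Matrix.smul_mulVec, rk_mulVec, hJ.self, hJ.swap u v, smul_smul, zero_smul, mul_zero] at h3
    rw [smul_zero, smul_eq_zero] at h3
    rcases h3 with h3 | h3
    · exact h (by simpa using h3)
    · exact h (by rw [h3, H99.TensorS.bf_zero_left])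
  rintro r ⟨v, hv, rfl⟩ s ⟨w, hw, rfl⟩
  obtain ⟨e, he1, he2⟩ := hJ.exists_common₂ hv hw
  refine ⟨1 + rk J e e, ⟨e, fun h => he1 (by rw [h, H99.TensorS.bf_zero_left]), rfl⟩, fun h => ?_, key e w he2⟩
  exact key e v he1 h.symm

theorem sympRoots_adjoin (hJ : SympMat J) : Algebra.adjoin F (sympRoots J) = ⊤ := by
  set S := Algebra.adjoin F (sympRoots J) with hS
  have hd : ∀ v : Fin m → F, rk J v v ∈ S := by
    intro v
    by_cases hv : v = 0
    · rw [hv, H99.TensorS.rk_zero_left]; exact S.zero_mem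
    have := S.sub_mem (Algebra.subset_adjoin (R := F) (show (1 + rk J v v : mm) ∈ sympRoots J from ⟨v, hv, rfl⟩))
      S.one_mem
    rwa [add_sub_cancel_left] at this
  have hne : ∀ u v : Fin m → F, bf J u v ≠ 0 → rk J u v ∈ S := by
    intro u v h
    have := S.smul_mem (S.mul_mem (hd u) (hd v)) (bf J u v)⁻¹
    rwa [rk_mul, smul_smul, inv_mul_cancel₀ h, one_smul] at this
  have hall : ∀ u v : Fin m → F, rk J u v ∈ S := by
    intro u v
    by_cases hu : u = 0
    · rw [hu, H99.TensorS.rk_zero_left]; exact S.zero_mem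
    by_cases hv : v = 0
    · rw [hv, H99.TensorS.rk_zero_right]; exact S.zero_mem
    obtain ⟨e, he1, -⟩ := hJ.exists_common₂ hu hv
    have he : e ≠ 0 := fun h => he1 (by rw [h, H99.TensorS.bf_zero_left])
    obtain ⟨w, hw1, hw2⟩ := hJ.exists_common₂ he hv
    have hew : bf J e w ≠ 0 := fun h => hw1 (hJ.zero_comm.1 h)
    have := S.smul_mem (S.mul_mem (hne u e fun h => he1 (hJ.zero_comm.1 h)) (hne w v hw2)) (bf J e w)⁻¹
    rwa [rk_mul, smul_smul, inv_mul_cancel₀ hew, one_smul] at this
  refine eq_top_iff.2 fun X hX => ?_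
  clear hX
  induction X using Matrix.induction_on' with
  | h_zero => exact S.zero_mem
  | h_add p q hp hq => exact S.add_mem hp hq
  | h_std_basis i j x =>
    have e : (Matrix.single i j x : mm) = rk J (Pi.single i x) (Pi.single j 1 ᵥ* J⁻¹) := by
      rw [rk, Matrix.vecMul_vecMul, Matrix.nonsing_inv_mul J hJ.unit, Matrix.vecMul_one]
      ext a b
      rw [Matrix.single_apply, Matrix.vecMulVec_apply]
      by_cases h1 : i = a <;> by_cases h2 : j = b <;> simp [h1, h2, Pi.single_apply, eq_comm]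
    rw [e]; exact hall _ _

end Cfsg.Agent.H5.C7
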