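import Cfsg.Agent.H5.C7.Outer
import Cfsg.Agent.H99.Tensor.Maximal
import Cfsg.Agent.H1.DecompBase
import Cfsg.Prelude.Def_GeometricClasses

/-!
The stabiliser of a decomposition of a space as a tensor power is maximal in the special linear group.
-/

set_option autoImplicit false
set_option linter.unusedSectionVars false

namespace Cfsg.Agent.H5.C7

open Matrix Cfsg.Geo
open scoped Kronecker

variable {F : Type*} [Field F] {ι : Type} [Fintype ι] [DecidableEq ι] {m t : ℕ}

local notation "MM" => Matrix (ι → Fin m) (ι → Fin m) F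
local notation "mm" => Matrix (Fin m) (Fin m) F

theorem wm_perm_apply (π : Equiv.Perm ι) (f g : ι → Fin m) :
    (wm π (fun _ => 1) : MM) f g = if g = f ∘ ⇑π⁻¹ then 1 else 0 := by
  rw [wm_apply]
  by_cases h : g = f ∘ ⇑π⁻¹
  · rw [if_pos h]
    subst h
    exact Finset.prod_eq_one fun j _ => by rw [Function.comp_apply, Equiv.Perm.inv_def, Equiv.symm_apply_apply, Matrix.one_apply_eq]
  · rw [if_neg h]
    obtain ⟨j, hj⟩ := Function.ne_iff.1 h
    refine Finset.prod_eq_zero (Finset.mem_univ (π⁻¹ j)) ?_
    rw [Matrix.one_apply_ne]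
    simpa [Function.comp, eq_comm] using hj

/-- Members of the standard subgroup are monomial tensors. -/
theorem isWreath_of_mem_standard (hm : 0 < m) {g : GL (Fin t → Fin m) F} (hg : g ∈ tensorWreathStandard m t F) :
    IsWreath (g : Matrix (Fin t → Fin m) (Fin t → Fin m) F) := by
  induction hg using Subgroup.closure_induction with
  | mem x hx =>
    rcases hx with ⟨gs, h⟩ | ⟨σ, h⟩
    · exact ⟨1, fun i => (gs i : Matrix (Fin m) (Fin m) F), Matrix.ext fun f g => by rw [h, wm_apply]; rfl⟩
    · refine ⟨σ⁻¹, fun _ => 1, Matrix.ext fun f g => ?_⟩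
      rw [h, wm_perm_apply, inv_inv]
  | one => exact ⟨1, fun _ => 1, by rw [wm_one]; rfl⟩
  | mul x y _ _ hx hy => rw [Units.val_mul]; exact hx.mul hy
  | inv x _ hx => exact hx.of_inv hm (Units.mul_inv x)

/-- Invertible monomial tensors are members of the standard subgroup. -/
theorem mem_standard_of_isWreath (hm : 0 < m) {g : GL (Fin t → Fin m) F}
    (hg : IsWreath (g : Matrix (Fin t → Fin m) (Fin t → Fin m) F)) : g ∈ tensorWreathStandard m t F := by
  obtain ⟨π, k, e⟩ := hg
  have hu := fun j => wm_factor_unit (π := π) (k := k) (by rw [← e]; exact Units.mul_inv g) hm j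
  have ha : (wm (1 : Equiv.Perm (Fin t)) k : Matrix (Fin t → Fin m) (Fin t → Fin m) F) * wm 1 (fun j => (k j)⁻¹) = 1 := by
    simpa using wm_mul_inv (1 : Equiv.Perm (Fin t)) k (fun j => (k j)⁻¹) (fun j => Matrix.mul_nonsing_inv _ (hu j))
  let a : GL (Fin t → Fin m) F := ⟨wm 1 k, wm 1 fun j => (k j)⁻¹, ha, mul_eq_one_comm.1 ha⟩
  let b : GL (Fin t → Fin m) F := ⟨wm π fun _ => 1, wm π⁻¹ fun _ => 1,
    wm_mul_inv π (fun _ => 1) (fun _ => 1) fun _ => one_mul 1,
    mul_eq_one_comm.1 (wm_mul_inv π (fun _ => 1) (fun _ => 1) fun _ => one_mul 1)⟩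
  have hab : g = a * b := by
    refine Units.ext ?_
    rw [e, Units.val_mul]
    show _ = wm 1 k * wm π fun _ => 1
    rw [wm_mul]
    simp
  rw [hab]
  refine Subgroup.mul_mem _ (Subgroup.subset_closure (Or.inl ?_)) (Subgroup.subset_closure (Or.inr ⟨π⁻¹, fun x y => ?_⟩))
  · exact ⟨fun j => ⟨k j, (k j)⁻¹, Matrix.mul_nonsing_inv _ (hu j), Matrix.nonsing_inv_mul _ (hu j)⟩, fun x y => rfl⟩
  · exact wm_perm_apply π x y

theorem det_rI (i : ι) (X : MM) : (rI i X).det = X.det := Matrix.det_reindexAlgEquiv F F _ _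

theorem det_sl (i : ι) (A : mm) : (sl i A : MM).det = A.det ^ (m ^ (Fintype.card ι - 1)) := by
  rw [← det_rI i, rI_sl_self, Matrix.det_kronecker, Matrix.det_one, one_pow, one_mul, card_others]

/-- Each transposition of factors has a monomial representative of determinant one, except for two factors. -/
theorem exists_swap_det_one (hm : 3 ≤ m) (hι : 3 ≤ Fintype.card ι ∨ (2 : F) = 0) (a b : ι) (hab : a ≠ b) :
    ∃ k : ι → mm, (wm (Equiv.swap a b) k : MM).det = 1 := by
  set d := (wm (Equiv.swap a b) (fun _ => 1) : MM).det with hd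
  have hd2 : d * d = 1 := by
    rw [hd, ← Matrix.det_mul, wm_mul]; simp [wm_one]
  rcases mul_self_eq_one_iff.1 hd2 with h1 | h1
  · exact ⟨_, h1⟩
  by_cases h2 : (2 : F) = 0
  · exact ⟨_, by rw [← hd, h1]; linear_combination -h2⟩
  rcases Nat.even_or_odd m with ⟨r, hr⟩ | hodd
  · -- a third factor
    obtain ⟨i, hia, hib⟩ : ∃ i, i ≠ a ∧ i ≠ b := by
      by_contra hc
      push Not at hc
      have h3 := hι.resolve_right h2
      have : (Finset.univ : Finset ι) ⊆ {a, b} := fun x _ => by
        by_cases hx : x = a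
        · simp [hx]
        · simp [hc x hx]
      have := Finset.card_le_card this
      have := Finset.card_le_two (a := a) (b := b)
      rw [Finset.card_univ] at *
      omega
    have hfix : Equiv.swap a b i = i := Equiv.swap_apply_of_ne_of_ne hia hib
    refine ⟨fun _ => 1, ?_⟩
    rw [← det_rI i, rI_wm i _ hfix (perm_ne_iff hfix), Matrix.det_kronecker, Matrix.det_one, one_pow, mul_one,
      Fintype.card_fin, hr, pow_add, ← mul_pow, ← Matrix.det_mul, wm_mul]
    have hsq : ∀ σ' : Equiv.Perm {j : ι // j ≠ i}, (∀ j, (σ' j).1 = Equiv.swap a b j.1) → σ' * σ' = 1 :=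
      fun σ' h => Equiv.ext fun j => Subtype.ext (by
        rw [Equiv.Perm.mul_apply, h, h, Equiv.swap_apply_self]; rfl)
    rw [hsq _ (fun j => rfl)]
    simp [wm_one]
  · let A : mm := Matrix.diagonal (Function.update (fun _ => (1 : F)) ⟨0, by omega⟩ (-1))
    refine ⟨fun j => Function.update (fun _ => (1 : mm)) a A j * 1, ?_⟩
    have e : (wm (Equiv.swap a b) fun j => Function.update (fun _ => (1 : mm)) a A j * 1 : MM) =
        sl a A * wm (Equiv.swap a b) fun _ => 1 := by
      rw [sl, wm_mul]; simp
    rw [e, Matrix.det_mul, det_sl, ← hd, h1]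
    have hA : A.det = -1 := by
      simp [A, Matrix.det_diagonal, Finset.prod_update_of_mem]
    rw [hA, Odd.neg_one_pow hodd.pow, neg_one_mul, neg_neg]

/-- A transvection moving all coordinates is not monomial. -/
theorem not_isWreath_transvection (hι : 2 ≤ Fintype.card ι) {f g : ι → Fin m} (hfg : ∀ l, f l ≠ g l) :
    ¬ IsWreath (1 + Matrix.single f g (1 : F) : MM) := by
  rintro ⟨π, k, e⟩
  obtain ⟨l1, l2, hl12⟩ := Fintype.exists_pair_of_one_lt_card (show 1 < Fintype.card ι by omega)
  have hm2 : 2 ≤ m := by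
    have h1 := (f l1).2
    have h2 := (g l1).2
    have h3 := hfg l1
    by_contra hc
    exact h3 (Fin.ext (by omega))
  have hent : ∀ p q : ι → Fin m, (1 : MM) p q + (if f = p ∧ g = q then 1 else 0) = ∏ j, k j (p j) (q (π j)) := by
    intro p q
    have := congrFun (congrFun e p) q
    rwa [Matrix.add_apply, Matrix.single_apply, wm_apply] at this
  have hfg' : f ≠ g := fun h => hfg l1 (congrFun h l1)
  have hd : ∀ (p : ι → Fin m) (j : ι), k j (p j) (p (π j)) ≠ 0 := by
    intro p j hz
    have := hent p p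
    rw [Finset.prod_eq_zero (Finset.mem_univ j) hz, Matrix.one_apply_eq, if_neg (fun h => hfg' (h.1.trans h.2.symm)),
      add_zero] at this
    exact one_ne_zero this
  have hoff : ∀ (p : ι → Fin m) (j : ι) (y : Fin m), y ≠ p (π j) → k j (p j) y = 0 := by
    intro p j y hy
    have := hent p (Function.update p (π j) y)
    rw [Matrix.one_apply_ne (fun e => hy (by rw [e, Function.update_self]; )), if_neg, add_zero, eq_comm,
      Finset.prod_eq_zero_iff] at this
    · obtain ⟨l, -, hl⟩ := this
      by_cases hlj : l = j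
      · subst hlj; rwa [Function.update_self] at hl
      · rw [Function.update_of_ne (π.injective.ne hlj)] at hl
        exact absurd hl (hd p l)
    · rintro ⟨h1, h2⟩
      obtain ⟨l, hl⟩ : ∃ l, l ≠ π j := by
        by_cases h : l1 = π j
        · exact ⟨l2, fun h' => hl12 (h.trans h'.symm)⟩
        · exact ⟨l1, h⟩
      exact hfg l ((congrFun h1 l).trans ((Function.update_of_ne hl y p).symm.trans (congrFun h2 l).symm))
  have hπ : π = 1 := by
    refine Equiv.ext fun j => ?_
    by_contra hne
    rw [Equiv.Perm.one_apply] at hne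
    let p : ι → Fin m := fun _ => ⟨0, by omega⟩
    have h1 := hd (Function.update p (π j) ⟨1, by omega⟩) j
    rw [Function.update_of_ne (Ne.symm hne), Function.update_self] at h1
    exact h1 (hoff p j _ (by simp [p, Fin.ext_iff]))
  subst hπ
  have := hent f g
  rw [Matrix.one_apply_ne hfg', if_pos ⟨rfl, rfl⟩, zero_add,
    Finset.prod_eq_zero (Finset.mem_univ l1) (hoff f l1 (g l1) (Ne.symm (hfg l1)))] at this
  exact one_ne_zero this

theorem full_le [Fintype F] {M : Subgroup (GL (ι → Fin m) F)} (h : Full M) :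
    specialLinear (ι → Fin m) F ≤ M := by
  intro g hg
  have hdet : (g : MM).det = 1 := congrArg Units.val (MonoidHom.mem_ker.mp hg)
  have htop := Cfsg.Agent.H1.SL_eq_top_of_transvection_mem
    (M.comap (Matrix.SpecialLinearGroup.toGL : Matrix.SpecialLinearGroup (ι → Fin m) F →* GL (ι → Fin m) F))
    (fun i j hij c => by
      rw [Subgroup.mem_comap]
      obtain ⟨x, hx, e⟩ := h i j c hij
      convert hx using 1
      refine Units.ext ?_
      rw [e]
      change (Matrix.SpecialLinearGroup.transvection hij c : MM) = _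
      rw [Matrix.SpecialLinearGroup.transvection_coe])
  have : Matrix.SpecialLinearGroup.toGL ⟨(g : MM), hdet⟩ ∈ M :=
    Subgroup.mem_comap.mp (htop.ge (Subgroup.mem_top
      (G := Matrix.SpecialLinearGroup (ι → Fin m) F) (⟨(g : MM), hdet⟩ : Matrix.SpecialLinearGroup (ι → Fin m) F)))
  convert this using 1
  exact Units.ext rfl

/-- In standard coordinates. -/
theorem standard_maximal [Fintype F] (hm : 3 ≤ m) (ht : 2 ≤ t) :
    IsMaximalIn (specialLinear (Fin t → Fin m) F)
      (tensorWreathStandard m t F ⊓ specialLinear (Fin t → Fin m) F) := by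
  classical
  refine H98.isMaximalIn_of inf_le_right ?_ ?_
  · let f : Fin t → Fin m := fun _ => ⟨0, by omega⟩
    let g : Fin t → Fin m := fun _ => ⟨1, by omega⟩
    have hfg : ∀ l, f l ≠ g l := fun l => by simp [f, g, Fin.ext_iff]
    have hne : f ≠ g := fun h => hfg ⟨0, by omega⟩ (congrFun h ⟨0, by omega⟩)
    have hd : ((1 + Matrix.single f g 1 : Matrix (Fin t → Fin m) (Fin t → Fin m) F)).det = 1 :=
      Matrix.det_transvection_of_ne f g hne 1
    refine ⟨GeneralLinearGroup.mkOfDetNeZero _ (by rw [hd]; exact one_ne_zero), MonoidHom.mem_ker.2 (Units.ext hd), ?_⟩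
    rintro ⟨hw, -⟩
    exact not_isWreath_transvection (by simpa using ht) hfg (isWreath_of_mem_standard (by omega) hw)
  · intro M hHM hMK g hg hgH
    have hmem : ∀ {X : Matrix (Fin t → Fin m) (Fin t → Fin m) F}, IsWreath X → X.det = 1 → Mem M X := fun {X} hX hd =>
      ⟨GeneralLinearGroup.mkOfDetNeZero X (by rw [hd]; exact one_ne_zero),
        hHM ⟨mem_standard_of_isWreath (by omega) hX, MonoidHom.mem_ker.2 (Units.ext hd)⟩, rfl⟩
    have hM : OV M :=
      { three := hm
        slot := fun i h hd => hmem ⟨_, _, rfl⟩ (by rw [det_sl, hd, one_pow])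
        perm := fun hp σ => by
          suffices ∃ k, Mem M (wm σ k) from this
          induction σ using Equiv.Perm.swap_induction_on with
          | one => exact ⟨fun _ => 1, by rw [wm_one]; exact Mem.one⟩
          | swap_mul σ x y hxy ih =>
            obtain ⟨k, hk⟩ := ih
            obtain ⟨l, hl⟩ := exists_swap_det_one (F := F) hm hp x y hxy
            have := hk.mul (hmem ⟨_, _, rfl⟩ hl)
            rw [wm_mul] at this
            exact ⟨_, this⟩ }
    rcases dichotomy (t - 1) (by simp; omega) hM with ⟨-, hfull⟩ | hall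
    · exact full_le hfull
    · exact absurd ⟨mem_standard_of_isWreath (by omega) (hall _ ⟨g, hg, rfl⟩), hMK hg⟩ hgH

/-- The stabiliser of a decomposition as a tensor power is maximal in the special linear group. -/
theorem tensorWreath_maximal [Fintype F] {κ : Type} [Fintype κ] [DecidableEq κ] (hm : 3 ≤ m) (ht : 2 ≤ t)
    (e : κ ≃ (Fin t → Fin m)) (P : GL κ F) :
    IsMaximalIn (specialLinear κ F) (tensorWreathSubgroup m t e P ⊓ specialLinear κ F) := by
  let Φ : GL (Fin t → Fin m) F ≃* GL κ F := (glReindex e.symm).trans (MulAut.conj P)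
  have hdet : ∀ y : GL (Fin t → Fin m) F,
      (Φ y : Matrix κ κ F).det = (y : Matrix (Fin t → Fin m) (Fin t → Fin m) F).det := fun y => by
    change ((P * glReindex e.symm y * P⁻¹ : GL κ F) : Matrix κ κ F).det = _
    rw [Units.val_mul, Units.val_mul, Matrix.det_units_conj, H99.Tensor.det_glReindex]
  have hT : tensorWreathSubgroup m t e P = (tensorWreathStandard m t F).map Φ.toMonoidHom := by
    rw [tensorWreathSubgroup, Subgroup.map_map]
    rfl
  have hS : (specialLinear (Fin t → Fin m) F).map Φ.toMonoidHom = specialLinear κ F := by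
    ext x
    constructor
    · rintro ⟨y, hy, rfl⟩
      exact MonoidHom.mem_ker.2 (Units.ext ((hdet y).trans (congrArg Units.val (MonoidHom.mem_ker.mp hy))))
    · intro hx
      refine ⟨Φ.symm x, MonoidHom.mem_ker.2 (Units.ext ?_), Φ.apply_symm_apply x⟩
      have := hdet (Φ.symm x)
      rw [Φ.apply_symm_apply] at this
      exact this.symm.trans (congrArg Units.val (MonoidHom.mem_ker.mp hx))
  have := H99.Tensor.isMaximalIn_map Φ (standard_maximal (F := F) hm ht)
  rwa [Subgroup.map_inf _ _ _ (show Function.Injective Φ.toMonoidHom from Φ.injective), hS, ← hT] at this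

end Cfsg.Agent.H5.C7
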