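import Cfsg.Agent.H5.C7.Mono

/-!
From an element `1 + G (x) A` with non-scalar `G` to a monomial element: second differences under the factor
transvections.
-/

set_option autoImplicit false
set_option linter.unusedSectionVars false

namespace Cfsg.Agent.H5.C7

open Matrix Cfsg.Agent.H99.Tensor
open Cfsg.Agent.H99.TensorS (SympMat bf rk adj wedge phi ct)
open scoped Kronecker

variable {F : Type*} [Field F] {ι : Type} [Fintype ι] [DecidableEq ι] {m : ℕ}

local notation "MM" => Matrix (ι → Fin m) (ι → Fin m) F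
local notation "mm" => Matrix (Fin m) (Fin m) F

/-- The matrix is a product with the part `A` at the factor `i`. -/
def Fac (i : ι) (A : Matrix (Fin m) (Fin m) F) (X : Matrix (ι → Fin m) (ι → Fin m) F) : Prop :=
  ∃ R : Matrix ({j : ι // j ≠ i} → Fin m) ({j : ι // j ≠ i} → Fin m) F, rI i X = R ⊗ₖ A

theorem Fac.add {i : ι} {A : mm} {X Y : MM} (hX : Fac i A X) (hY : Fac i A Y) : Fac i A (X + Y) := by
  obtain ⟨R, hR⟩ := hX
  obtain ⟨R', hR'⟩ := hY
  exact ⟨R + R', by rw [map_add, hR, hR', add_kronecker]⟩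

theorem Fac.smul {i : ι} {A : mm} {X : MM} (hX : Fac i A X) (c : F) : Fac i A (c • X) := by
  obtain ⟨R, hR⟩ := hX
  exact ⟨c • R, by rw [map_smul, hR, smul_kronecker]⟩

theorem Fac.sub {i : ι} {A : mm} {X Y : MM} (hX : Fac i A X) (hY : Fac i A Y) : Fac i A (X - Y) := by
  rw [sub_eq_add_neg, ← neg_one_smul F Y]
  exact hX.add (hY.smul _)

theorem Fac.sl_left {i l : ι} (h : l ≠ i) {A B : mm} {X : MM} (hX : Fac i A X) : Fac i A (sl l B * X) := by
  obtain ⟨R, hR⟩ := hX
  exact ⟨sl ⟨l, h⟩ B * R, by rw [map_mul, hR, rI_sl_ne i ⟨l, h⟩, ← mul_kronecker_mul, Matrix.one_mul]⟩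

theorem Fac.sl_right {i l : ι} (h : l ≠ i) {A B : mm} {X : MM} (hX : Fac i A X) : Fac i A (X * sl l B) := by
  obtain ⟨R, hR⟩ := hX
  exact ⟨R * sl ⟨l, h⟩ B, by rw [map_mul, hR, rI_sl_ne i ⟨l, h⟩, ← mul_kronecker_mul, Matrix.mul_one]⟩

theorem Fac.mul_eq_zero {i : ι} {A : mm} (hA : A * A = 0) {X Y : MM} (hX : Fac i A X) (hY : Fac i A Y) :
    X * Y = 0 := by
  obtain ⟨R, hR⟩ := hX
  obtain ⟨R', hR'⟩ := hY
  refine (rI i).injective ?_
  rw [map_mul, hR, hR', ← mul_kronecker_mul, hA, kronecker_zero, map_zero]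

theorem fac_wm1 (i : ι) (k : ι → mm) : Fac i (k i) (wm 1 k : MM) := ⟨_, rI_tens i k⟩

/-- A matrix which is a product at every factor is a monomial tensor. -/
theorem eq_wm_of_fac {X : MM} {k : ι → mm} (hk : ∀ i, k i ≠ 0) (h : ∀ i, Fac i (k i) X) :
    ∃ c : F, X = c • wm 1 k := by
  choose f₀ g₀ hfg using fun i => show ∃ a b, k i a b ≠ 0 by
    by_contra hc
    push Not at hc
    exact hk i (Matrix.ext fun a b => hc a b)
  have key : ∀ (S : Finset ι) (f g : ι → Fin m), X f g * (∏ i ∈ S, k i (f₀ i) (g₀ i)) =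
      (∏ i ∈ S, k i (f i) (g i)) * X (S.piecewise f₀ f) (S.piecewise g₀ g) := by
    intro S
    induction S using Finset.induction with
    | empty => intro f g; simp
    | insert a S ha ih =>
      intro f g
      obtain ⟨R, hR⟩ := h a
      have e : ∀ p q : ι → Fin m, X p q = R (eI a p).1 (eI a q).1 * k a (p a) (q a) := fun p q => by
        have := congrFun (congrFun hR (eI a p)) (eI a q)
        rwa [rI_apply, Equiv.symm_apply_apply, Equiv.symm_apply_apply, Matrix.kronecker_apply] at this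
      have e1 : ∀ (f : ι → Fin m) (y : Fin m), (eI a (Function.update f a y)).1 = (eI a f).1 := fun f y => by
        funext j
        simp [eI_apply, j.2]
      rw [Finset.prod_insert ha, Finset.prod_insert ha, Finset.piecewise_insert, Finset.piecewise_insert]
      have hf : S.piecewise f₀ f a = f a := Finset.piecewise_eq_of_notMem _ _ _ ha
      have hg : S.piecewise g₀ g a = g a := Finset.piecewise_eq_of_notMem _ _ _ ha
      rw [e (Function.update _ _ _), e1, e1, Function.update_self, Function.update_self]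
      have ih' := ih f g
      rw [e (S.piecewise f₀ f), hf, hg] at ih'
      linear_combination k a (f₀ a) (g₀ a) * ih'
  refine ⟨X f₀ g₀ / ∏ i, k i (f₀ i) (g₀ i), Matrix.ext fun f g => ?_⟩
  have := key Finset.univ f g
  simp only [Finset.piecewise_univ] at this
  rw [Matrix.smul_apply, wm_apply, smul_eq_mul, div_mul_eq_mul_div,
    eq_div_iff (Finset.prod_ne_zero_iff.2 fun i _ => hfg i), this, mul_comm]
  rfl

theorem kron_cancel {α : Type} [Fintype α] [DecidableEq α] {B : mm} (hB : B ≠ 0) {R R' : Matrix α α F}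
    (h : R ⊗ₖ B = R' ⊗ₖ B) : R = R' := by
  obtain ⟨a, b, hab⟩ : ∃ a b, B a b ≠ 0 := by
    by_contra hc
    push Not at hc
    exact hB (Matrix.ext fun a b => hc a b)
  ext p q
  have := congrFun (congrFun h (p, a)) (q, b)
  exact mul_right_cancel₀ hab this

section Slot

variable {α : Type} [Fintype α] [DecidableEq α] {J : Matrix (Fin m) (Fin m) F}

theorem eq_zero_of_ct (hJ : SympMat J) {D : Matrix (α × Fin m) (α × Fin m) F}
    (h : ∀ u v : Fin m → F, ct α J D u v = 0) : D = 0 := by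
  ext ⟨i, k⟩ ⟨i', l⟩
  have := congrFun (congrFun (h (Pi.single k 1 ᵥ* J⁻¹) (Pi.single l 1)) i) i'
  rwa [ct, mul_lft_single, H99.TensorS.phi_eq_rgt hJ, rgt_single_mul] at this

theorem one_kron_rk_conj (Z : Matrix (α × Fin m) (α × Fin m) F) (a b c d : Fin m → F) :
    ((1 : Matrix α α F) ⊗ₖ rk J a b) * Z * ((1 : Matrix α α F) ⊗ₖ rk J c d) = ct α J Z b c ⊗ₖ rk J a d := by
  rw [← H99.TensorS.lft_phi, ← H99.TensorS.lft_phi, ← H99.TensorS.lft_mid_phi, ct]
  simp only [Matrix.mul_assoc]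

/-- Vanishing of all skew contractions makes the factor trivial. -/
theorem kron_one_of_ct (hJ : SympMat J) (hm : 0 < m) {Z : Matrix (α × Fin m) (α × Fin m) F}
    (h0 : ∀ v, ct α J Z v v = 0) (h1 : ∀ u v : Fin m → F, bf J u v = 0 → ct α J Z u v = 0) :
    ∃ R : Matrix α α F, Z = R ⊗ₖ (1 : mm) := by
  have e : (Pi.single (⟨0, hm⟩ : Fin m) (1 : F) : Fin m → F) ≠ 0 := by simp [Pi.single_eq_zero_iff]
  set w : Fin m → F := Pi.single (⟨0, hm⟩ : Fin m) (1 : F) with hw
  obtain ⟨w', hw'⟩ := hJ.exists_one e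
  set R := ct α J Z w w' with hR
  have hskew : ∀ u v, ct α J Z v u = -ct α J Z u v := by
    intro u v
    have := h0 (u + v)
    rw [H99.TensorS.ct_add_left, H99.TensorS.ct_add_right, H99.TensorS.ct_add_right, h0, h0, zero_add, add_zero]
      at this
    exact eq_neg_of_add_eq_zero_right this
  have line : ∀ u v v', ct α J Z u v = bf J u v • ct α J Z u v' + (1 - bf J u v') • ct α J Z u v := by
    intro u v v'
    have := h1 u (bf J u v' • v - bf J u v • v') (by
      rw [H99.TensorS.bf_sub_right, H99.TensorS.bf_smul_right, H99.TensorS.bf_smul_right]; ring)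
    rw [sub_eq_add_neg, ← neg_smul, H99.TensorS.ct_add_right, H99.TensorS.ct_smul_right,
      H99.TensorS.ct_smul_right, neg_smul, add_neg_eq_zero] at this
    rw [← this, sub_smul, one_smul]
    abel
  have one : ∀ u v v', bf J u v' = 1 → ct α J Z u v = bf J u v • ct α J Z u v' := fun u v v' h => by
    have := line u v v'
    rwa [h, sub_self, zero_smul, add_zero] at this
  have main : ∀ u v, ct α J Z u v = bf J u v • R := by
    intro u v
    rcases eq_or_ne u 0 with rfl | hu
    · rw [H99.TensorS.bf_zero_left, zero_smul, ← zero_smul F (0 : Fin m → F), H99.TensorS.ct_smul_left,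
        zero_smul]
    obtain ⟨p, hpu, hpw⟩ := hJ.exists_common₂ hu e
    -- normalise the partners
    have hp1 : bf J u ((bf J u p)⁻¹ • p) = 1 := by
      rw [H99.TensorS.bf_smul_right, inv_mul_cancel₀ fun h => hpu (hJ.zero_comm.1 h)]
    have hw1 : bf J w ((bf J w p)⁻¹ • p) = 1 := by
      rw [H99.TensorS.bf_smul_right, inv_mul_cancel₀ fun h => hpw (hJ.zero_comm.1 h)]
    rw [one u v _ hp1, H99.TensorS.ct_smul_right]
    have k1 : ct α J Z p w = bf J p w • R := by
      rw [hskew w p, one w p w' hw', hJ.swap w p, neg_smul, hR]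
    have hp0 : bf J p w ≠ 0 := hpw
    have k2 : ct α J Z p u = bf J p u • R := by
      have hq : bf J p ((bf J p w)⁻¹ • w) = 1 := by
        rw [H99.TensorS.bf_smul_right, inv_mul_cancel₀ hp0]
      rw [one p u _ hq, H99.TensorS.ct_smul_right, k1, smul_smul _ (bf J p w), inv_mul_cancel₀ hp0, one_smul]
    rw [hskew p u, k2, hJ.swap p u, ← neg_smul, smul_smul, smul_smul]
    congr 1
    field_simp
  refine ⟨R, sub_eq_zero.1 (eq_zero_of_ct hJ fun u v => ?_)⟩
  have e2 : ct α J (R ⊗ₖ (1 : mm)) u v = bf J u v • R := by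
    rw [ct, Matrix.mul_assoc, kron_lft, one_mulVec, ← Matrix.mul_assoc, H99.TensorS.phi_lft, Matrix.smul_mul,
      Matrix.one_mul]
  rw [sub_eq_add_neg, ← neg_one_smul F (R ⊗ₖ (1 : mm)), H99.TensorS.ct_add]
  have e3 : ∀ (c : F) (W : Matrix (α × Fin m) (α × Fin m) F), ct α J (c • W) u v = c • ct α J W u v := by
    intro c W
    rw [ct, ct, Matrix.mul_smul, Matrix.smul_mul]
  rw [e3, e2, ← main, neg_one_smul, add_neg_cancel]

end Slot

variable {J : Matrix (Fin m) (Fin m) F} {M : Subgroup (GL (ι → Fin m) F)} (H : SW J M)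
include H

/-- The second difference under a factor transvection. -/
theorem SW.second_diff {j i : ι} (hij : i ≠ j) {A : mm} (hA : A * A = 0) {X : MM} (hX : Fac j A X)
    (hmem : Mem M (1 + X)) (v : Fin m → F) :
    Mem M (1 + (-2 : F) • (sl i (rk J v v) * X * sl i (rk J v v))) := by
  set N : MM := sl i (rk J v v) with hN
  have g1 : Mem M (1 + N) := by
    have := H.slot i v 1
    rwa [one_smul, sl_add, sl_one] at this
  have hNN : N * N = 0 := by rw [hN, sl_mul, H99.TensorS.rk_mul, H.sJ.self, zero_smul, sl_zero]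
  have g2 := g1.neg hNN
  have e1 : (1 + N) * (1 - N) = 1 := by rw [mul_sub, mul_one, add_mul, one_mul, hNN]; abel
  have e2 : (1 - N) * (1 + N) = 1 := by rw [sub_mul, one_mul, mul_add, mul_one, hNN]; abel
  have p1 := hmem.conj' g1 e1
  have p2 := hmem.conj' g2 e2
  have q : ∀ Y : MM, Fac j A Y → Fac j A (N * Y) ∧ Fac j A (Y * N) := fun Y hY =>
    ⟨hY.sl_left hij, hY.sl_right hij⟩
  have f1 : Fac j A ((1 + N) * X * (1 - N)) := by
    rw [add_mul, one_mul, mul_sub, mul_one, add_mul]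
    exact (hX.add (q X hX).1).sub ((q X hX).2.add (q _ (q X hX).1).2)
  have f2 : Fac j A ((1 - N) * X * (1 + N)) := by
    rw [sub_mul, one_mul, mul_add, mul_one, sub_mul]
    exact (hX.sub (q X hX).1).add ((q X hX).2.sub (q _ (q X hX).1).2)
  have h3 := (p1.add p2 (f1.mul_eq_zero hA f2)).mul (hmem.neg (hX.mul_eq_zero hA hX))
  have h4 := h3.mul (hmem.neg (hX.mul_eq_zero hA hX))
  have f3 : Fac j A ((1 + N) * X * (1 - N) + (1 - N) * X * (1 + N)) := f1.add f2
  convert h4 using 1
  rw [mul_assoc (1 + _), show (1 - X) * (1 - X) = 1 - (2 : F) • X by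
    rw [mul_sub, mul_one, sub_mul, one_mul, hX.mul_eq_zero hA hX, two_smul]; abel]
  rw [add_mul 1, one_mul, mul_sub, mul_one, mul_smul_comm, f3.mul_eq_zero hA hX, smul_zero, sub_zero]
  simp only [two_smul, neg_smul]
  noncomm_ring

/-- The first difference under a factor transvection with null contraction. -/
theorem SW.first_diff {j i : ι} (hij : i ≠ j) {A : mm} (hA : A * A = 0) {X : MM} (hX : Fac j A X)
    (hmem : Mem M (1 + X)) (v : Fin m → F) (hz : sl i (rk J v v) * X * sl i (rk J v v) = 0) :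
    Mem M (1 + (sl i (rk J v v) * X - X * sl i (rk J v v))) := by
  set N : MM := sl i (rk J v v) with hN
  have g1 : Mem M (1 + N) := by
    have := H.slot i v 1
    rwa [one_smul, sl_add, sl_one] at this
  have hNN : N * N = 0 := by rw [hN, sl_mul, H99.TensorS.rk_mul, H.sJ.self, zero_smul, sl_zero]
  have p1 := hmem.conj' g1 (P' := 1 - N) (by rw [mul_sub, mul_one, add_mul, one_mul, hNN]; abel)
  have f1 : Fac j A ((1 + N) * X * (1 - N)) := by
    rw [add_mul, one_mul, mul_sub, mul_one, add_mul]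
    exact (hX.add (hX.sl_left hij)).sub ((hX.sl_right hij).add ((hX.sl_left hij).sl_right hij))
  have h2 := p1.mul (hmem.neg (hX.mul_eq_zero hA hX))
  convert h2 using 1
  have e : (1 + N) * X * (1 - N) = X + (N * X - X * N) - N * X * N := by noncomm_ring
  rw [hz, sub_zero] at e
  rw [e] at f1 ⊢
  generalize hD : N * X - X * N = D at f1 ⊢
  rw [mul_sub, mul_one, add_mul (1 : MM) _ X, one_mul, f1.mul_eq_zero hA hX, add_zero]
  abel

/-- Splitting off one factor. -/
theorem SW.step {j i : ι} (hij : i ≠ j) (hm : 0 < m) {A : mm} (hA : A * A = 0) {X : MM} (hX : Fac j A X)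
    (hmem : Mem M (1 + X)) :
    Fac i 1 X ∨ ∃ (X' : MM) (B : mm), X' ≠ 0 ∧ Mem M (1 + X') ∧ (IsN J B ∨ IsT J B) ∧ Fac i B X' ∧
      ∀ (l : ι) (C : mm), l ≠ i → Fac l C X → Fac l C X' := by
  have hJ := H.sJ
  set α := {l : ι // l ≠ i} → Fin m
  set Z := rI i X with hZ
  have hN : ∀ v, rI i (sl i (rk J v v) : MM) = (1 : Matrix α α F) ⊗ₖ rk J v v := fun v => rI_sl_self i _
  have rk_ne : ∀ v : Fin m → F, v ≠ 0 → rk J v v ≠ (0 : mm) := fun v hv => IsN.ne hJ ⟨v, hv, rfl⟩
  by_cases h0 : ∀ v, ct α J Z v v = 0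
  swap
  · push Not at h0
    obtain ⟨v, hv⟩ := h0
    have hv0 : v ≠ 0 := fun e => hv (by
      rw [e, ← zero_smul F (0 : Fin m → F), H99.TensorS.ct_smul_left, zero_smul])
    refine Or.inr ⟨_, rk J v v, ?_, H.second_diff hij hA hX hmem v, Or.inl ⟨v, hv0, rfl⟩, ?_, ?_⟩
    · intro e
      have := congrArg (rI i) e
      rw [map_smul, map_mul, map_mul, hN, ← hZ, one_kron_rk_conj, map_zero, smul_eq_zero,
        or_iff_right (neg_ne_zero.2 H.two)] at this
      exact hv (kron_cancel (rk_ne v hv0) (this.trans (zero_kronecker _).symm))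
    · exact ⟨(-2 : F) • ct α J Z v v,
        by rw [map_smul, map_mul, map_mul, hN, ← hZ, one_kron_rk_conj, smul_kronecker]⟩
    · exact fun l C hl hC => ((hC.sl_left hl.symm).sl_right hl.symm).smul _
  by_cases h1 : ∀ u v : Fin m → F, bf J u v = 0 → ct α J Z u v = 0
  · obtain ⟨R, hR⟩ := kron_one_of_ct hJ hm h0 h1
    exact Or.inl ⟨R, hR⟩
  push Not at h1
  obtain ⟨u, v, huv, hct⟩ := h1
  have hvu := hJ.zero_comm.1 huv
  have hskew : ct α J Z v u = -ct α J Z u v := by
    have := h0 (u + v)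
    rw [H99.TensorS.ct_add_left, H99.TensorS.ct_add_right, H99.TensorS.ct_add_right, h0, h0, zero_add, add_zero]
      at this
    exact eq_neg_of_add_eq_zero_right this
  set Nu : MM := sl i (rk J u u) with hNu
  set Nv : MM := sl i (rk J v v) with hNv
  have z1 : Nv * X * Nv = 0 := (rI i).injective (by
    rw [map_mul, map_mul, hN, ← hZ, one_kron_rk_conj, h0, zero_kronecker, map_zero])
  have d1 := H.first_diff hij hA hX hmem v z1
  have fD : Fac j A (Nv * X - X * Nv) := (hX.sl_left hij).sub (hX.sl_right hij)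
  have uv : Nu * Nv = 0 := by rw [hNu, hNv, sl_mul, H99.TensorS.rk_mul, huv, zero_smul, sl_zero]
  have vu : Nv * Nu = 0 := by rw [hNu, hNv, sl_mul, H99.TensorS.rk_mul, hvu, zero_smul, sl_zero]
  have z2 : Nu * (Nv * X - X * Nv) * Nu = 0 := by
    rw [mul_sub, sub_mul, ← mul_assoc, uv, zero_mul, zero_mul, mul_assoc Nu (X * Nv), mul_assoc X, vu, mul_zero,
      mul_zero, sub_zero]
  have d2 := H.first_diff hij hA fD d1 u z2
  have e2 : Nu * (Nv * X - X * Nv) - (Nv * X - X * Nv) * Nu = -(Nu * X * Nv + Nv * X * Nu) := by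
    rw [mul_sub, sub_mul, ← mul_assoc, uv, zero_mul, mul_assoc X, vu, mul_zero, ← mul_assoc]
    abel
  rw [e2] at d2
  have e3 : rI i (-(Nu * X * Nv + Nv * X * Nu)) = (-ct α J Z u v) ⊗ₖ wedge J u v := by
    rw [map_neg, map_add, map_mul, map_mul, map_mul, map_mul, hN, hN, ← hZ, one_kron_rk_conj, one_kron_rk_conj,
      hskew]
    ext p q
    simp [wedge, kroneckerMap_apply]
    ring
  have hu : u ≠ 0 := fun e => hct (by rw [e, ← zero_smul F (0 : Fin m → F), H99.TensorS.ct_smul_left, zero_smul])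
  have hv : ∀ s : F, v ≠ s • u := fun s e => hct (by rw [e, H99.TensorS.ct_smul_right, h0, smul_zero])
  refine Or.inr ⟨_, wedge J u v, ?_, d2, Or.inr ⟨u, v, hu, hv, huv, rfl⟩, ⟨_, e3⟩, ?_⟩
  · intro e
    rw [e, map_zero] at e3
    exact hct (neg_eq_zero.1 (kron_cancel (H99.TensorS.wedge_ne hJ hu hv) (e3.symm.trans (zero_kronecker _).symm)))
  · intro l C hl hC
    rw [← neg_one_smul F (Nu * X * Nv + Nv * X * Nu)]
    exact (((hC.sl_left hl.symm).sl_right hl.symm).add ((hC.sl_left hl.symm).sl_right hl.symm)).smul _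

/-- An element with a non-scalar middle gives a monomial element with at least two parts. -/
theorem SW.mono_of_bad {j : ι} {A : mm} (hA : IsN J A ∨ IsT J A) {X₀ : MM} (hmem : Mem M (1 + X₀))
    {G : Matrix ({l : ι // l ≠ j} → Fin m) ({l : ι // l ≠ j} → Fin m) F} (hG : ∀ c : F, G ≠ c • 1)
    (e₀ : rI j X₀ = G ⊗ₖ A) :
    ∃ P Q : Finset ι, Mono J M P Q ∧ Disjoint P Q ∧ Odd P.card ∧ 2 ≤ (P ∪ Q).card ∧ (Q.Nonempty → 3 ≤ m) := by
  classical
  have hJ := H.sJ
  have hm : 0 < m := by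
    by_contra hm
    obtain rfl : m = 0 := by omega
    rcases hA with h | h <;> exact h.ne hJ (Matrix.ext fun a => a.elim0)
  have hA0 : A ≠ 0 := hA.elim (IsN.ne hJ) (IsT.ne hJ)
  have hAA : A * A = 0 := hA.elim (IsN.sq hJ) (IsT.sq hJ)
  have hX0 : X₀ ≠ 0 := fun e => hG 0 (kron_cancel hA0
    (by rw [← e₀, e, map_zero, zero_smul, zero_kronecker]))
  have P' : ∀ D : Finset ι, j ∉ D → ∃ (X : MM) (k : ι → mm), X ≠ 0 ∧ Mem M (1 + X) ∧ Fac j A X ∧
      (∀ i ∈ D, Fac i (k i) X ∧ (k i = 1 ∨ IsN J (k i) ∨ IsT J (k i))) ∧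
      (X = X₀ ∨ ∃ i ∈ D, IsN J (k i) ∨ IsT J (k i)) := by
    intro D
    induction D using Finset.induction with
    | empty => exact fun _ => ⟨X₀, fun _ => 1, hX0, hmem, ⟨G, e₀⟩, by simp, Or.inl rfl⟩
    | insert a D ha ih =>
      intro hj
      rw [Finset.mem_insert, not_or] at hj
      obtain ⟨X, k, hX, hM, hfj, hD, hor⟩ := ih hj.2
      rcases H.step (Ne.symm hj.1) hm hAA hfj hM with h | ⟨X', B, hX', hM', hB, hfB, hk⟩
      · refine ⟨X, Function.update k a 1, hX, hM, hfj, fun i hi => ?_, hor.imp id ?_⟩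
        · rcases Finset.mem_insert.1 hi with rfl | hi
          · rw [Function.update_self]; exact ⟨h, Or.inl rfl⟩
          · rw [Function.update_of_ne (show i ≠ a from fun e => ha (e ▸ hi))]; exact hD i hi
        · rintro ⟨i, hi, hk'⟩
          exact ⟨i, Finset.mem_insert_of_mem hi, by
            rwa [Function.update_of_ne (show i ≠ a from fun e => ha (e ▸ hi))]⟩
      · refine ⟨X', Function.update k a B, hX', hM', hk j A hj.1 hfj, fun i hi => ?_,
          Or.inr ⟨a, Finset.mem_insert_self a D, by rwa [Function.update_self]⟩⟩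
        rcases Finset.mem_insert.1 hi with rfl | hi
        · rw [Function.update_self]; exact ⟨hfB, Or.inr hB⟩
        · have hia : i ≠ a := fun e => ha (e ▸ hi)
          rw [Function.update_of_ne hia]
          exact ⟨hk i _ hia (hD i hi).1, (hD i hi).2⟩
  obtain ⟨X, k, hX, hM, hfj, hD, hor⟩ := P' (Finset.univ.erase j) (Finset.notMem_erase j _)
  set k' := Function.update k j A with hk'
  have hfac : ∀ i, Fac i (k' i) X := fun i => by
    by_cases hi : i = j
    · subst hi; rwa [hk', Function.update_self]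
    · rw [hk', Function.update_of_ne hi]; exact (hD i (by simp [hi])).1
  have hkind : ∀ i, k' i = 1 ∨ IsN J (k' i) ∨ IsT J (k' i) := fun i => by
    by_cases hi : i = j
    · subst hi; rw [hk', Function.update_self]; exact Or.inr hA
    · rw [hk', Function.update_of_ne hi]; exact (hD i (by simp [hi])).2
  have hne : ∀ i, k' i ≠ 0 := fun i => by
    rcases hkind i with h | h | h
    · rw [h]
      intro e
      simpa using congrFun (congrFun e ⟨0, hm⟩) ⟨0, hm⟩
    · exact h.ne hJ
    · exact h.ne hJ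
  obtain ⟨c, hc⟩ := eq_wm_of_fac hne hfac
  have hc0 : c ≠ 0 := fun e => hX (by rw [hc, e, zero_smul])
  let P := Finset.univ.filter fun i => IsN J (k' i)
  let Q := Finset.univ.filter fun i => ¬ IsN J (k' i) ∧ IsT J (k' i)
  have hP : ∀ i ∈ P, IsN J (k' i) := fun i hi => (Finset.mem_filter.1 hi).2
  have hQ : ∀ i ∈ Q, IsT J (k' i) := fun i hi => (Finset.mem_filter.1 hi).2.2
  have h1 : ∀ i, i ∉ P → i ∉ Q → k' i = 1 := fun i hi hi' => by
    rcases hkind i with h | h | h
    · exact h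
    · exact absurd (Finset.mem_filter.2 ⟨Finset.mem_univ i, h⟩) hi
    · exact absurd (Finset.mem_filter.2 ⟨Finset.mem_univ i, fun h' => hi (Finset.mem_filter.2
        ⟨Finset.mem_univ i, h'⟩), h⟩) hi'
  have hdis : Disjoint P Q := Finset.disjoint_left.2 fun i hi hi' => (Finset.mem_filter.1 hi').2.1 (hP i hi)
  have hmem' : ∀ i, IsN J (k' i) ∨ IsT J (k' i) → i ∈ P ∪ Q := fun i h => by
    by_contra hi
    rw [Finset.mem_union, not_or] at hi
    rcases h with h | h
    · exact hi.1 (Finset.mem_filter.2 ⟨Finset.mem_univ i, h⟩)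
    · exact hi.2 (Finset.mem_filter.2 ⟨Finset.mem_univ i, fun h' => hi.1 (Finset.mem_filter.2
        ⟨Finset.mem_univ i, h'⟩), h⟩)
  have hjm : j ∈ P ∪ Q := hmem' j (by rwa [hk', Function.update_self])
  rw [hc] at hM
  refine ⟨P, Q, H.mono_of hc0 hP hQ h1 hdis ⟨j, hjm⟩ hM, hdis, H.odd_of_mem hc0 hP hQ h1 hdis ⟨j, hjm⟩ hM, ?_, fun ⟨i, hi⟩ => four_le_of_isT hJ (hQ i hi)⟩
  obtain ⟨i, hi, hij⟩ : ∃ i, i ∈ P ∪ Q ∧ i ≠ j := by
    rcases hor with rfl | ⟨i, hi, h⟩
    swap
    · have hij : i ≠ j := (Finset.mem_erase.1 hi).1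
      exact ⟨i, hmem' i (by rwa [hk', Function.update_of_ne hij]), hij⟩
    by_contra hno
    push Not at hno
    have hone : ∀ l, l ≠ j → k' l = 1 := fun l hl => by
      rcases hkind l with h | h
      · exact h
      · exact absurd (hno l (hmem' l h)) hl
    refine hG c (kron_cancel hA0 ?_)
    rw [← e₀, hc, map_smul, rI_tens, hk', Function.update_self, smul_kronecker, ← wm_one]
    congr 3
    funext l
    exact hone l.1 l.2
  exact Finset.one_lt_card.2 ⟨i, hi, j, hjm, hij⟩

end Cfsg.Agent.H5.C7
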