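import Cfsg.Agent.H5.C7.MonoBad

/-!
Commutators of monomial elements with partner elements: a monomial element grows to the full support.
-/

set_option autoImplicit false
set_option linter.unusedSectionVars false

namespace Cfsg.Agent.H5.C7

open Matrix
open Cfsg.Agent.H99.TensorS (SympMat bf rk adj wedge)

variable {F : Type*} [Field F] {ι : Type} [Fintype ι] [DecidableEq ι] {m : ℕ}

local notation "MM" => Matrix (ι → Fin m) (ι → Fin m) F
local notation "mm" => Matrix (Fin m) (Fin m) F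

/-- A family given on two sets of factors, trivial elsewhere. -/
def cfam (P Q : Finset ι) (A B : Matrix (Fin m) (Fin m) F) : ι → Matrix (Fin m) (Fin m) F :=
  fun i => if i ∈ P then A else if i ∈ Q then B else 1

theorem cfam_left {P Q : Finset ι} {A B : mm} {i : ι} (h : i ∈ P) : cfam P Q A B i = A := if_pos h

theorem cfam_right {P Q : Finset ι} (hd : Disjoint P Q) {A B : mm} {i : ι} (h : i ∈ Q) :
    cfam P Q A B i = B := by
  rw [cfam, if_neg (Finset.disjoint_right.1 hd h), if_pos h]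

theorem cfam_out {P Q : Finset ι} {A B : mm} {i : ι} (h : i ∉ P) (h' : i ∉ Q) : cfam P Q A B i = 1 := by
  rw [cfam, if_neg h, if_neg h']

theorem cfam_mul (P Q : Finset ι) (A B A' B' : mm) :
    (fun i => cfam P Q A B i * cfam P Q A' B' i) = cfam P Q (A * A') (B * B') := by
  funext i
  unfold cfam
  split_ifs <;> simp

/-- The signs of two parts. -/
theorem wm_cfam_smul (P Q : Finset ι) (hd : Disjoint P Q) (a b : F) (A B : mm) :
    (wm 1 (cfam P Q (a • A) (b • B)) : MM) = (a ^ P.card * b ^ Q.card) • wm 1 (cfam P Q A B) := by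
  have e : cfam P Q (a • A) (b • B) =
      fun i => ((if i ∈ P then a else 1) * (if i ∈ Q then b else 1)) • cfam P Q A B i := by
    funext i
    unfold cfam
    by_cases hP : i ∈ P
    · simp [hP, Finset.disjoint_left.1 hd hP]
    · by_cases hQ : i ∈ Q <;> simp [hP, hQ]
  rw [e, wm1_prod_smul]
  congr 1
  rw [Finset.prod_mul_distrib, Finset.prod_ite_mem, Finset.univ_inter, Finset.prod_const, Finset.prod_ite_mem,
    Finset.univ_inter, Finset.prod_const]

theorem rk_mid {J : Matrix (Fin m) (Fin m) F} (a b c d : Fin m → F) (W : mm) :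
    rk J a b * W * rk J c d = bf J b (W *ᵥ c) • rk J a d := by
  rw [Matrix.mul_assoc, H99.TensorS.mul_rk, H99.TensorS.rk_mul]

variable {J : Matrix (Fin m) (Fin m) F} {M : Subgroup (GL (ι → Fin m) F)} (H : SW J M)
include H

omit H in
theorem fac_smul_part {j : ι} {s : F} {A : mm} {X : MM} (h : Fac j (s • A) X) : Fac j A X := by
  obtain ⟨R, hR⟩ := h
  exact ⟨s • R, by rw [hR, kronecker_smul, smul_kronecker]⟩

omit H in
theorem fac_wm {j : ι} {A : mm} {k : ι → mm} {s : F} (h : k j = s • A) : Fac j A (wm 1 k : MM) :=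
  fac_smul_part (s := s) (h ▸ fac_wm1 j k)

/-- A commutator of two monomial elements. -/
theorem SW.comm_wm {k k' : ι → mm} (h : Mem M (1 + wm 1 k)) (h' : Mem M (1 + wm 1 k')) {a b c d : ι}
    (ha : k a * k a = 0) (hb : k' b * k' b = 0) (hc : k c * k' c * k c = 0) (hd : k' d * k d * k' d = 0) :
    Mem M (1 + (wm 1 (fun i => k i * k' i) - wm 1 (fun i => k' i * k i))) := by
  rw [← wm1_mul, ← wm1_mul]
  refine h.comm₂ h' ?_ ?_ ?_ ?_
  · rw [wm1_mul, wm1_eq_zero a ha]
  · rw [wm1_mul, wm1_eq_zero b hb]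
  · rw [wm1_mul, wm1_mul, wm1_eq_zero c hc]
  · rw [wm1_mul, wm1_mul, wm1_eq_zero d hd]

/-- Contractions of a combination of two monomial tensors at a set of factors. -/
theorem SW.contract {j : ι} {A : mm} (hA : A * A = 0) {k₁ k₂ : ι → mm} {s₁ s₂ : F} (h1 : k₁ j = s₁ • A)
    (h2 : k₂ j = s₂ • A) {a b : F} (hmem : Mem M (1 + (a • wm 1 k₁ + b • wm 1 k₂))) {v : Fin m → F}
    (D : Finset ι) (hj : j ∉ D)
    (hD : ∀ i ∈ D, rk J v v * k₁ i * rk J v v = rk J v v ∧ rk J v v * k₂ i * rk J v v = rk J v v) :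
    ∃ c : F, c ≠ 0 ∧ Mem M (1 + c • (a • wm 1 (D.piecewise (fun _ => rk J v v) k₁) +
      b • wm 1 (D.piecewise (fun _ => rk J v v) k₂))) := by
  induction D using Finset.induction with
  | empty => exact ⟨1, one_ne_zero, by simpa using hmem⟩
  | insert i D hi ih =>
    rw [Finset.mem_insert, not_or] at hj
    obtain ⟨c, hc, h⟩ := ih hj.2 fun l hl => hD l (Finset.mem_insert_of_mem hl)
    have f1 : Fac j A (wm 1 (D.piecewise (fun _ => rk J v v) k₁) : MM) :=
      fac_wm (s := s₁) (by rw [Finset.piecewise_eq_of_notMem _ _ _ hj.2, h1])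
    have f2 : Fac j A (wm 1 (D.piecewise (fun _ => rk J v v) k₂) : MM) :=
      fac_wm (s := s₂) (by rw [Finset.piecewise_eq_of_notMem _ _ _ hj.2, h2])
    have := H.second_diff (Ne.symm hj.1) hA (((f1.smul a).add (f2.smul b)).smul c) h v
    obtain ⟨e1, e2⟩ := hD i (Finset.mem_insert_self i D)
    refine ⟨-2 * c, mul_ne_zero (neg_ne_zero.2 H.two) hc, ?_⟩
    convert this using 2
    rw [Finset.piecewise_insert, Finset.piecewise_insert]
    simp only [mul_smul_comm, smul_mul_assoc, mul_add, add_mul, sl_wm1_sl,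
      Finset.piecewise_eq_of_notMem _ _ _ hi, e1, e2, mul_smul]

/-- The double difference at one factor. -/
theorem SW.double_diff {j i : ι} (hij : i ≠ j) {A : mm} (hA : A * A = 0) {k : ι → mm} {s : F} (hj : k j = s • A)
    {c : F} {W : mm} (hmem : Mem M (1 + c • wm 1 (Function.update k i W))) {u v : Fin m → F}
    (hv : bf J v (W *ᵥ v) = 0) (huv : bf J u v = 0) :
    Mem M (1 + c • wm 1 (Function.update k i
      ((-bf J u (W *ᵥ v)) • rk J u v + (-bf J v (W *ᵥ u)) • rk J v u))) := by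
  have hvu := H.sJ.zero_comm.1 huv
  have f : Fac j A (c • wm 1 (Function.update k i W) : MM) :=
    (fac_wm (s := s) (by rw [Function.update_of_ne hij.symm, hj])).smul c
  have z1 : (sl i (rk J v v) : MM) * (c • wm 1 (Function.update k i W)) * sl i (rk J v v) = 0 := by
    rw [mul_smul_comm, smul_mul_assoc, sl_wm1_sl, Function.update_self, Function.update_idem, rk_mid, hv,
      zero_smul, wm1_eq_zero i (Function.update_self i _ _), smul_zero]
  have d1 := H.first_diff hij hA f hmem v z1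
  set W' := rk J v v * W - W * rk J v v with hW'
  rw [mul_smul_comm, smul_mul_assoc, sl_mul_wm1, wm1_mul_sl, Function.update_self, Function.update_idem,
    Function.update_idem, ← smul_sub, ← wm1_update_sub, ← hW'] at d1
  have f' : Fac j A (c • wm 1 (Function.update k i W') : MM) :=
    (fac_wm (s := s) (by rw [Function.update_of_ne hij.symm, hj])).smul c
  have z2 : (sl i (rk J u u) : MM) * (c • wm 1 (Function.update k i W')) * sl i (rk J u u) = 0 := by
    rw [mul_smul_comm, smul_mul_assoc, sl_wm1_sl, Function.update_self, Function.update_idem, hW', Matrix.mul_sub,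
      Matrix.sub_mul, ← Matrix.mul_assoc, H99.TensorS.rk_mul, huv, zero_smul, Matrix.zero_mul, Matrix.zero_mul,
      Matrix.mul_assoc (rk J u u), Matrix.mul_assoc W, H99.TensorS.rk_mul, hvu, zero_smul, Matrix.mul_zero,
      Matrix.mul_zero, sub_zero, wm1_eq_zero i (Function.update_self i _ _), smul_zero]
  have d2 := H.first_diff hij hA f' d1 u z2
  rw [mul_smul_comm, smul_mul_assoc, sl_mul_wm1, wm1_mul_sl, Function.update_self, Function.update_idem,
    Function.update_idem, ← smul_sub, ← wm1_update_sub] at d2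
  convert d2 using 6
  rw [hW', Matrix.mul_sub, Matrix.sub_mul, ← Matrix.mul_assoc (rk J u u), ← Matrix.mul_assoc (rk J u u),
    rk_mid, rk_mid, H99.TensorS.rk_mul, huv, Matrix.mul_assoc W, H99.TensorS.rk_mul, hvu]
  simp only [zero_smul, Matrix.zero_mul, Matrix.mul_zero]
  module

/-- The double difference of the part of a hyperbolic pair. -/
theorem SW.pair_part {j i : ι} (hij : i ≠ j) {A : mm} (hA : A * A = 0) {k : ι → mm} {s : F} (hj : k j = s • A)
    {c : F} (hc : c ≠ 0) {e e' h : Fin m → F} (hee : bf J e e' = 1) (hh0 : h ≠ 0) (heh : bf J e h = 0)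
    (he'h : bf J e' h = 0) (hmem : Mem M (1 + c • wm 1 (Function.update k i (wedge J e e')))) :
    ∃ (c' : F) (B : mm), c' ≠ 0 ∧ IsT J B ∧ Mem M (1 + c' • wm 1 (Function.update k i B)) := by
  have hJ := H.sJ
  obtain ⟨h₁, hh₁⟩ := hJ.exists_one hh0
  have he'e : bf J e' e = -1 := by rw [hJ.swap e e', hee]
  have hhe : bf J h e = 0 := hJ.zero_comm.1 heh
  have hhe' : bf J h e' = 0 := hJ.zero_comm.1 he'h
  set h' := h₁ + bf J e' h₁ • e - bf J e h₁ • e' with hh'
  have p1 : bf J e h' = 0 := by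
    simp [hh', H99.TensorS.bf_sub_right, H99.TensorS.bf_add_right, H99.TensorS.bf_smul_right, hJ.self, hee]
  have p2 : bf J e' h' = 0 := by
    simp [hh', H99.TensorS.bf_sub_right, H99.TensorS.bf_add_right, H99.TensorS.bf_smul_right, hJ.self, he'e]
  have p3 : bf J h h' = 1 := by
    simp [hh', H99.TensorS.bf_sub_right, H99.TensorS.bf_add_right, H99.TensorS.bf_smul_right, hhe, hhe', hh₁]
  have q1 := hJ.zero_comm.1 p1
  have q2 := hJ.zero_comm.1 p2
  have q3 : bf J h' h = -1 := by rw [hJ.swap h h', p3]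
  set v := e + h with hv
  set u := e' - h' with hu
  have huv : bf J u v = 0 := by
    simp [hu, hv, H99.TensorS.bf_sub_left, H99.TensorS.bf_add_right, he'e, he'h, q1, q3]
  have hW : ∀ x y, bf J x (wedge J e e' *ᵥ y) = bf J e' y * bf J x e - bf J e y * bf J x e' := fun x y => by
    rw [wedge, Matrix.sub_mulVec, H99.TensorS.rk_mulVec, H99.TensorS.rk_mulVec, H99.TensorS.bf_sub_right,
      H99.TensorS.bf_smul_right, H99.TensorS.bf_smul_right]
  have a0 : bf J v (wedge J e e' *ᵥ v) = 0 := by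
    rw [hW, hJ.swap e v, hJ.swap e' v]; ring
  have b1 : bf J u (wedge J e e' *ᵥ v) = 1 := by
    rw [hW]
    simp [hu, hv, H99.TensorS.bf_sub_left, H99.TensorS.bf_add_right, hJ.self, hee, he'e, heh, he'h, q1, q2]
  have b2 : bf J v (wedge J e e' *ᵥ u) = -1 := by
    rw [hW]
    simp [hu, hv, H99.TensorS.bf_add_left, H99.TensorS.bf_sub_right, hJ.self, hee, he'e, hhe, hhe', p1, p2]
  have := H.double_diff hij hA hj hmem a0 huv
  rw [b1, b2, show (-(1 : F)) • rk J u v + (- -(1 : F)) • rk J v u = (-1 : F) • wedge J u v by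
    rw [wedge]; module, wm1_update_smul, smul_smul] at this
  have eu : bf J e u = 1 := by simp [hu, H99.TensorS.bf_sub_right, hee, p1]
  have hu0 : u ≠ 0 := fun h0 => by rw [h0, H99.TensorS.bf_zero_right] at eu; exact zero_ne_one eu
  refine ⟨c * -1, _, mul_ne_zero hc (neg_ne_zero.2 one_ne_zero), ⟨u, v, hu0, fun t ht => ?_, huv, rfl⟩, this⟩
  have t0 : t = 0 := by
    have := congrArg (bf J e) ht
    rw [H99.TensorS.bf_smul_right, eu, mul_one] at this
    rw [← this]
    simp [hv, H99.TensorS.bf_add_right, hJ.self, heh]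
  have := congrArg (bf J h') ht
  rw [t0, zero_smul, H99.TensorS.bf_zero_right] at this
  simp [hv, H99.TensorS.bf_add_right, q1, q3] at this

/-- The two partner elements. -/
theorem SW.base_pair (hm : 3 ≤ m) : ∃ e e' h : Fin m → F, bf J e e' = 1 ∧ h ≠ 0 ∧ bf J e h = 0 ∧ bf J e' h = 0 := by
  have he0 : (Pi.single ⟨0, by omega⟩ 1 : Fin m → F) ≠ 0 := by simp [Pi.single_eq_zero_iff]
  obtain ⟨e', he'⟩ := H.sJ.exists_one he0
  obtain ⟨h, h0, hh⟩ := H99.TensorS.exists_perp (J := J) ![(Pi.single ⟨0, by omega⟩ 1 : Fin m → F), e']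
    (by simp; omega)
  exact ⟨_, e', h, he', h0, hh 0, hh 1⟩

theorem SW.base_two (hm : 0 < m) : ∃ e e' : Fin m → F, bf J e e' = 1 := by
  have he0 : (Pi.single ⟨0, hm⟩ 1 : Fin m → F) ≠ 0 := by simp [Pi.single_eq_zero_iff]
  exact ⟨_, H.sJ.exists_one he0⟩

omit H in
theorem isN_of {e e' : Fin m → F} (hee : bf J e e' = 1) : IsN J (rk J e e) :=
  ⟨e, fun h => by rw [h, H99.TensorS.bf_zero_left] at hee; exact zero_ne_one hee, rfl⟩

omit H in
theorem isN_of' {e e' : Fin m → F} (hee : bf J e e' = 1) : IsN J (rk J e' e') :=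
  ⟨e', fun h => by rw [h, H99.TensorS.bf_zero_right] at hee; exact zero_ne_one hee, rfl⟩

theorem SW.isN_sum {e e' : Fin m → F} (hee : bf J e e' = 1) : IsN J (rk J (e + e') (e + e')) := by
  refine ⟨e + e', fun h => ?_, rfl⟩
  have := congrArg (bf J e) h
  rw [H99.TensorS.bf_add_right, H.sJ.self, hee, zero_add, H99.TensorS.bf_zero_right] at this
  exact one_ne_zero this

theorem SW.contr_pair {e e' : Fin m → F} (hee : bf J e e' = 1) :
    rk J (e + e') (e + e') * rk J e e' * rk J (e + e') (e + e') = rk J (e + e') (e + e') ∧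
      rk J (e + e') (e + e') * rk J e' e * rk J (e + e') (e + e') = rk J (e + e') (e + e') := by
  simp [H99.TensorS.rk_mul, H99.TensorS.bf_add_left, H99.TensorS.bf_add_right, H.sJ.self, H.sJ.swap e e', hee,
    smul_smul]

/-- Equal supports: the two partners combine. -/
theorem SW.same_comm {P Q : Finset ι} (h : Mono J M P Q) (hd : Disjoint P Q) {q : ι} (hq : q ∈ Q)
    (hodd : Odd P.card) {e e' w : Fin m → F} (hee : bf J e e' = 1) (hw : w ≠ 0) (hew : bf J e w = 0)
    (he'w : bf J e' w = 0) :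
    Mem M (1 + (((-1 : F) ^ Q.card) • wm 1 (cfam P Q (rk J e e') (rk J w w)) +
      (1 : F) • wm 1 (cfam P Q (rk J e' e) (rk J w w)))) := by
  have hJ := H.sJ
  obtain ⟨ht, ht'⟩ := H.isT_of hee hw hew he'w
  have mk : ∀ A B : mm, IsN J A → IsT J B → Mem M (1 + wm 1 (cfam P Q A B)) := fun A B hA hB => by
    have := h 1 (cfam P Q A B) (fun i hi => by rwa [cfam_left hi]) (fun i hi => by rwa [cfam_right hd hi])
      (fun i hi hi' => cfam_out hi hi')
    rwa [one_smul] at this
  have he'e : bf J e' e = -1 := by rw [hJ.swap e e', hee]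
  have hwe := hJ.zero_comm.1 hew
  have hwe' := hJ.zero_comm.1 he'w
  have t1 : wedge J e w * wedge J e' w = (-1 : F) • rk J w w := by
    simp [wedge, Matrix.mul_sub, Matrix.sub_mul, H99.TensorS.rk_mul, hJ.self, hee, hwe', hew]
  have t2 : wedge J e' w * wedge J e w = (1 : F) • rk J w w := by
    simp [wedge, Matrix.mul_sub, Matrix.sub_mul, H99.TensorS.rk_mul, hJ.self, he'e, hwe, he'w]
  have n1 : rk J e e * rk J e' e' = (1 : F) • rk J e e' := by rw [H99.TensorS.rk_mul, hee]
  have n2 : rk J e' e' * rk J e e = (-1 : F) • rk J e' e := by rw [H99.TensorS.rk_mul, he'e]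
  have hz : ∀ x : Fin m → F, bf J x w = 0 → rk J w w * wedge J x w = 0 := fun x hx => by
    simp [wedge, Matrix.mul_sub, H99.TensorS.rk_mul, hJ.self, hJ.zero_comm.1 hx]
  have := H.comm_wm (a := q) (b := q) (c := q) (d := q)
    (mk _ _ (isN_of hee) ht) (mk _ _ (isN_of' hee) ht')
    (by rw [cfam_right hd hq]; exact ht.sq hJ) (by rw [cfam_right hd hq]; exact ht'.sq hJ)
    (by rw [cfam_right hd hq, cfam_right hd hq, t1, Matrix.smul_mul, hz e hew, smul_zero])
    (by rw [cfam_right hd hq, cfam_right hd hq, t2, Matrix.smul_mul, hz e' he'w, smul_zero])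
  rw [cfam_mul, cfam_mul, t1, t2, n1, n2, wm_cfam_smul P Q hd, wm_cfam_smul P Q hd, one_pow, one_mul, one_pow,
    mul_one, hodd.neg_one_pow, neg_one_smul, sub_neg_eq_add] at this
  rwa [one_smul]

/-- An even number of rank two parts turns into transvection parts. -/
theorem SW.even_step (hm : 3 ≤ m) {P Q : Finset ι} (h : Mono J M P Q) (hd : Disjoint P Q) (hq : Q.Nonempty)
    (hodd : Odd P.card) (hev : Even Q.card) : Mono J M (P ∪ Q) ∅ := by
  obtain ⟨e, e', w, hee, hw, hew, he'w⟩ := H.base_pair hm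
  obtain ⟨q, hq⟩ := hq
  have hX := H.same_comm h hd hq hodd hee hw hew he'w
  obtain ⟨c, hc, hX'⟩ := H.contract (j := q) (A := rk J w w) (IsN.sq H.sJ ⟨w, hw, rfl⟩)
    (s₁ := 1) (s₂ := 1) (by rw [cfam_right hd hq, one_smul]) (by rw [cfam_right hd hq, one_smul]) hX
    (v := e + e') P (Finset.disjoint_right.1 hd hq)
    fun i hi => by rw [cfam_left hi, cfam_left hi]; exact H.contr_pair hee
  have key : ∀ A : mm, P.piecewise (fun _ => rk J (e + e') (e + e')) (cfam P Q A (rk J w w)) =
      cfam P Q (rk J (e + e') (e + e')) (rk J w w) := fun A => by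
    funext i
    by_cases hi : i ∈ P
    · rw [Finset.piecewise_eq_of_mem _ _ _ hi, cfam_left hi]
    · rw [Finset.piecewise_eq_of_notMem _ _ _ hi, cfam, cfam, if_neg hi, if_neg hi]
  rw [key, key, hev.neg_one_pow, ← add_smul, smul_smul] at hX'
  refine H.mono_of (mul_ne_zero hc (by rw [one_add_one_eq_two]; exact H.two)) (fun i hi => ?_)
    (fun i hi => absurd hi (Finset.notMem_empty i)) (fun i hi _ => ?_) (Finset.disjoint_empty_right _)
    ⟨q, by simp [hq]⟩ hX'
  · rcases Finset.mem_union.1 hi with hi | hi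
    · rw [cfam_left hi]; exact H.isN_sum hee
    · rw [cfam_right hd hi]; exact ⟨w, hw, rfl⟩
  · rw [Finset.mem_union, not_or] at hi
    exact cfam_out hi.1 hi.2

/-- An odd number of rank two parts: one of them remains, at any chosen place. -/
theorem SW.odd_step (hm : 3 ≤ m) {P Q : Finset ι} (h : Mono J M P Q) (hd : Disjoint P Q)
    (hoddP : Odd P.card) (hoddQ : Odd Q.card) {i₀ : ι} (hi₀ : i₀ ∈ P) :
    Mono J M ((P ∪ Q).erase i₀) {i₀} := by
  obtain ⟨e, e', w, hee, hw, hew, he'w⟩ := H.base_pair hm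
  obtain ⟨q, hq⟩ := Finset.card_pos.1 hoddQ.pos
  have hiq : i₀ ≠ q := fun h' => Finset.disjoint_left.1 hd hi₀ (h' ▸ hq)
  have hX := H.same_comm h hd hq hoddP hee hw hew he'w
  obtain ⟨c, hc, hX'⟩ := H.contract (j := q) (A := rk J w w) (IsN.sq H.sJ ⟨w, hw, rfl⟩)
    (s₁ := 1) (s₂ := 1) (by rw [cfam_right hd hq, one_smul]) (by rw [cfam_right hd hq, one_smul]) hX
    (v := e + e') (P.erase i₀) (fun h' => Finset.disjoint_right.1 hd hq (Finset.mem_of_mem_erase h'))
    fun i hi => by
      rw [cfam_left (Finset.mem_of_mem_erase hi), cfam_left (Finset.mem_of_mem_erase hi)]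
      exact H.contr_pair hee
  set k₃ := cfam P Q (rk J (e + e') (e + e')) (rk J w w) with hk₃
  have key : ∀ A : mm, (P.erase i₀).piecewise (fun _ => rk J (e + e') (e + e')) (cfam P Q A (rk J w w)) =
      Function.update k₃ i₀ A := fun A => by
    funext i
    by_cases hi : i = i₀
    · subst hi
      rw [Finset.piecewise_eq_of_notMem _ _ _ (Finset.notMem_erase i P), Function.update_self, cfam_left hi₀]
    rw [Function.update_of_ne hi, hk₃]
    by_cases hiP : i ∈ P
    · rw [Finset.piecewise_eq_of_mem _ _ _ (Finset.mem_erase.2 ⟨hi, hiP⟩), cfam_left hiP]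
    · rw [Finset.piecewise_eq_of_notMem _ _ _ (fun h' => hiP (Finset.mem_of_mem_erase h')), cfam, cfam,
        if_neg hiP, if_neg hiP]
  have e1 : ((-1 : F) ^ Q.card) • (wm 1 (Function.update k₃ i₀ (rk J e e')) : MM) +
      (1 : F) • wm 1 (Function.update k₃ i₀ (rk J e' e)) =
      (-1 : F) • wm 1 (Function.update k₃ i₀ (wedge J e e')) := by
    rw [hoddQ.neg_one_pow, wedge, wm1_update_sub, smul_sub, neg_one_smul, neg_one_smul, one_smul, sub_neg_eq_add]
  rw [key, key, e1, smul_smul] at hX'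
  obtain ⟨c', B, hc', hB, hY⟩ := H.pair_part hiq (IsN.sq H.sJ ⟨w, hw, rfl⟩) (s := 1)
    (by rw [hk₃, cfam_right hd hq, one_smul]) (mul_ne_zero hc (neg_ne_zero.2 one_ne_zero)) hee hw hew he'w hX'
  refine H.mono_of hc' (fun i hi => ?_) (fun i hi => ?_) (fun i hi hi' => ?_) ?_
    ⟨i₀, Finset.mem_union_right _ (Finset.mem_singleton_self i₀)⟩ hY
  · obtain ⟨hne, hi⟩ := Finset.mem_erase.1 hi
    rw [Function.update_of_ne hne, hk₃]
    rcases Finset.mem_union.1 hi with hi | hi
    · rw [cfam_left hi]; exact H.isN_sum hee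
    · rw [cfam_right hd hi]; exact ⟨w, hw, rfl⟩
  · obtain rfl := Finset.mem_singleton.1 hi
    rwa [Function.update_self]
  · rw [Finset.mem_singleton] at hi'
    rw [Function.update_of_ne hi', hk₃]
    exact cfam_out (fun h' => hi (Finset.mem_erase.2 ⟨hi', Finset.mem_union_left _ h'⟩))
      (fun h' => hi (Finset.mem_erase.2 ⟨hi', Finset.mem_union_right _ h'⟩))
  · exact Finset.disjoint_singleton_right.2 (Finset.notMem_erase i₀ _)

end Cfsg.Agent.H5.C7
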