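import Cfsg.Agent.H5.C7.MonoTop
import Cfsg.Agent.H5.RootClosure
import Cfsg.Agent.H5.Siegel
import Cfsg.Agent.H5.OmegaGL

/-!
Monomial elements with all but one part of transvection type give the whole orthogonal group of a tensor power.
-/

set_option autoImplicit false
set_option linter.unusedSectionVars false

namespace Cfsg.Agent.H5.C7

open Matrix
open Cfsg.Agent.H99.TensorS (SympMat bf adj wedge)

variable {F : Type*} [Field F] {ι : Type} [Fintype ι] [DecidableEq ι] {m : ℕ}

local notation "MM" => Matrix (ι → Fin m) (ι → Fin m) F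
local notation "mm" => Matrix (Fin m) (Fin m) F

theorem pv_update_add (w : ι → Fin m → F) (i : ι) (x y : Fin m → F) :
    pv (Function.update w i (x + y)) = pv (Function.update w i x) + pv (Function.update w i y) := by
  funext g
  simp only [pv, Pi.add_apply]
  rw [← Finset.mul_prod_erase _ _ (Finset.mem_univ i), ← Finset.mul_prod_erase _ _ (Finset.mem_univ i),
    ← Finset.mul_prod_erase _ (fun j => Function.update w i y j (g j)) (Finset.mem_univ i)]
  simp only [Function.update_self, Pi.add_apply]
  have e : ∀ z : Fin m → F, ∏ j ∈ Finset.univ.erase i, Function.update w i z j (g j) =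
      ∏ j ∈ Finset.univ.erase i, w j (g j) := fun z =>
    Finset.prod_congr rfl fun j hj => by rw [Function.update_of_ne (Finset.mem_erase.1 hj).1]
  rw [e, e, e]
  ring

theorem pv_update_smul (w : ι → Fin m → F) (i : ι) (c : F) (x : Fin m → F) :
    pv (Function.update w i (c • x)) = c • pv (Function.update w i x) := by
  funext g
  simp only [pv, Pi.smul_apply, smul_eq_mul]
  rw [← Finset.mul_prod_erase _ _ (Finset.mem_univ i),
    ← Finset.mul_prod_erase _ (fun j => Function.update w i x j (g j)) (Finset.mem_univ i), ← mul_assoc]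
  simp only [Function.update_self, Pi.smul_apply, smul_eq_mul]
  congr 1
  exact Finset.prod_congr rfl fun j hj => by
    rw [Function.update_of_ne (Finset.mem_erase.1 hj).1, Function.update_of_ne (Finset.mem_erase.1 hj).1]

theorem bf_neg_left {n : Type} [Fintype n] [DecidableEq n] (J : Matrix n n F) (u v : n → F) :
    bf J (-u) v = -bf J u v := by
  rw [← neg_one_smul F u, H99.TensorS.bf_smul_left, neg_one_mul]

theorem bf_neg_right {n : Type} [Fintype n] [DecidableEq n] (J : Matrix n n F) (u v : n → F) :
    bf J u (-v) = -bf J u v := by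
  rw [← neg_one_smul F v, H99.TensorS.bf_smul_right, neg_one_mul]

theorem pv_update_zero (w : ι → Fin m → F) (i : ι) : pv (Function.update w i 0) = 0 := by
  rw [← zero_smul F (0 : Fin m → F), pv_update_smul, zero_smul]

theorem pv_vecMul (J : mm) (y : ι → Fin m → F) :
    pv y ᵥ* (wm 1 fun _ => J : MM) = pv fun i => y i ᵥ* J := by
  rw [← mulVec_transpose, wm1_transpose, wm_pv]
  congr 1
  funext i
  rw [Equiv.Perm.one_apply, mulVec_transpose]

theorem rk_pv (J : mm) (x y : ι → Fin m → F) :
    H99.TensorS.rk (wm 1 fun _ => J : MM) (pv x) (pv y) = wm 1 fun i => H99.TensorS.rk J (x i) (y i) := by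
  ext f g
  rw [H99.TensorS.rk, vecMulVec_apply, pv_vecMul]
  simp [pv, wm_apply, H99.TensorS.rk, vecMulVec_apply, Finset.prod_mul_distrib]

theorem bf_pv' (J : mm) (x y : ι → Fin m → F) :
    bf (wm 1 fun _ => J : MM) (pv x) (pv y) = ∏ i, bf J (x i) (y i) := by
  rw [bf, pv_vecMul]
  simp only [dotProduct, pv, bf]
  rw [Fintype.prod_sum (fun i a => (x i ᵥ* J) a * y i a)]
  exact Finset.sum_congr rfl fun h _ => Finset.prod_mul_distrib.symm

/-- Two pure vectors differing at one factor. -/
theorem wedge_pv (J : mm) (X : ι → Fin m → F) (i : ι) (x y : Fin m → F) :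
    wedge (wm 1 fun _ => J : MM) (pv (Function.update X i x)) (pv (Function.update X i y)) =
      wm 1 (Function.update (fun l => H99.TensorS.rk J (X l) (X l)) i (wedge J x y)) := by
  have e : ∀ a b : Fin m → F, (fun l => H99.TensorS.rk J (Function.update X i a l) (Function.update X i b l)) =
      Function.update (fun l => H99.TensorS.rk J (X l) (X l)) i (H99.TensorS.rk J a b) := fun a b => by
    funext l
    by_cases h : l = i
    · subst h; simp
    · simp [h]
  rw [wedge, rk_pv, rk_pv, e, e, ← wm1_update_sub, wedge]

section Orth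

open QuadraticMap

variable [Finite F] {J : Matrix (Fin m) (Fin m) F} {M : Subgroup (GL (ι → Fin m) F)} (H : SW0 J M)
  {Q : ((ι → Fin m) → F) → F} (Qc : QuadraticForm F ((ι → Fin m) → F)) (hf : ⇑Qc = Q)
  (hQ : (polarBilin Qc).Nondegenerate)
  (hpol : ∀ u v, polar Qc u v = bf (wm 1 fun _ => J : Matrix (ι → Fin m) (ι → Fin m) F) u v)
  (hpure : ∀ w : ι → Fin m → F, Qc (pv w) = 0)
  (top : (3 ≤ m → ∀ i, Mono J M (Finset.univ.erase i) {i}) ∧ (m ≤ 2 → ∀ o, Mono J M (Finset.univ.erase o) ∅))
include H hQ hpol hpure top

omit hQ in
/-- Root elements at two pure vectors differing at one factor by an orthogonal or, in dimension two, any vector. -/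
theorem SW0.root_base (X : ι → Fin m → F) (hX : ∀ l, X l ≠ 0) (i : ι) (y : Fin m → F)
    (hy : ∀ s : F, y ≠ s • X i) (hy' : 3 ≤ m → bf J (X i) y = 0) (hy2 : m ≤ 2 → bf J (X i) y = 1)
    (ht : 2 ≤ Fintype.card ι) :
    RootIn (M.comap (toGLHom Qc hf)) (pv X) (pv (Function.update X i y)) := by
  have hJ := H.sJ
  obtain ⟨r, hr⟩ : ∃ r, r ≠ i := Fintype.exists_ne_of_one_lt_card (by omega) i
  have hua : bf (wm 1 fun _ => J : MM) (pv X) (pv (Function.update X i y)) = 0 := by
    rw [bf_pv', Finset.prod_eq_zero (Finset.mem_univ r) (by rw [Function.update_of_ne hr, hJ.self])]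
  have hmem : Mem M (1 + wedge (wm 1 fun _ => J : MM) (pv (Function.update X i y)) (pv X)) := by
    have e := wedge_pv J X i y (X i)
    rw [Function.update_eq_self] at e
    rw [e]
    rcases Nat.lt_or_ge m 3 with hm | hm
    · have := top.2 (by omega) i 1 (Function.update (fun l => H99.TensorS.rk J (X l) (X l)) i 1) (fun l hl => by
        rw [Function.update_of_ne (Finset.mem_erase.1 hl).1]; exact ⟨X l, hX l, rfl⟩)
        (fun l hl => absurd hl (Finset.notMem_empty l)) (fun l hl _ => by
          obtain rfl : l = i := by
            by_contra h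
            exact hl (Finset.mem_erase.2 ⟨h, Finset.mem_univ l⟩)
          rw [Function.update_self])
      rw [one_smul] at this
      convert this using 5
      refine Matrix.ext_of_mulVec_single fun a => sub_eq_zero.1 ?_
      set v : Fin m → F := Pi.single a 1
      set D := wedge J y (X i) *ᵥ v - (1 : mm) *ᵥ v with hD
      have hxy := hy2 (by omega)
      have h1 : bf J (X i) D = 0 := by
        simp [hD, wedge, Matrix.sub_mulVec, H99.TensorS.rk_mulVec, H99.TensorS.bf_sub_right,
          H99.TensorS.bf_smul_right, hxy, hJ.self]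
      have h2 : bf J y D = 0 := by
        simp [hD, wedge, Matrix.sub_mulVec, H99.TensorS.rk_mulVec, H99.TensorS.bf_sub_right,
          H99.TensorS.bf_smul_right, hJ.self, hJ.swap (X i) y, hxy]
      by_contra hD0
      exact absurd (four_le_of_isT hJ (H.isT_of hxy hD0 h1 h2).1) (by omega)
    · have := top.1 hm i 1 (Function.update (fun l => H99.TensorS.rk J (X l) (X l)) i (wedge J y (X i))) (fun l hl => by
        rw [Function.update_of_ne (Finset.mem_erase.1 hl).1]; exact ⟨X l, hX l, rfl⟩)
        (fun l hl => by
          obtain rfl := Finset.mem_singleton.1 hl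
          rw [Function.update_self]
          refine ⟨y, X l, fun h0 => hy 0 (by rw [h0, zero_smul]), fun s hs => ?_, hJ.zero_comm.1 (hy' hm), rfl⟩
          rcases eq_or_ne s 0 with rfl | hs0
          · exact hX l (by rw [hs, zero_smul])
          · exact hy s⁻¹ (by rw [hs, smul_smul, inv_mul_cancel₀ hs0, one_smul]))
        (fun l hl hl' => absurd (Finset.mem_erase.2 ⟨fun h => hl' (Finset.mem_singleton.2 h),
          Finset.mem_univ l⟩) hl)
      rwa [one_smul] at this
  refine ⟨hpure X, by rw [hpol, hua], ?_⟩
  obtain ⟨g, hg, hgX⟩ := hmem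
  rw [Subgroup.mem_comap]
  convert hg using 1
  refine Units.ext (Matrix.ext_of_mulVec_single fun a => ?_)
  rw [toGLHom_mulVec, eich_apply (hpure X) (by rw [hpol, hua]), hgX, hpol, hpol, hpure, zero_mul, zero_smul, sub_zero,
    add_mulVec, one_mulVec, wedge, sub_mulVec, H99.TensorS.rk_mulVec, H99.TensorS.rk_mulVec, add_sub_assoc]

omit hQ top in
/-- Conjugation moves one root element to another. -/
theorem SW0.root_step {X a p : ι → Fin m → F} {l : ι} {ql : Fin m → F}
    (hu : RootIn (M.comap (toGLHom Qc hf)) (pv p) (pv (Function.update p l ql)))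
    (ha : ∀ c : F, RootIn (M.comap (toGLHom Qc hf)) (pv X) (c • pv a))
    (hp : ∃ i, bf J (p i) (X i) = 0) (hq : ∃ i, bf J (Function.update p l ql i) (X i) = 0)
    (hpa : ∀ i, bf J (p i) (a i) ≠ 0) (hqa : bf J ql (a l) = 0) :
    ∀ c : F, RootIn (M.comap (toGLHom Qc hf)) (pv X) (c • pv (Function.update p l ql)) := by
  intro c
  set q := Function.update p l ql with hq'
  set β := ∏ i, bf J (p i) (a i) with hβ
  have hβ0 : β ≠ 0 := Finset.prod_ne_zero_iff.2 fun i _ => hpa i
  have happ : ∀ v, ((eich Qc (pv p) (pv q) : orth Qc) : ((ι → Fin m) → F) ≃ₗ[F] ((ι → Fin m) → F)) v =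
      v + polar Qc (pv p) v • pv q - polar Qc (pv q) v • pv p := fun v => by
    rw [eich_apply hu.1 hu.2.1, hpure, zero_mul, zero_smul, sub_zero]
  have h1 := RootIn.conj hu.2.2 (ha (c / β))
  obtain ⟨i₁, hi₁⟩ := hp
  obtain ⟨i₂, hi₂⟩ := hq
  have e1 : polar Qc (pv p) (pv X) = 0 := by rw [hpol, bf_pv', Finset.prod_eq_zero (Finset.mem_univ i₁) hi₁]
  have e2 : polar Qc (pv q) (pv X) = 0 := by rw [hpol, bf_pv', Finset.prod_eq_zero (Finset.mem_univ i₂) hi₂]
  have e3 : polar Qc (pv p) (pv a) = β := by rw [hpol, bf_pv']
  have e4 : polar Qc (pv q) (pv a) = 0 := by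
    rw [hpol, bf_pv', Finset.prod_eq_zero (Finset.mem_univ l) (by rw [hq', Function.update_self, hqa])]
  rw [happ, happ, e1, e2, zero_smul, zero_smul, add_zero, sub_zero, polar_smul_right, polar_smul_right, e3, e4,
    smul_zero, zero_smul, sub_zero, smul_eq_mul, div_mul_cancel₀ _ hβ0] at h1
  simpa using h1.sub (ha (c / β))

omit hQ in
set_option maxHeartbeats 2000000 in
/-- All root elements at a pure vector. -/
theorem SW0.full_root (ht : 2 ≤ Fintype.card ι) (ht2 : m ≤ 2 → Even (Fintype.card ι) ∧ 4 ≤ Fintype.card ι)
    (X : ι → Fin m → F) (hX : ∀ l, X l ≠ 0) : FullRoot (M.comap (toGLHom Qc hf)) (pv X) := by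
  classical
  have hJ := H.sJ
  set M' := M.comap (toGLHom Qc hf) with hM'
  have hz : RootIn M' (pv X) 0 := ⟨hpure X, polar_zero_right _ _, by rw [eich_zero]; exact one_mem _⟩
  obtain ⟨X', hX'⟩ : ∃ X' : ι → Fin m → F, ∀ l, bf J (X l) (X' l) = 1 :=
    ⟨fun l => (hJ.exists_one (hX l)).choose, fun l => (hJ.exists_one (hX l)).choose_spec⟩
  have hX'0 : ∀ l, X' l ≠ 0 := fun l h => by
    have := hX' l
    rw [h, H99.TensorS.bf_zero_right] at this
    exact zero_ne_one this
  let Rt : (ι → Fin m → F) → Prop := fun w => ∀ c : F, RootIn M' (pv X) (c • pv w)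
  have rt_zero : ∀ w l, w l = 0 → Rt w := fun w l hl c => by
    rw [← Function.update_eq_self l w, hl, pv_update_zero, smul_zero]; exact hz
  have rt_add : ∀ w l x y, Rt (Function.update w l x) → Rt (Function.update w l y) →
      Rt (Function.update w l (x + y)) := fun w l x y hx hy c => by
    rw [pv_update_add, smul_add]; exact (hx c).add (hy c)
  have rt_smul : ∀ w l x (c : F), Rt (Function.update w l x) → Rt (Function.update w l (c • x)) :=
    fun w l x c hx d => by rw [pv_update_smul, smul_smul]; exact hx _
  have base : ∀ i y, (∀ s : F, y ≠ s • X i) → (3 ≤ m → bf J (X i) y = 0) → (m ≤ 2 → bf J (X i) y = 1) →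
      Rt (Function.update X i y) := by
    intro i y hy hy' hy2 c
    have sq : ∀ u : F, RootIn M' (pv X) ((u * u) • pv (Function.update X i y)) := by
      intro u
      rcases eq_or_ne u 0 with rfl | hu
      · rw [zero_mul, zero_smul]; exact hz
      obtain ⟨r, hr⟩ : ∃ r, r ≠ i := Fintype.exists_ne_of_one_lt_card (by omega) i
      have hXr : ∀ l, Function.update X r (u • X r) l ≠ 0 := fun l => by
        by_cases h : l = r
        · subst h; rw [Function.update_self]; exact smul_ne_zero hu (hX l)
        · rw [Function.update_of_ne h]; exact hX l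
      have := H.root_base Qc hf hpol hpure top _ hXr i y (by rwa [Function.update_of_ne hr.symm])
        (by rwa [Function.update_of_ne hr.symm]) (by rwa [Function.update_of_ne hr.symm]) ht
      rw [pv_update_smul, Function.update_eq_self, Function.update_comm hr, pv_update_smul,
        Function.update_eq_self_iff.2 (by rw [Function.update_of_ne hr])] at this
      have h' := this.smul_left hu
      rwa [smul_smul] at h'
    obtain ⟨u, v, rfl⟩ : ∃ u v : F, u * u - v * v = c := by
      by_cases h2 : (2 : F) = 0
      · have := Fintype.ofFinite F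
        have hp : ringChar F = 2 := CharP.ringChar_of_prime_eq_zero Nat.prime_two (by exact_mod_cast h2)
        obtain ⟨l, hl⟩ := FiniteField.isSquare_of_char_two hp c
        exact ⟨l, 0, by rw [hl]; ring⟩
      · exact ⟨(c + 1) / 2, (c - 1) / 2, by field_simp; ring⟩
    have h := (sq u).sub (sq v)
    rwa [← sub_smul] at h
  suffices main : ∀ (i : ι) (w : ι → Fin m → F), bf J (X i) (w i) = 0 → Rt w by
    refine ⟨hpure X, fun a ha => ?_⟩
    suffices h : ∀ a, RootIn M' (pv X) (a - bf (wm 1 fun _ => J : MM) (pv X) a • pv X') by
      have := h a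
      rw [← hpol, ha, zero_smul, sub_zero] at this
      exact this.2.2
    intro a
    have key : ∀ w : ι → Fin m → F, ∀ c : F,
        RootIn M' (pv X) (c • (pv w - bf (wm 1 fun _ => J : MM) (pv X) (pv w) • pv X')) := by
      intro w c
      suffices hD : ∀ D : Finset ι, RootIn M' (pv X) (c • (pv w -
          (∏ l ∈ D, bf J (X l) (w l)) • pv (D.piecewise X' w))) by
        have := hD Finset.univ
        rwa [Finset.piecewise_univ, ← bf_pv'] at this
      intro D
      induction D using Finset.induction with
      | empty => simpa using hz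
      | insert l D hl ih =>
        set v := D.piecewise X' w with hv
        have hvl : v l = w l := Finset.piecewise_eq_of_notMem _ _ _ hl
        have h1 : Rt (Function.update v l (w l - bf J (X l) (w l) • X' l)) := main l _ (by
          rw [Function.update_self, H99.TensorS.bf_sub_right, H99.TensorS.bf_smul_right, hX', mul_one, sub_self])
        have e : pv v = pv (Function.update v l (w l - bf J (X l) (w l) • X' l)) +
            bf J (X l) (w l) • pv (Function.update v l (X' l)) := by
          rw [← pv_update_smul, ← pv_update_add, sub_add_cancel, ← hvl, Function.update_eq_self]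
        have h2 := ih.add (h1 (c * ∏ r ∈ D, bf J (X r) (w r)))
        rw [Finset.prod_insert hl, Finset.piecewise_insert, ← hv]
        convert h2 using 1
        rw [e]
        module
    have hdec : a = ∑ f : ι → Fin m, a f • pv (fun l => Pi.single (f l) (1 : F)) := by
      funext g
      rw [Finset.sum_apply, Finset.sum_eq_single g (fun f _ hf' => by
        obtain ⟨l, hl⟩ := Function.ne_iff.1 hf'
        rw [Pi.smul_apply, pv, Finset.prod_eq_zero (Finset.mem_univ l) (Pi.single_eq_of_ne (Ne.symm hl) _),
          smul_zero]) (by simp)]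
      simp [pv]
    have e : a - bf (wm 1 fun _ => J : MM) (pv X) a • pv X' = ∑ f : ι → Fin m, a f •
        (pv (fun l => Pi.single (f l) (1 : F)) -
          bf (wm 1 fun _ => J : MM) (pv X) (pv fun l => Pi.single (f l) 1) • pv X') := by
      simp only [smul_sub, Finset.sum_sub_distrib, smul_smul, ← hdec, ← Finset.sum_smul]
      congr 2
      conv_lhs => rw [hdec]
      simp only [bf, dotProduct_sum, dotProduct_smul, smul_eq_mul]
    rw [e]
    exact Finset.sum_induction _ (RootIn M' (pv X)) (fun u v hu hv => hu.add hv) hz fun f _ => key _ _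
  rcases Nat.lt_or_ge m 3 with hm | hm
  · -- factors of dimension two
    obtain ⟨hev, ht4⟩ := ht2 (by omega)
    have span2 : ∀ l (v : Fin m → F), v = bf J v (X' l) • X l + bf J (X l) v • X' l := fun l v => by
      refine sub_eq_zero.1 ?_
      by_contra hD0
      refine absurd (four_le_of_isT hJ (H.isT_of (hX' l) hD0 ?_ ?_).1) (by omega)
      · simp [H99.TensorS.bf_sub_right, H99.TensorS.bf_add_right, H99.TensorS.bf_smul_right, hJ.self, hX']
      · simp [H99.TensorS.bf_sub_right, H99.TensorS.bf_add_right, H99.TensorS.bf_smul_right, hJ.self, hX',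
          hJ.swap (X l) (X' l), hJ.swap v (X' l)]
    let A : Finset ι → ι → Fin m → F := fun D => D.piecewise X' X
    have step : ∀ D : Finset ι, Rt (A D) → ∀ l, (l ∉ D → D.Nonempty → Rt (A (Dᶜ.erase l))) ∧
        (l ∈ D → 2 ≤ D.card → Rt (A (insert l Dᶜ))) := by
      intro D hD l
      have hself : ∀ r, bf J (A Dᶜ r) (A D r) ≠ 0 := fun r => by
        by_cases hr : r ∈ D
        · simp [A, hr, hX']
        · simp [A, hr, hJ.swap (X r) (X' r), hX']
      have hroot : ∀ y, (∀ s : F, y ≠ s • A Dᶜ l) → bf J (A Dᶜ l) y = 1 →
          RootIn M' (pv (A Dᶜ)) (pv (Function.update (A Dᶜ) l y)) := fun y hy hy2 =>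
        H.root_base Qc hf hpol hpure top _ (fun r => by
          by_cases hr : r ∈ D
          · simp [A, hr, hX r]
          · simp [A, hr, hX'0 r]) l y hy (fun h => absurd h (by omega)) (fun _ => hy2) ht
      refine ⟨fun hl hne => ?_, fun hl h2 => ?_⟩
      · obtain ⟨r, hr⟩ := hne
        have hrl : r ≠ l := fun e => hl (e ▸ hr)
        have hl' : A Dᶜ l = X' l := by simp [A, hl]
        have := H.root_step Qc hf hpol hpure (hu := hroot (-X l) (fun s hs => ?_) ?_) (ha := hD)
          ⟨r, by simp [A, hr, hJ.self]⟩ ⟨r, by rw [Function.update_of_ne hrl]; simp [A, hr, hJ.self]⟩ hself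
          (by simp [A, hl, bf_neg_left, hJ.self])
        · intro c
          have h' := this (-c)
          rw [← neg_one_smul F (X l), pv_update_smul, smul_smul, neg_mul_neg, mul_one] at h'
          convert h' using 3
          funext s
          by_cases hs : s = l
          · subst hs; simp [A]
          · simp [A, hs, Finset.piecewise]
        · rw [hl'] at hs
          have := congrArg (bf J (X' l)) hs
          simp [bf_neg_right, H99.TensorS.bf_smul_right, hJ.self, hJ.swap (X l) (X' l), hX'] at this
        · rw [hl']
          simp [bf_neg_right, hJ.swap (X l) (X' l), hX']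
      · obtain ⟨r, hr⟩ := Finset.card_pos.1 (show 0 < (D.erase l).card by rw [Finset.card_erase_of_mem hl]; omega)
        obtain ⟨hrl, hr⟩ := Finset.mem_erase.1 hr
        have hl' : A Dᶜ l = X l := by simp [A, hl]
        have := H.root_step Qc hf hpol hpure (hu := hroot (X' l) (fun s hs => ?_) ?_) (ha := hD)
          ⟨r, by simp [A, hr, hJ.self]⟩ ⟨r, by rw [Function.update_of_ne hrl]; simp [A, hr, hJ.self]⟩ hself
          (by simp [A, hl, hJ.self])
        · intro c
          convert this c using 3
          funext s
          by_cases hs : s = l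
          · subst hs; simp [A]
          · simp [A, hs, Finset.piecewise]
        · rw [hl'] at hs
          have := congrArg (bf J (X l)) hs
          simp [H99.TensorS.bf_smul_right, hJ.self, hX'] at this
        · rw [hl', hX']
    have hodd : ∀ (n : ℕ) (D : Finset ι), D.card = 2 * n + 1 → D ≠ Finset.univ → Rt (A D) := by
      intro n
      induction n with
      | zero =>
        intro D hD _
        obtain ⟨i, rfl⟩ := Finset.card_eq_one.1 hD
        have : A {i} = Function.update X i (X' i) := Finset.piecewise_singleton X' X i
        rw [this]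
        refine base i _ (fun s hs => ?_) (fun h => by omega) (fun _ => hX' i)
        have := congrArg (bf J (X i)) hs
        simp [H99.TensorS.bf_smul_right, hJ.self, hX'] at this
      | succ n ih =>
        intro D hD hDu
        obtain ⟨a, b, c, ha, hb, hc, hab, hac, hbc⟩ := Finset.two_lt_card_iff.1 (show 2 < D.card by omega)
        set D₀ := (D.erase a).erase b with hD₀
        have hc0 : D₀.card = 2 * n + 1 := by
          rw [hD₀, Finset.card_erase_of_mem (Finset.mem_erase.2 ⟨hab.symm, hb⟩), Finset.card_erase_of_mem ha]
          omega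
        have h0 := ih D₀ hc0 fun e => by
          have := Finset.mem_univ a
          rw [← e, hD₀] at this
          simp at this
        have h1 := (step D₀ h0 a).1 (by simp [hD₀]) (Finset.card_pos.1 (by omega))
        have h2 : 2 ≤ (D₀ᶜ.erase a).card := by
          rw [Finset.card_erase_of_mem (by simp [hD₀]), Finset.card_compl, hc0]
          have hlt : D.card < Fintype.card ι := (Finset.card_lt_iff_ne_univ D).2 hDu
          omega
        have h3 := (step _ h1 b).2 (by simp [hD₀, hab.symm]) h2
        convert h3 using 2
        ext s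
        simp only [hD₀, Finset.mem_insert, Finset.mem_compl, Finset.mem_erase]
        by_cases hsa : s = a
        · subst hsa; simp [ha]
        by_cases hsb : s = b
        · subst hsb; simp [hb]
        by_cases hs : s ∈ D <;> simp [hsa, hsb, hs]
    have hall : ∀ D : Finset ι, D ≠ Finset.univ → Rt (A D) := by
      intro D hD
      rcases Nat.even_or_odd D.card with he | ⟨k, hk⟩
      swap
      · exact hodd k D hk hD
      rcases Finset.eq_empty_or_nonempty D with rfl | hne
      · intro c
        obtain ⟨i⟩ : Nonempty ι := Fintype.card_pos_iff.1 (by omega)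
        have h1 : Rt (Function.update X i (X' i)) := base i _ (fun s hs => by
          have := congrArg (bf J (X i)) hs
          simp [H99.TensorS.bf_smul_right, hJ.self, hX'] at this) (fun h => by omega) (fun _ => hX' i)
        have h2 : Rt (Function.update X i (X' i + X i)) := base i _ (fun s hs => by
          have := congrArg (bf J (X i)) hs
          simp [H99.TensorS.bf_add_right, H99.TensorS.bf_smul_right, hJ.self, hX'] at this) (fun h => by omega)
          (fun _ => by rw [H99.TensorS.bf_add_right, hX', hJ.self, add_zero])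
        have := (h2 c).sub (h1 c)
        rw [← smul_sub, pv_update_add, add_sub_cancel_left, Function.update_eq_self] at this
        rwa [show A ∅ = X from Finset.piecewise_empty _ _]
      obtain ⟨l, hl⟩ : ∃ l, l ∉ D := by
        by_contra h
        push Not at h
        exact hD (Finset.eq_univ_iff_forall.2 h)
      have hlt : D.card < Fintype.card ι := (Finset.card_lt_iff_ne_univ D).2 hD
      set D₀ := Dᶜ.erase l with hD₀
      have hc0 : D₀.card = Fintype.card ι - D.card - 1 := by
        rw [hD₀, Finset.card_erase_of_mem (Finset.mem_compl.2 hl), Finset.card_compl]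
      obtain ⟨k, hk⟩ : Odd D₀.card := by
        rw [hc0]
        obtain ⟨p, hp⟩ := hev
        obtain ⟨r, hr⟩ := he
        exact ⟨p - r - 1, by omega⟩
      have h0 := hodd k D₀ hk fun e => by
        have := Finset.mem_univ l
        rw [← e, hD₀] at this
        simp at this
      have h1 := (step D₀ h0 l).1 (by simp [hD₀]) (Finset.card_pos.1 (by omega))
      convert h1 using 2
      ext s
      simp only [hD₀, Finset.mem_compl, Finset.mem_erase]
      by_cases hs : s = l
      · subst hs; simp [hl]
      · simp [hs]
    intro i w hw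
    have hwi : w i = bf J (w i) (X' i) • X i := by
      conv_lhs => rw [span2 i (w i), hw, zero_smul, add_zero]
    have gen : ∀ (E : Finset ι), i ∉ E → ∀ (v : ι → Fin m → F), v i = X i →
        (∀ l, l ∉ E → v l = X l ∨ v l = X' l) → Rt v := by
      intro E
      induction E using Finset.induction with
      | empty =>
        intro _ v hvi hv
        have : v = A (Finset.univ.filter fun l => v l = X' l) := by
          funext l
          by_cases h : v l = X' l
          · simp [A, h]
          · simp only [A]
            rw [Finset.piecewise_eq_of_notMem _ _ _ (by simp [h])]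
            exact (hv l (Finset.notMem_empty l)).resolve_right h
        rw [this]
        refine hall _ fun e => ?_
        have := Finset.mem_univ i
        rw [← e, Finset.mem_filter, hvi] at this
        have h' := congrArg (bf J (X i)) this.2
        rw [hJ.self, hX'] at h'
        exact zero_ne_one h'
      | insert l E hl ih =>
        intro hi v hvi hv
        rw [Finset.mem_insert, not_or] at hi
        have h1 : ∀ z, (z = X l ∨ z = X' l) → Rt (Function.update v l z) := fun z hz' =>
          ih hi.2 _ (by rwa [Function.update_of_ne hi.1]) fun r hr => by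
            by_cases h : r = l
            · subst h; rwa [Function.update_self]
            · rw [Function.update_of_ne h]; exact hv r (by simp [h, hr])
        have := rt_add v l _ _ (rt_smul v l _ (bf J (v l) (X' l)) (h1 _ (Or.inl rfl)))
          (rt_smul v l _ (bf J (X l) (v l)) (h1 _ (Or.inr rfl)))
        rwa [← span2, Function.update_eq_self] at this
    have := rt_smul w i _ (bf J (w i) (X' i)) (gen (Finset.univ.erase i) (Finset.notMem_erase i _)
      (Function.update w i (X i)) (Function.update_self _ _ _) fun l hl => by
        obtain rfl : l = i := by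
          by_contra h
          exact hl (Finset.mem_erase.2 ⟨h, Finset.mem_univ l⟩)
        exact Or.inl (Function.update_self _ _ _))
    rwa [← hwi, Function.update_eq_self] at this
  · -- larger factors
    have two_steps : ∀ (i : ι) (w : ι → Fin m → F), bf J (X i) (w i) = 0 → (∀ s : F, w i ≠ s • X i) → Rt w := by
      intro i w hwi hwi'
      by_cases hw0 : ∃ l, w l = 0
      · obtain ⟨l, hl⟩ := hw0
        exact rt_zero w l hl
      push Not at hw0
      obtain ⟨l, hli⟩ : ∃ l, l ≠ i := Fintype.exists_ne_of_one_lt_card (by omega) i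
      obtain ⟨b, hXb, hbX, hb⟩ := hJ.sep₁ hwi'
      have hb0 : ∀ s : F, b ≠ s • X i := fun s hs => by
        rw [hs, H99.TensorS.bf_smul_left, hwi, mul_zero] at hb; exact zero_ne_one hb
      obtain ⟨y, hXy, hyX, hy⟩ := hJ.sep₁ hb0
      have hy0 : ∀ s : F, y ≠ s • X i := fun s hs => by
        rw [hs, H99.TensorS.bf_smul_left, hXb, mul_zero] at hy; exact zero_ne_one hy
      have hby : bf J b y ≠ 0 := fun h => by rw [hJ.zero_comm.1 h] at hy; exact zero_ne_one hy
      obtain ⟨c, hXc, hc, hwc, hc'⟩ : ∃ c, bf J (X l) c = 0 ∧ (∀ s : F, c ≠ s • X l) ∧ bf J (w l) c = 0 ∧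
          (∀ s : F, w l ≠ s • c) := by
        by_cases hq : ∃ s : F, w l = s • X l
        · obtain ⟨s, hs⟩ := hq
          obtain ⟨c, hXc, hc⟩ := hJ.exists_indep (by rw [Fintype.card_fin]; omega) (X l)
          refine ⟨c, hXc, hc, by rw [hs, H99.TensorS.bf_smul_left, hXc, mul_zero], fun r hr => ?_⟩
          rcases eq_or_ne r 0 with rfl | hr0
          · exact hw0 l (by rw [hr, zero_smul])
          · exact hc (r⁻¹ * s) (by rw [← smul_smul, ← hs, hr, smul_smul, inv_mul_cancel₀ hr0, one_smul])
        push Not at hq
        by_cases hXw : bf J (X l) (w l) = 0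
        · refine ⟨X l + w l, ?_, fun s hs => hq (s - 1) ?_, ?_, fun s hs => ?_⟩
          · rw [H99.TensorS.bf_add_right, hJ.self, hXw, add_zero]
          · rw [sub_smul, one_smul, ← hs]; abel
          · rw [H99.TensorS.bf_add_right, hJ.self, hJ.zero_comm.1 hXw, add_zero]
          · rcases eq_or_ne s 1 with rfl | hs1
            · exact hX l (by simpa using hs)
            · refine hq ((1 - s)⁻¹ * s) ?_
              have e : (1 - s) • w l = s • X l := by
                rw [sub_smul, one_smul]; nth_rw 1 [hs]; module
              rw [← smul_smul, ← e, smul_smul, inv_mul_cancel₀ (sub_ne_zero.2 hs1.symm), one_smul]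
        · obtain ⟨c, hc0, hcp⟩ := H99.TensorS.exists_perp (J := J) ![X l, w l] (by simp; omega)
          have c1 : bf J (X l) c = 0 := hcp 0
          have c2 : bf J (w l) c = 0 := hcp 1
          refine ⟨c, c1, fun s hs => ?_, c2, fun s hs => hXw ?_⟩
          · rw [hs, H99.TensorS.bf_smul_right] at c2
            rcases mul_eq_zero.1 c2 with h | h
            · exact hc0 (by rw [hs, h, zero_smul])
            · exact hXw (hJ.zero_comm.1 h)
          · rw [hs, H99.TensorS.bf_smul_right, c1, mul_zero]
      obtain ⟨p₁, hcp₁, hp₁c, hp₁⟩ := hJ.sep₁ (z := c) (a := X l) (fun s hs => by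
        rcases eq_or_ne s 0 with rfl | hs0
        · exact hX l (by rw [hs, zero_smul])
        · exact hc s⁻¹ (by rw [hs, smul_smul, inv_mul_cancel₀ hs0, one_smul]))
      choose p hpX hpw using fun r => hJ.exists_common₂ (hX r) (hw0 r)
      set p' := Function.update (Function.update p i b) l p₁ with hp'
      have q1 := H.root_step Qc hf hpol hpure (X := X) (a := Function.update X i y) (p := p') (l := l) (ql := c)
        (hu := ?_) (ha := base i y hy0 (fun _ => hXy) (fun h => by omega))
        ⟨i, by simp [hp', hli.symm, hbX]⟩ ⟨i, by simp [hp', hli.symm, hbX]⟩ (fun r => ?_)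
        (by rw [Function.update_of_ne hli]; exact hJ.zero_comm.1 hXc)
      rotate_left
      · have hcl : p' l = p₁ := by simp [hp']
        refine H.root_base Qc hf hpol hpure top p' (fun r => ?_) l c ?_ (fun _ => ?_) (fun h => by omega) ht
        · rw [hp']
          by_cases hrl : r = l
          · subst hrl; rw [Function.update_self]; intro h0
            rw [h0, H99.TensorS.bf_zero_left] at hp₁; exact zero_ne_one hp₁
          rw [Function.update_of_ne hrl]
          by_cases hri : r = i
          · subst hri; rw [Function.update_self]; intro h0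
            rw [h0, H99.TensorS.bf_zero_left] at hby; exact hby rfl
          rw [Function.update_of_ne hri]; intro h0
          exact hpX r (by rw [h0, H99.TensorS.bf_zero_left])
        · rw [hcl]; intro s hs
          rcases eq_or_ne s 0 with rfl | hs0
          · exact hc 0 (by rw [hs, zero_smul, zero_smul])
          · have := hJ.zero_comm.1 hXc
            rw [hs, H99.TensorS.bf_smul_left, hp₁, mul_one] at this
            exact hs0 this
        · rw [hcl]; exact hp₁c
      · by_cases hrl : r = l
        · subst hrl
          simp [hp', hli, hp₁]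
        by_cases hri : r = i
        · subst hri
          simp [hp', hrl, hby]
        · simp [hp', hrl, hri, hpX r]
      obtain ⟨p₂, hwp₂, hp₂w, hp₂⟩ := hJ.sep₁ (z := w l) (a := c) (fun s hs => by
        rcases eq_or_ne s 0 with rfl | hs0
        · exact hc 0 (by rw [hs, zero_smul, zero_smul])
        · exact hc' s⁻¹ (by rw [hs, smul_smul, inv_mul_cancel₀ hs0, one_smul]))
      set p'' := Function.update w l p₂ with hp''
      have q2 := H.root_step Qc hf hpol hpure (X := X) (a := Function.update p' l c) (p := p'') (l := l)
        (ql := w l) (hu := ?_) (ha := q1)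
        ⟨i, by simp [hp'', hli.symm, hJ.zero_comm.1 hwi]⟩ ⟨i, by simp [hp'', hli.symm, hJ.zero_comm.1 hwi]⟩
        (fun r => ?_) (by rw [Function.update_self]; exact hwc)
      · have e : Function.update p'' l (w l) = w := by rw [hp'', Function.update_idem, Function.update_eq_self]
        rwa [e] at q2
      · have hcl : p'' l = p₂ := by simp [hp'']
        refine H.root_base Qc hf hpol hpure top p'' (fun r => ?_) l (w l) ?_ (fun _ => ?_) (fun h => by omega) ht
        · rw [hp'']
          by_cases hrl : r = l
          · subst hrl; rw [Function.update_self]; intro h0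
            rw [h0, H99.TensorS.bf_zero_left] at hp₂; exact zero_ne_one hp₂
          rw [Function.update_of_ne hrl]; exact hw0 r
        · rw [hcl]; intro s hs
          rw [hs, H99.TensorS.bf_smul_left, hp₂, mul_one] at hwc
          exact hw0 l (by rw [hs, hwc, zero_smul])
        · rw [hcl]; exact hp₂w
      · by_cases hrl : r = l
        · subst hrl
          simp [hp'', hp₂]
        by_cases hri : r = i
        · subst hri
          simp only [hp'', hp', Function.update_of_ne hrl, Function.update_self]
          intro h0
          rw [hJ.zero_comm.1 h0] at hb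
          exact zero_ne_one hb
        · simp only [hp'', hp', Function.update_of_ne hrl, Function.update_of_ne hri]
          exact fun h0 => hpw r (hJ.zero_comm.1 h0)
    intro i w hwi
    by_cases hw : ∀ s : F, w i ≠ s • X i
    · exact two_steps i w hwi hw
    push Not at hw
    obtain ⟨s, hs⟩ := hw
    obtain ⟨y, hXy, hy⟩ := hJ.exists_indep (by rw [Fintype.card_fin]; omega) (X i)
    have h1 := two_steps i (Function.update w i (w i + y)) (by
      rw [Function.update_self, H99.TensorS.bf_add_right, hwi, hXy, add_zero]) (fun r hr => by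
      rw [Function.update_self, hs] at hr
      exact hy (r - s) (by rw [sub_smul, ← hr]; abel))
    have h2 := rt_smul w i _ (-1) (two_steps i (Function.update w i y) (by rw [Function.update_self, hXy])
      (by rw [Function.update_self]; exact hy))
    have := rt_add w i _ _ h1 h2
    rwa [show w i + y + (-1 : F) • y = w i by module, Function.update_eq_self] at this

/-- The whole commutator group. -/
theorem SW0.commutator_le (ht : 2 ≤ Fintype.card ι) (ht2 : m ≤ 2 → Even (Fintype.card ι) ∧ 4 ≤ Fintype.card ι)
    (hm : 0 < m) (hn : 5 ≤ Fintype.card (ι → Fin m)) :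
    ∀ g ∈ commutator (orth Qc), toGLHom Qc hf g ∈ M := by
  classical
  have hJ := H.sJ
  set e : Fin m → F := Pi.single ⟨0, hm⟩ 1 with he
  have he0 : e ≠ 0 := by simp [he, Pi.single_eq_zero_iff]
  obtain ⟨e', he'⟩ := hJ.exists_one he0
  have he'0 : e' ≠ 0 := fun h => by rw [h, H99.TensorS.bf_zero_right] at he'; exact zero_ne_one he'
  haveI : Finite ((ι → Fin m) → F) := Pi.finite
  exact fun g hg => commutator_le_of_fullRoot hQ (by rw [Module.finrank_fintype_fun_eq_card]; exact hn)
    (H.full_root Qc hf hpol hpure top ht ht2 (fun _ => e) fun _ => he0)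
    (H.full_root Qc hf hpol hpure top ht ht2 (fun _ => e') fun _ => he'0)
    (by rw [hpol, bf_pv', Finset.prod_eq_one fun i _ => he']; exact one_ne_zero) hg

end Orth

end Cfsg.Agent.H5.C7
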