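import Cfsg.Agent.H5.C7.MonoGrow

/-!
Growth of the support: a non-scalar middle gives a monomial element of full or almost full support.
-/

set_option autoImplicit false
set_option linter.unusedSectionVars false

namespace Cfsg.Agent.H5.C7

open Matrix
open Cfsg.Agent.H99.TensorS (SympMat bf rk adj wedge)

variable {F : Type*} [Field F] {ι : Type} [Fintype ι] [DecidableEq ι] {m : ℕ}

local notation "MM" => Matrix (ι → Fin m) (ι → Fin m) F
local notation "mm" => Matrix (Fin m) (Fin m) F

variable {J : Matrix (Fin m) (Fin m) F} {M : Subgroup (GL (ι → Fin m) F)} (H : SW J M)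
include H

/-- One place of a support of transvection parts moves. -/
theorem SW.n_swap {P : Finset ι} (h : Mono J M P ∅) {a x o : ι} (ha : a ∈ P) (hx : x ∈ P) (hxa : x ≠ a)
    (ho : o ∉ P) : Mono J M (insert o (P.erase a)) ∅ := by
  have hxo : x ≠ o := fun e => ho (e ▸ hx)
  have hoa : o ≠ a := fun e => ho (e ▸ ha)
  have h' := H.mono_cycle h hxo hoa hxa
  rw [Finset.image_empty] at h'
  convert h' using 1
  ext w
  simp only [Finset.mem_insert, Finset.mem_erase, Finset.mem_image, Equiv.Perm.mul_apply, Equiv.swap_apply_def]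
  constructor
  · rintro (rfl | ⟨hw, hwP⟩)
    · exact ⟨x, hx, by simp [hxo, hxa, hxo.symm, hxa.symm, hoa, hoa.symm]⟩
    · by_cases hwx : w = x
      · exact ⟨a, ha, by subst hwx; simp [hxo, hxa, hxo.symm, hxa.symm, hoa, hoa.symm]⟩
      · have hwo : w ≠ o := fun e => ho (e ▸ hwP)
        exact ⟨w, hwP, by simp [hw, hwx, hwo]⟩
  · rintro ⟨p, hp, rfl⟩
    have hpo : p ≠ o := fun e => ho (e ▸ hp)
    by_cases hpa : p = a
    · subst hpa
      simp [hxo, hxa, hxo.symm, hxa.symm, hoa, hoa.symm, hx]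
    by_cases hpx : p = x
    · subst hpx
      simp [hxo, hxa, hxo.symm, hxa.symm, hoa, hoa.symm]
    · simp [hpa, hpx, hpo, hp]

/-- One place of a support with one rank two part moves. -/
theorem SW.t_swap (hm : 3 ≤ m) {P : Finset ι} {i : ι} (h : Mono J M P {i}) (hi : i ∉ P) (hodd : Odd P.card)
    {l o : ι} (hl : l ∈ P) (ho : o ∉ P) (hoi : o ≠ i) : Mono J M (insert o (P.erase l)) {i} := by
  have hli : l ≠ i := fun e => hi (e ▸ hl)
  have hlo : l ≠ o := fun e => ho (e ▸ hl)
  have h' := H.mono_cycle h hli hoi.symm hlo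
  have e1 : P.image (Equiv.swap l i * Equiv.swap i o) = insert i (P.erase l) := by
    ext w
    simp only [Finset.mem_insert, Finset.mem_erase, Finset.mem_image, Equiv.Perm.mul_apply, Equiv.swap_apply_def]
    constructor
    · rintro ⟨p, hp, rfl⟩
      have hpo : p ≠ o := fun e => ho (e ▸ hp)
      have hpi : p ≠ i := fun e => hi (e ▸ hp)
      by_cases hpl : p = l
      · subst hpl
        simp [hli, hlo, hli.symm, hlo.symm, hoi, hoi.symm]
      · simp [hpl, hpi, hpo, hp]
    · rintro (rfl | ⟨hw, hwP⟩)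
      · exact ⟨l, hl, by simp [hli, hlo, hli.symm, hlo.symm, hoi, hoi.symm]⟩
      · have hwo : w ≠ o := fun e => ho (e ▸ hwP)
        have hwi : w ≠ i := fun e => hi (e ▸ hwP)
        exact ⟨w, hwP, by simp [hw, hwi, hwo]⟩
  have e2 : ({i} : Finset ι).image (Equiv.swap l i * Equiv.swap i o) = {o} := by
    simp [Equiv.Perm.mul_apply, Equiv.swap_apply_def, hli, hlo, hli.symm, hlo.symm, hoi, hoi.symm]
  rw [e1, e2] at h'
  have hc : (insert i (P.erase l)).card = P.card := by
    rw [Finset.card_insert_of_notMem fun e => hi (Finset.mem_of_mem_erase e), Finset.card_erase_of_mem hl]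
    have := Finset.card_pos.2 ⟨l, hl⟩
    omega
  have := H.odd_step hm h' (by simp [hoi, ho]) (hc ▸ hodd) (by simp) (Finset.mem_insert_self i _)
  convert this using 1
  ext w
  simp only [Finset.mem_insert, Finset.mem_erase, Finset.mem_union, Finset.mem_singleton]
  constructor
  · rintro (rfl | ⟨hw, hwP⟩)
    · exact ⟨hoi, Or.inr rfl⟩
    · exact ⟨fun e => hi (e ▸ hwP), Or.inl (Or.inr ⟨hw, hwP⟩)⟩
  · rintro ⟨hwi, (rfl | hw) | rfl⟩
    · exact absurd rfl hwi
    · exact Or.inr hw
    · exact Or.inl rfl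

/-- Two supports differing at `l` and `o`. -/
theorem SW.t_step (hm : 3 ≤ m) {P : Finset ι} {i : ι} (h : Mono J M P {i}) (hi : i ∉ P) (hodd : Odd P.card)
    {o : ι} (ho : o ∉ P) (hoi : o ≠ i) : Mono J M (insert o (insert i P)) ∅ := by
  have hJ := H.sJ
  obtain ⟨l, hl⟩ := Finset.card_pos.1 hodd.pos
  have hli : l ≠ i := fun e => hi (e ▸ hl)
  have hlo : l ≠ o := fun e => ho (e ▸ hl)
  obtain ⟨e, e', w, hee, hw, hew, he'w⟩ := H.base_pair hm
  obtain ⟨ht, ht'⟩ := H.isT_of hee hw hew he'w
  have h2 := H.t_swap hm h hi hodd hl ho hoi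
  have hdP : Disjoint P ({i} : Finset ι) := Finset.disjoint_singleton_right.2 hi
  have hi' : i ∉ insert o (P.erase l) := by simp [hoi.symm, hi]
  have hdP' : Disjoint (insert o (P.erase l)) ({i} : Finset ι) := Finset.disjoint_singleton_right.2 hi'
  have mk : ∀ {P : Finset ι}, Mono J M P {i} → Disjoint P ({i} : Finset ι) → ∀ A B : mm, IsN J A → IsT J B →
      Mem M (1 + wm 1 (cfam P {i} A B)) := fun {P} h hd A B hA hB => by
    have := h 1 (cfam P {i} A B) (fun a ha => by rwa [cfam_left ha]) (fun a ha => by rwa [cfam_right hd ha])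
      (fun a ha ha' => cfam_out ha ha')
    rwa [one_smul] at this
  set R := P.erase l with hR
  have hdR : Disjoint R ({i} : Finset ι) := Finset.disjoint_singleton_right.2 (by simp [hR, hi])
  have hrev : Even R.card := by
    rw [hR, Finset.card_erase_of_mem hl]
    exact Nat.Odd.sub_odd hodd odd_one
  have he'e : bf J e' e = -1 := by rw [hJ.swap e e', hee]
  have t1 : wedge J e w * wedge J e' w = (-1 : F) • rk J w w := by
    simp [wedge, Matrix.mul_sub, Matrix.sub_mul, H99.TensorS.rk_mul, hJ.self, hee, hJ.zero_comm.1 he'w, hew]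
  have t2 : wedge J e' w * wedge J e w = (1 : F) • rk J w w := by
    simp [wedge, Matrix.mul_sub, Matrix.sub_mul, H99.TensorS.rk_mul, hJ.self, he'e, hJ.zero_comm.1 hew, he'w]
  have hz : ∀ x : Fin m → F, bf J x w = 0 → rk J w w * wedge J x w = 0 := fun x hx => by
    simp [wedge, Matrix.mul_sub, H99.TensorS.rk_mul, hJ.self, hJ.zero_comm.1 hx]
  set U : ι → mm := cfam {l} {o} (rk J e e) (rk J e' e') with hU
  have hlo' : Disjoint ({l} : Finset ι) {o} := by simp [hlo]
  have f1 : (fun a => cfam P {i} (rk J e e) (wedge J e w) a * cfam (insert o R) {i} (rk J e' e') (wedge J e' w) a) =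
      fun a => U a * cfam R {i} ((1 : F) • rk J e e') ((-1 : F) • rk J w w) a := by
    funext a
    by_cases ha : a = i
    · subst ha
      simp [cfam, hU, hR, hi, hoi.symm, hli.symm, t1]
    by_cases ha' : a = l
    · subst ha'
      simp [cfam, hU, hR, hl, hlo, hli]
    by_cases ha'' : a = o
    · subst ha''
      simp [cfam, hU, hR, ho, hlo.symm, hoi]
    by_cases haP : a ∈ P
    · simp [cfam, hU, hR, haP, ha', ha'', H99.TensorS.rk_mul, hee]
    · simp [cfam, hU, hR, haP, ha, ha', ha'']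
  have f2 : (fun a => cfam (insert o R) {i} (rk J e' e') (wedge J e' w) a * cfam P {i} (rk J e e) (wedge J e w) a) =
      fun a => U a * cfam R {i} ((-1 : F) • rk J e' e) ((1 : F) • rk J w w) a := by
    funext a
    by_cases ha : a = i
    · subst ha
      simp [cfam, hU, hR, hi, hoi.symm, hli.symm, t2]
    by_cases ha' : a = l
    · subst ha'
      simp [cfam, hU, hR, hl, hlo, hli]
    by_cases ha'' : a = o
    · subst ha''
      simp [cfam, hU, hR, ho, hlo.symm, hoi]
    by_cases haP : a ∈ P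
    · simp [cfam, hU, hR, haP, ha', ha'', H99.TensorS.rk_mul, he'e]
    · simp [cfam, hU, hR, haP, ha, ha', ha'']
  have c1 := H.comm_wm (a := i) (b := i) (c := i) (d := i)
    (mk h hdP _ _ (isN_of hee) ht) (mk h2 hdP' _ _ (isN_of' hee) ht')
    (by rw [cfam_right hdP (Finset.mem_singleton_self i)]; exact ht.sq hJ)
    (by rw [cfam_right hdP' (Finset.mem_singleton_self i)]; exact ht'.sq hJ)
    (by rw [cfam_right hdP (Finset.mem_singleton_self i), cfam_right hdP' (Finset.mem_singleton_self i), t1,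
      Matrix.smul_mul, hz e hew, smul_zero])
    (by rw [cfam_right hdP (Finset.mem_singleton_self i), cfam_right hdP' (Finset.mem_singleton_self i), t2,
      Matrix.smul_mul, hz e' he'w, smul_zero])
  rw [f1, f2, ← wm1_mul U, ← wm1_mul U, wm_cfam_smul R {i} hdR, wm_cfam_smul R {i} hdR, Finset.card_singleton]
    at c1
  simp only [one_pow, one_mul, pow_one, hrev.neg_one_pow, mul_one] at c1
  rw [mul_smul_comm, mul_smul_comm, wm1_mul, wm1_mul, sub_eq_add_neg, ← neg_smul] at c1
  set K : mm → ι → mm := fun A a => U a * cfam R {i} A (rk J w w) a with hK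
  change Mem M (1 + ((-1 : F) • wm 1 (K (rk J e e')) + (-1 : F) • wm 1 (K (rk J e' e)))) at c1
  have hUR : ∀ a ∈ R, U a = 1 := fun a ha => cfam_out (by simp [(Finset.mem_erase.1 ha).1])
    (by simp only [Finset.mem_singleton]; exact fun e => ho (e ▸ Finset.mem_of_mem_erase ha))
  have hKi : ∀ A, K A i = (1 : F) • rk J w w := fun A => by
    simp [hK, hU, cfam, hR, hi, hli.symm, hoi.symm]
  obtain ⟨c, hc, c2⟩ := H.contract (j := i) (A := rk J w w) (IsN.sq hJ ⟨w, hw, rfl⟩) (hKi _) (hKi _) c1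
    (v := e + e') R (by simp [hR, hi]) fun a ha => by
      simp only [hK, hUR a ha, Matrix.one_mul, cfam_left ha]
      exact H.contr_pair hee
  have key : ∀ A : mm, R.piecewise (fun _ => rk J (e + e') (e + e')) (K A) = K (rk J (e + e') (e + e')) :=
    fun A => by
    funext a
    by_cases ha : a ∈ R
    · rw [Finset.piecewise_eq_of_mem _ _ _ ha]
      simp [hK, hUR a ha, cfam_left ha]
    · rw [Finset.piecewise_eq_of_notMem _ _ _ ha]
      simp [hK, cfam, ha]
  rw [key, key, ← add_smul, smul_smul] at c2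
  refine H.mono_of (mul_ne_zero hc (by rw [← neg_add, one_add_one_eq_two]; exact neg_ne_zero.2 H.two))
    (fun a ha => ?_) (fun a ha => absurd ha (Finset.notMem_empty a)) (fun a ha _ => ?_)
    (Finset.disjoint_empty_right _) ⟨i, by simp⟩ c2
  · rw [Finset.mem_insert, Finset.mem_insert] at ha
    rcases ha with rfl | rfl | ha
    · simp only [hK, hU, hR]
      simp [cfam, ho, hlo.symm, hoi]
      exact isN_of' hee
    · simp only [hK, hU, hR]
      simp [cfam, hi, hli.symm, hoi.symm]
      exact ⟨w, hw, rfl⟩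
    · by_cases hal : a = l
      · subst hal
        simp only [hK, hU, hR]
        simp [cfam, hli]
        exact isN_of hee
      · have haR : a ∈ R := Finset.mem_erase.2 ⟨hal, ha⟩
        simp only [hK, hUR a haR, Matrix.one_mul, cfam_left haR]
        exact H.isN_sum hee
  · simp only [Finset.mem_insert, not_or] at ha
    obtain ⟨hao, hai, haP⟩ := ha
    have hal : a ≠ l := fun e => haP (e ▸ hl)
    simp [hK, hU, hR, cfam, hao, hai, haP, hal]

/-- Two further places. -/
theorem SW.n_step (hm : 0 < m) {P : Finset ι} (h : Mono J M P ∅) (hodd : Odd P.card) (h3 : 3 ≤ P.card)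
    {o₁ o₂ : ι} (h1 : o₁ ∉ P) (h2 : o₂ ∉ P) (h12 : o₁ ≠ o₂) : Mono J M (insert o₁ (insert o₂ P)) ∅ := by
  have hJ := H.sJ
  obtain ⟨l₁, hl₁⟩ := Finset.card_pos.1 hodd.pos
  obtain ⟨l₂, hl₂'⟩ := Finset.card_pos.1 (show 0 < (P.erase l₁).card by
    rw [Finset.card_erase_of_mem hl₁]; omega)
  obtain ⟨hl21, hl₂⟩ := Finset.mem_erase.1 hl₂'
  obtain ⟨x, hx'⟩ := Finset.card_pos.1 (show 0 < ((P.erase l₁).erase l₂).card by
    rw [Finset.card_erase_of_mem hl₂', Finset.card_erase_of_mem hl₁]; omega)
  obtain ⟨hxl₂, hx''⟩ := Finset.mem_erase.1 hx'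
  obtain ⟨hxl₁, hxP⟩ := Finset.mem_erase.1 hx''
  have g1 : l₁ ≠ o₁ := fun e => h1 (e ▸ hl₁)
  have g2 : l₁ ≠ o₂ := fun e => h2 (e ▸ hl₁)
  have g3 : l₂ ≠ o₁ := fun e => h1 (e ▸ hl₂)
  have g4 : l₂ ≠ o₂ := fun e => h2 (e ▸ hl₂)
  have hA := H.n_swap h hl₁ hxP hxl₁ h1
  have hB := H.n_swap hA (a := l₂) (x := x) (o := o₂) (by simp [hl21, hl₂]) (by simp [hxl₁, hxP]) hxl₂
    (by simp [h12.symm, h2])
  set R := (P.erase l₁).erase l₂ with hR
  set P' := insert o₂ ((insert o₁ (P.erase l₁)).erase l₂) with hP'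
  obtain ⟨e, e', hee⟩ := H.base_two hm
  have he'e : bf J e' e = -1 := by rw [hJ.swap e e', hee]
  have mk : ∀ {P : Finset ι}, Mono J M P ∅ → ∀ A : mm, IsN J A → Mem M (1 + wm 1 (cfam P ∅ A 1)) :=
    fun {P} h A hA => by
    have := h 1 (cfam P ∅ A 1) (fun a ha => by rwa [cfam_left ha]) (fun a ha => absurd ha (Finset.notMem_empty a))
      (fun a ha ha' => cfam_out ha ha')
    rwa [one_smul] at this
  have hrodd : Odd R.card := by
    rw [hR, Finset.card_erase_of_mem hl₂', Finset.card_erase_of_mem hl₁]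
    obtain ⟨k, hk⟩ := hodd
    exact ⟨k - 1, by omega⟩
  set U : ι → mm := cfam {l₁, l₂} {o₁, o₂} (rk J e e) (rk J e' e') with hU
  have f1 : (fun a => cfam P ∅ (rk J e e) 1 a * cfam P' ∅ (rk J e' e') 1 a) =
      fun a => U a * cfam R ∅ ((1 : F) • rk J e e') ((1 : F) • (1 : mm)) a := by
    funext a
    by_cases ha : a = l₁
    · subst ha
      simp [cfam, hU, hR, hP', hl₁, g1, g2, hl21.symm]
    by_cases ha' : a = l₂
    · subst ha'
      simp [cfam, hU, hR, hP', hl₂, g3, g4, hl21]
    by_cases ha'' : a = o₁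
    · subst ha''
      simp [cfam, hU, hR, hP', h1, g1.symm, g3.symm, h12]
    by_cases ha3 : a = o₂
    · subst ha3
      simp [cfam, hU, hR, hP', h2, g2.symm, g4.symm, h12.symm]
    by_cases haP : a ∈ P
    · simp [cfam, hU, hR, hP', haP, ha, ha', ha'', ha3, H99.TensorS.rk_mul, hee]
    · simp [cfam, hU, hR, hP', haP, ha, ha', ha'', ha3]
  have f2 : (fun a => cfam P' ∅ (rk J e' e') 1 a * cfam P ∅ (rk J e e) 1 a) =
      fun a => U a * cfam R ∅ ((-1 : F) • rk J e' e) ((1 : F) • (1 : mm)) a := by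
    funext a
    by_cases ha : a = l₁
    · subst ha
      simp [cfam, hU, hR, hP', hl₁, g1, g2, hl21.symm]
    by_cases ha' : a = l₂
    · subst ha'
      simp [cfam, hU, hR, hP', hl₂, g3, g4, hl21]
    by_cases ha'' : a = o₁
    · subst ha''
      simp [cfam, hU, hR, hP', h1, g1.symm, g3.symm, h12]
    by_cases ha3 : a = o₂
    · subst ha3
      simp [cfam, hU, hR, hP', h2, g2.symm, g4.symm, h12.symm]
    by_cases haP : a ∈ P
    · simp [cfam, hU, hR, hP', haP, ha, ha', ha'', ha3, H99.TensorS.rk_mul, he'e]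
    · simp [cfam, hU, hR, hP', haP, ha, ha', ha'', ha3]
  have hNN : rk J e e * rk J e e = 0 := by rw [H99.TensorS.rk_mul, hJ.self, zero_smul]
  have hNN' : rk J e' e' * rk J e' e' = 0 := by rw [H99.TensorS.rk_mul, hJ.self, zero_smul]
  have k1 : cfam P ∅ (rk J e e) 1 l₁ = rk J e e := cfam_left hl₁
  have k2 : cfam P' ∅ (rk J e' e') 1 l₁ = (1 : mm) :=
    cfam_out (by simp [hP', g2, hl21.symm, g1]) (Finset.notMem_empty _)
  have k3 : cfam P' ∅ (rk J e' e') 1 o₂ = rk J e' e' := cfam_left (by simp [hP'])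
  have k4 : cfam P ∅ (rk J e e) 1 o₂ = (1 : mm) := cfam_out h2 (Finset.notMem_empty _)
  have c1 := H.comm_wm (a := l₁) (b := o₂) (c := l₁) (d := o₂) (mk h _ (isN_of hee)) (mk hB _ (isN_of' hee))
    (by rw [k1]; exact hNN) (by rw [k3]; exact hNN') (by rw [k1, k2, Matrix.mul_one]; exact hNN)
    (by rw [k3, k4, Matrix.mul_one]; exact hNN')
  rw [f1, f2, ← wm1_mul U, ← wm1_mul U, wm_cfam_smul R ∅ (Finset.disjoint_empty_right _),
    wm_cfam_smul R ∅ (Finset.disjoint_empty_right _), one_pow, one_pow, one_mul, hrodd.neg_one_pow,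
    mul_one, mul_smul_comm, mul_smul_comm, wm1_mul, wm1_mul, sub_eq_add_neg, ← neg_smul, neg_neg] at c1
  set K : mm → ι → mm := fun A a => U a * cfam R ∅ A 1 a with hK
  change Mem M (1 + ((1 : F) • wm 1 (K (rk J e e')) + (1 : F) • wm 1 (K (rk J e' e)))) at c1
  have hUR : ∀ a ∈ R, U a = 1 := fun a ha => by
    obtain ⟨hal2, ha'⟩ := Finset.mem_erase.1 ha
    obtain ⟨hal1, haP⟩ := Finset.mem_erase.1 ha'
    exact cfam_out (by simp [hal1, hal2]) (by
      simp only [Finset.mem_insert, Finset.mem_singleton, not_or]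
      exact ⟨fun e => h1 (e ▸ haP), fun e => h2 (e ▸ haP)⟩)
  have hKl : ∀ A, K A l₁ = (1 : F) • rk J e e := fun A => by simp [hK, hU, cfam, hR]
  obtain ⟨c, hc, c2⟩ := H.contract (j := l₁) (A := rk J e e) hNN (hKl _) (hKl _) c1
    (v := e + e') R (by simp [hR]) fun a ha => by
      simp only [hK, hUR a ha, Matrix.one_mul, cfam_left ha]
      exact H.contr_pair hee
  have key : ∀ A : mm, R.piecewise (fun _ => rk J (e + e') (e + e')) (K A) = K (rk J (e + e') (e + e')) :=
    fun A => by
    funext a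
    by_cases ha : a ∈ R
    · rw [Finset.piecewise_eq_of_mem _ _ _ ha]
      simp [hK, hUR a ha, cfam_left ha]
    · rw [Finset.piecewise_eq_of_notMem _ _ _ ha]
      simp [hK, cfam, ha]
  rw [key, key, ← add_smul, smul_smul] at c2
  refine H.mono_of (mul_ne_zero hc (by rw [one_add_one_eq_two]; exact H.two))
    (fun a ha => ?_) (fun a ha => absurd ha (Finset.notMem_empty a)) (fun a ha _ => ?_)
    (Finset.disjoint_empty_right _) ⟨o₁, by simp⟩ c2
  · simp only [Finset.mem_insert] at ha
    by_cases hR' : a ∈ R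
    · simp only [hK, hUR a hR', Matrix.one_mul, cfam_left hR']
      exact H.isN_sum hee
    have hKa : K (rk J (e + e') (e + e')) a = U a := by simp [hK, cfam, hR']
    rw [hKa, hU]
    rcases ha with rfl | rfl | ha
    · simp [cfam, g1.symm, g3.symm]
      exact isN_of' hee
    · simp [cfam, g2.symm, g4.symm]
      exact isN_of' hee
    · have : a = l₁ ∨ a = l₂ := by
        by_contra hc'
        rw [not_or] at hc'
        exact hR' (by simp [hR, hc'.1, hc'.2, ha])
      simp [cfam, this]
      exact isN_of hee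
  · simp only [Finset.mem_insert, not_or] at ha
    obtain ⟨ha1, ha2, haP⟩ := ha
    have hal1 : a ≠ l₁ := fun e => haP (e ▸ hl₁)
    have hal2 : a ≠ l₂ := fun e => haP (e ▸ hl₂)
    simp [hK, hU, hR, cfam, ha1, ha2, haP, hal1, hal2]

/-- From all factors but one to a rank two part. -/
theorem SW.top_t (hm : 3 ≤ m) {o : ι} (h : Mono J M (Finset.univ.erase o) ∅)
    (hodd : Odd (Finset.univ.erase o).card) (h3 : 3 ≤ (Finset.univ.erase o).card) :
    ∃ i, Mono J M (Finset.univ.erase i) {i} := by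
  have hJ := H.sJ
  set P := Finset.univ.erase o with hP
  obtain ⟨l, hl⟩ := Finset.card_pos.1 hodd.pos
  obtain ⟨i, hi'⟩ := Finset.card_pos.1 (show 0 < (P.erase l).card by rw [Finset.card_erase_of_mem hl]; omega)
  obtain ⟨hil, hiP⟩ := Finset.mem_erase.1 hi'
  have hlo : l ≠ o := (Finset.mem_erase.1 hl).1
  have hio : i ≠ o := (Finset.mem_erase.1 hiP).1
  have ho : o ∉ P := Finset.notMem_erase o _
  have h2 := H.n_swap h hl hiP hil ho
  set P' := insert o (P.erase l) with hP'
  obtain ⟨e, e', w, hee, hw, hew, he'w⟩ := H.base_pair hm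
  have he'e : bf J e' e = -1 := by rw [hJ.swap e e', hee]
  have mk : ∀ {P : Finset ι}, Mono J M P ∅ → ∀ A : mm, IsN J A → Mem M (1 + wm 1 (cfam P ∅ A 1)) :=
    fun {P} h A hA => by
    have := h 1 (cfam P ∅ A 1) (fun a ha => by rwa [cfam_left ha]) (fun a ha => absurd ha (Finset.notMem_empty a))
      (fun a ha ha' => cfam_out ha ha')
    rwa [one_smul] at this
  set R := P.erase l with hR
  have hrev : Even R.card := by
    rw [hR, Finset.card_erase_of_mem hl]
    exact Nat.Odd.sub_odd hodd odd_one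
  set U : ι → mm := cfam {l} {o} (rk J e e) (rk J e' e') with hU
  have f1 : (fun a => cfam P ∅ (rk J e e) 1 a * cfam P' ∅ (rk J e' e') 1 a) =
      fun a => U a * cfam R ∅ ((1 : F) • rk J e e') ((1 : F) • (1 : mm)) a := by
    funext a
    by_cases ha' : a = l
    · subst ha'
      simp [cfam, hU, hR, hP', hl, hlo]
    by_cases ha'' : a = o
    · subst ha''
      simp [cfam, hU, hR, hP', ho, hlo.symm]
    · simp [cfam, hU, hR, hP', hP, ha', ha'', H99.TensorS.rk_mul, hee]
  have f2 : (fun a => cfam P' ∅ (rk J e' e') 1 a * cfam P ∅ (rk J e e) 1 a) =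
      fun a => U a * cfam R ∅ ((-1 : F) • rk J e' e) ((1 : F) • (1 : mm)) a := by
    funext a
    by_cases ha' : a = l
    · subst ha'
      simp [cfam, hU, hR, hP', hl, hlo]
    by_cases ha'' : a = o
    · subst ha''
      simp [cfam, hU, hR, hP', ho, hlo.symm]
    · simp [cfam, hU, hR, hP', hP, ha', ha'', H99.TensorS.rk_mul, he'e]
  have hNN : rk J e e * rk J e e = 0 := by rw [H99.TensorS.rk_mul, hJ.self, zero_smul]
  have hNN' : rk J e' e' * rk J e' e' = 0 := by rw [H99.TensorS.rk_mul, hJ.self, zero_smul]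
  have k1 : cfam P ∅ (rk J e e) 1 l = rk J e e := cfam_left hl
  have k2 : cfam P' ∅ (rk J e' e') 1 l = (1 : mm) :=
    cfam_out (by simp [hP', hlo, hR]) (Finset.notMem_empty _)
  have k3 : cfam P' ∅ (rk J e' e') 1 o = rk J e' e' := cfam_left (by simp [hP'])
  have k4 : cfam P ∅ (rk J e e) 1 o = (1 : mm) := cfam_out ho (Finset.notMem_empty _)
  have c1 := H.comm_wm (a := l) (b := o) (c := l) (d := o) (mk h _ (isN_of hee)) (mk h2 _ (isN_of' hee))
    (by rw [k1]; exact hNN) (by rw [k3]; exact hNN') (by rw [k1, k2, Matrix.mul_one]; exact hNN)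
    (by rw [k3, k4, Matrix.mul_one]; exact hNN')
  rw [f1, f2, ← wm1_mul U, ← wm1_mul U, wm_cfam_smul R ∅ (Finset.disjoint_empty_right _),
    wm_cfam_smul R ∅ (Finset.disjoint_empty_right _), one_pow, one_pow, one_mul, hrev.neg_one_pow,
    mul_one, mul_smul_comm, mul_smul_comm, wm1_mul, wm1_mul, sub_eq_add_neg, ← neg_smul] at c1
  set K : mm → ι → mm := fun A a => U a * cfam R ∅ A 1 a with hK
  change Mem M (1 + ((1 : F) • wm 1 (K (rk J e e')) + (-1 : F) • wm 1 (K (rk J e' e)))) at c1
  have hUR : ∀ a ∈ R, U a = 1 := fun a ha => by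
    obtain ⟨hal, haP⟩ := Finset.mem_erase.1 ha
    exact cfam_out (by simp [hal]) (by
      simp only [Finset.mem_singleton]
      exact fun e => ho (e ▸ haP))
  have hKl : ∀ A, K A l = (1 : F) • rk J e e := fun A => by simp [hK, hU, cfam, hR]
  obtain ⟨c, hc, c2⟩ := H.contract (j := l) (A := rk J e e) hNN (hKl _) (hKl _) c1
    (v := e + e') (R.erase i) (by simp [hR]) fun a ha => by
      simp only [hK, hUR a (Finset.mem_of_mem_erase ha), Matrix.one_mul, cfam_left (Finset.mem_of_mem_erase ha)]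
      exact H.contr_pair hee
  set k₃ := K (rk J (e + e') (e + e')) with hk₃
  have key : ∀ A : mm, (R.erase i).piecewise (fun _ => rk J (e + e') (e + e')) (K A) =
      Function.update k₃ i A := fun A => by
    funext a
    by_cases hai : a = i
    · subst hai
      rw [Finset.piecewise_eq_of_notMem _ _ _ (Finset.notMem_erase a R), Function.update_self]
      simp [hK, hUR a hi', cfam_left hi']
    rw [Function.update_of_ne hai]
    by_cases ha : a ∈ R
    · rw [Finset.piecewise_eq_of_mem _ _ _ (Finset.mem_erase.2 ⟨hai, ha⟩)]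
      simp [hk₃, hK, hUR a ha, cfam_left ha]
    · rw [Finset.piecewise_eq_of_notMem _ _ _ fun e => ha (Finset.mem_of_mem_erase e)]
      simp [hk₃, hK, cfam, ha]
  have e1 : (1 : F) • (wm 1 (Function.update k₃ i (rk J e e')) : MM) +
      (-1 : F) • wm 1 (Function.update k₃ i (rk J e' e)) = (1 : F) • wm 1 (Function.update k₃ i (wedge J e e')) := by
    rw [wedge, wm1_update_sub, smul_sub, neg_one_smul, one_smul, one_smul, ← sub_eq_add_neg]
  rw [key, key, e1, smul_smul, mul_one] at c2
  obtain ⟨c', B, hc', hB, hY⟩ := H.pair_part hil hNN (hKl _) hc hee hw hew he'w c2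
  refine ⟨i, H.mono_of hc' (fun a ha => ?_) (fun a ha => ?_) (fun a ha ha' => ?_) ?_
    ⟨i, Finset.mem_union_right _ (Finset.mem_singleton_self i)⟩ hY⟩
  · have hai := (Finset.mem_erase.1 ha).1
    rw [Function.update_of_ne hai]
    by_cases hR' : a ∈ R
    · simp only [hK, hUR a hR', Matrix.one_mul, cfam_left hR']
      exact H.isN_sum hee
    · simp only [hK, hU, cfam, Finset.mem_singleton, hR', if_false, Finset.notMem_empty, Matrix.mul_one]
      by_cases hal : a = l
      · rw [if_pos hal]; exact isN_of hee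
      · have hao : a = o := by
          by_contra hao
          exact hR' (Finset.mem_erase.2 ⟨hal, Finset.mem_erase.2 ⟨hao, Finset.mem_univ a⟩⟩)
        rw [if_neg hal, if_pos hao]; exact isN_of' hee
  · obtain rfl := Finset.mem_singleton.1 ha
    rwa [Function.update_self]
  · rw [Finset.mem_singleton] at ha'
    exact absurd (Finset.mem_erase.2 ⟨ha', Finset.mem_univ a⟩) ha
  · exact Finset.disjoint_singleton_right.2 (Finset.notMem_erase i _)

/-- Transvection parts grow to all factors or to all but one. -/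
theorem SW.n_top (hm : 0 < m) : ∀ (d : ℕ) (P : Finset ι), Pᶜ.card ≤ d → Mono J M P ∅ → Odd P.card → 3 ≤ P.card →
    Mono J M Finset.univ ∅ ∧ Odd (Fintype.card ι) ∨
      ∃ o, Mono J M (Finset.univ.erase o) ∅ ∧ Odd (Finset.univ.erase o).card ∧ 3 ≤ (Finset.univ.erase o).card := by
  intro d
  induction d using Nat.strong_induction_on with
  | _ d ih =>
    intro P hP h hodd h3
    have hc : Pᶜ.card = Fintype.card ι - P.card := Finset.card_compl P
    rcases Nat.lt_or_ge Pᶜ.card 2 with hlt | hge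
    · rcases Finset.eq_empty_or_nonempty Pᶜ with he | ⟨o, ho⟩
      · rw [Finset.compl_eq_empty_iff] at he
        subst he
        exact Or.inl ⟨h, by rwa [Finset.card_univ] at hodd⟩
      · have he : P = Finset.univ.erase o := by
          ext a
          rw [Finset.mem_erase]
          refine ⟨fun ha => ⟨fun e => Finset.mem_compl.1 ho (e ▸ ha), Finset.mem_univ a⟩, fun ha => ?_⟩
          by_contra haP
          exact ha.1 (Finset.card_le_one.1 (by omega) a (Finset.mem_compl.2 haP) o ho)
        subst he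
        exact Or.inr ⟨o, h, hodd, h3⟩
    · obtain ⟨o₁, ho₁, o₂, ho₂, h12⟩ := Finset.one_lt_card.1 hge
      rw [Finset.mem_compl] at ho₁ ho₂
      have h' := H.n_step hm h hodd h3 ho₁ ho₂ h12
      have hcard : (insert o₁ (insert o₂ P)).card = P.card + 2 := by
        rw [Finset.card_insert_of_notMem (by simp [h12, ho₁]), Finset.card_insert_of_notMem ho₂]
      refine ih (d - 2) (by omega) _ ?_ h' ?_ (by omega)
      · rw [Finset.card_compl, hcard]
        omega
      · rw [hcard]
        exact hodd.add_even even_two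

/-- Full support: transvection parts everywhere, or one rank two part, or for factors of dimension two all but
one. -/
theorem SW.mono_top (hm : 0 < m) {P Q : Finset ι} (h : Mono J M P Q) (hd : Disjoint P Q) (hodd : Odd P.card)
    (h2 : 2 ≤ (P ∪ Q).card) (hQ : Q.Nonempty → 3 ≤ m) :
    Mono J M Finset.univ ∅ ∧ Odd (Fintype.card ι) ∨
      Even (Fintype.card ι) ∧ (3 ≤ m → ∀ i, Mono J M (Finset.univ.erase i) {i}) ∧
        (m ≤ 2 → ∀ o, Mono J M (Finset.univ.erase o) ∅) := by
  classical
  have hcd : (P ∪ Q).card = P.card + Q.card := Finset.card_union_of_disjoint hd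
  -- transvection parts only
  have fromN : ∀ P : Finset ι, Mono J M P ∅ → Odd P.card → 3 ≤ P.card →
      Mono J M Finset.univ ∅ ∧ Odd (Fintype.card ι) ∨
      Even (Fintype.card ι) ∧ (3 ≤ m → ∀ i, Mono J M (Finset.univ.erase i) {i}) ∧
        (m ≤ 2 → ∀ o, Mono J M (Finset.univ.erase o) ∅) := by
    intro P h hodd h3
    rcases H.n_top hm Pᶜ.card P le_rfl h hodd h3 with h' | ⟨o, h', hodd', h3'⟩
    · exact Or.inl h'
    refine Or.inr ⟨?_, fun hm3 => ?_, fun _ a => ?_⟩
    · have := Finset.card_erase_of_mem (Finset.mem_univ o)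
      rw [this, Finset.card_univ] at hodd'
      obtain ⟨k, hk⟩ := hodd'
      exact ⟨k + 1, by omega⟩
    · obtain ⟨i₁, hT⟩ := H.top_t hm3 h' hodd' h3'
      intro i
      rcases eq_or_ne i i₁ with rfl | hi
      · exact hT
      have := H.odd_step hm3 hT (Finset.disjoint_singleton_right.2 (Finset.notMem_erase i₁ _))
        (by rwa [Finset.card_erase_of_mem (Finset.mem_univ i₁), ← Finset.card_erase_of_mem (Finset.mem_univ o)])
        (by simp) (i₀ := i) (by simp [hi])
      convert this using 1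
      ext a
      simp only [Finset.mem_erase, Finset.mem_union, Finset.mem_univ, and_true, Finset.mem_singleton]
      exact ⟨fun ha => ⟨ha, em' _⟩, fun ha => ha.1⟩
    · rcases eq_or_ne a o with rfl | ha
      · exact h'
      obtain ⟨x, hx⟩ := Finset.card_pos.1 (show 0 < ((Finset.univ.erase o).erase a).card by
        rw [Finset.card_erase_of_mem (by simp [ha] : a ∈ Finset.univ.erase o)]; omega)
      obtain ⟨hxa, hxo⟩ := Finset.mem_erase.1 hx
      have := H.n_swap h' (a := a) (x := x) (o := o) (by simp [ha]) hxo hxa (Finset.notMem_erase o _)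
      convert this using 1
      ext b
      simp only [Finset.mem_erase, Finset.mem_insert, Finset.mem_univ, and_true]
      exact ⟨fun hb => (em (b = o)).imp id fun h => ⟨hb, h⟩, fun hb => hb.elim (fun h => h ▸ ha.symm) fun h => h.1⟩
  rcases Nat.even_or_odd Q.card with hev | hod
  · rcases Finset.eq_empty_or_nonempty Q with rfl | hne
    · rw [Finset.union_empty] at h2
      exact fromN P h hodd (by obtain ⟨k, hk⟩ := hodd; omega)
    · have h' := H.even_step (hQ hne) h hd hne hodd hev
      have hodd' : Odd (P ∪ Q).card := hcd ▸ hodd.add_even hev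
      exact fromN _ h' hodd' (by obtain ⟨k, hk⟩ := hodd'; omega)
  -- one rank two part
  have hm3 := hQ (Finset.card_pos.1 hod.pos)
  obtain ⟨i₀, hi₀⟩ := Finset.card_pos.1 hodd.pos
  have h' := H.odd_step hm3 h hd hodd hod hi₀
  set P' := (P ∪ Q).erase i₀ with hP'
  have hi' : i₀ ∉ P' := Finset.notMem_erase i₀ _
  have hodd' : Odd P'.card := by
    rw [hP', Finset.card_erase_of_mem (Finset.mem_union_left _ hi₀), hcd]
    exact Nat.Even.sub_odd (by have := hodd.pos; omega) (hodd.add_odd hod) odd_one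
  by_cases hall : ∀ o, o ∈ P' ∨ o = i₀
  · have he : P' = Finset.univ.erase i₀ := by
      refine Finset.ext fun a => ⟨fun ha => Finset.mem_erase.2 ⟨fun e => hi' (e ▸ ha), Finset.mem_univ a⟩,
        fun ha => (hall a).resolve_right (Finset.mem_erase.1 ha).1⟩
    rw [he] at h' hodd' hi'
    refine Or.inr ⟨?_, fun _ i => ?_, fun hm2 => by omega⟩
    · rw [Finset.card_erase_of_mem (Finset.mem_univ i₀), Finset.card_univ] at hodd'
      obtain ⟨k, hk⟩ := hodd'
      exact ⟨k + 1, by omega⟩
    · rcases eq_or_ne i i₀ with rfl | hi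
      · exact h'
      have := H.odd_step hm3 h' (Finset.disjoint_singleton_right.2 hi') hodd' (by simp) (i₀ := i) (by simp [hi])
      convert this using 1
      ext a
      simp only [Finset.mem_erase, Finset.mem_union, Finset.mem_univ, and_true, Finset.mem_singleton]
      exact ⟨fun ha => ⟨ha, em' _⟩, fun ha => ha.1⟩
  · push Not at hall
    obtain ⟨o, ho, hoi⟩ := hall
    have h'' := H.t_step hm3 h' hi' hodd' ho hoi
    have hcard : (insert o (insert i₀ P')).card = P'.card + 2 := by
      rw [Finset.card_insert_of_notMem (by simp [hoi, ho]), Finset.card_insert_of_notMem hi']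
    refine fromN _ h'' (hcard ▸ hodd'.add_even even_two) ?_
    rw [hcard]
    have := hodd'.pos
    omega

/-- A non-scalar middle gives full support. -/
theorem SW.top_of_bad {j : ι} {A : mm} (hA : IsN J A ∨ IsT J A) {X₀ : MM} (hmem : Mem M (1 + X₀))
    {G : Matrix ({l : ι // l ≠ j} → Fin m) ({l : ι // l ≠ j} → Fin m) F} (hG : ∀ c : F, G ≠ c • 1)
    (e₀ : rI j X₀ = Matrix.kroneckerMap (· * ·) G A) :
    Mono J M Finset.univ ∅ ∧ Odd (Fintype.card ι) ∨
      Even (Fintype.card ι) ∧ (3 ≤ m → ∀ i, Mono J M (Finset.univ.erase i) {i}) ∧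
        (m ≤ 2 → ∀ o, Mono J M (Finset.univ.erase o) ∅) := by
  have hm : 0 < m := by
    by_contra hm
    obtain rfl : m = 0 := by omega
    rcases hA with h | h <;> exact h.ne H.sJ (Matrix.ext fun a => a.elim0)
  obtain ⟨P, Q, h, hd, hodd, h2, hQ⟩ := H.mono_of_bad hA hmem hG e₀
  exact H.mono_top hm h hd hodd h2 hQ

end Cfsg.Agent.H5.C7
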