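import Cfsg.Agent.H5.C7.MonoGrow
import Cfsg.Agent.H5.C7.Even.Roots

/-!
Characteristic two: one monomial element with an alternating part gives the monomial elements with all parts but
one of transvection type.
-/

set_option autoImplicit false
set_option linter.unusedSectionVars false

namespace Cfsg.Agent.H5.C7

open Matrix Cfsg.Agent.H99.Tensor
open Cfsg.Agent.H99.TensorS (SympMat bf adj wedge ct)
open scoped Kronecker

variable {F : Type*} [Field F] {m : ℕ} {J : Matrix (Fin m) (Fin m) F}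

local notation "mm" => Matrix (Fin m) (Fin m) F

section Parts

theorem wedge_eq (two : (2 : F) = 0) (x y : Fin m → F) :
    wedge J x y = H99.TensorS.rk J x y + H99.TensorS.rk J y x := by
  rw [wedge, sub_eq_add_neg, Even.neg_mat two]

theorem isN_adj (two : (2 : F) = 0) (hJ : SympMat J) {A : mm} (h : IsN J A) : adj J J A = A := by
  obtain ⟨v, -, rfl⟩ := h
  rw [H99.TensorS.adj_rk hJ, Even.neg_mat two]

theorem isT_adj (hJ : SympMat J) {A : mm} (h : IsT J A) : adj J J A = A := by
  obtain ⟨x, y, -, -, -, rfl⟩ := h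
  exact H99.TensorS.adj_wedge hJ x y

theorem isT_of_pair (hJ : SympMat J) {x y : Fin m → F} (hx : x ≠ 0) (hy : ∀ s : F, y ≠ s • x) (hxy : bf J x y = 0) :
    IsT J (wedge J x y) :=
  ⟨x, y, hx, hy, hxy, rfl⟩

/-- A pair of parts which contracts to the two orders of an orthogonal pair. -/
def CPair (J : Matrix (Fin m) (Fin m) F) (p q : Matrix (Fin m) (Fin m) F) : Prop :=
  ∃ u v, u ≠ 0 ∧ (∀ s : F, v ≠ s • u) ∧ bf J u v = 0 ∧
    H99.TensorS.rk J u u * p * H99.TensorS.rk J v v + H99.TensorS.rk J v v * p * H99.TensorS.rk J u u =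
      H99.TensorS.rk J u v ∧
    H99.TensorS.rk J u u * q * H99.TensorS.rk J v v + H99.TensorS.rk J v v * q * H99.TensorS.rk J u u =
      H99.TensorS.rk J v u

/-- A frame of three hyperbolic pairs. -/
theorem exists_frame (hJ : SympMat J) (hm : 6 ≤ m) : ∃ e e' h h' a a' : Fin m → F,
    bf J e e' = 1 ∧ bf J h h' = 1 ∧ bf J a a' = 1 ∧ bf J e h = 0 ∧ bf J e h' = 0 ∧ bf J e' h = 0 ∧
    bf J e' h' = 0 ∧ bf J e a = 0 ∧ bf J e' a = 0 ∧ bf J h a = 0 ∧ bf J h' a = 0 ∧ bf J e a' = 0 ∧
    bf J e' a' = 0 ∧ bf J h a' = 0 ∧ bf J h' a' = 0 := by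
  obtain ⟨e, e', -, -, hee⟩ := hJ.exists_pair (k := 0) ![] (by simp; omega)
  obtain ⟨h, h', hp, hp', hhh⟩ := hJ.exists_pair (k := 2) ![e, e'] (by simp; omega)
  obtain ⟨a, ha0, hap⟩ := H99.TensorS.exists_perp (J := J) ![e, e', h, h'] (by simp; omega)
  have p1 : bf J e h = 0 := hp 0
  have p2 : bf J e' h = 0 := hp 1
  have p3 : bf J e h' = 0 := hp' 0
  have p4 : bf J e' h' = 0 := hp' 1
  have a1 : bf J e a = 0 := hap 0
  have a2 : bf J e' a = 0 := hap 1
  have a3 : bf J h a = 0 := hap 2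
  have a4 : bf J h' a = 0 := hap 3
  obtain ⟨f, hf, hfa⟩ := hJ.sep (S := Submodule.span F (Set.range ![e, e', h, h'])) (a := a) fun hmem => by
    obtain ⟨c, hc⟩ := (Submodule.mem_span_range_iff_exists_fun F).1 hmem
    have hsum : c 0 • e + c 1 • e' + c 2 • h + c 3 • h' = a := by simpa [Fin.sum_univ_four] using hc
    have k1 := congrArg (bf J e) hsum
    have k2 := congrArg (bf J e') hsum
    have k3 := congrArg (bf J h) hsum
    have k4 := congrArg (bf J h') hsum
    simp only [H99.TensorS.bf_add_right, H99.TensorS.bf_smul_right, hJ.self, hee, hhh, p1, p2, p3, p4,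
      hJ.swap e e', hJ.swap h h', hJ.zero_comm.1 p1, hJ.zero_comm.1 p2, hJ.zero_comm.1 p3, hJ.zero_comm.1 p4,
      a1, a2, a3, a4, mul_zero, mul_one, mul_neg, add_zero, zero_add, neg_eq_zero] at k1 k2 k3 k4
    exact ha0 (by rw [← hsum, k1, k2, k3, k4, zero_smul, zero_smul, zero_smul, zero_smul, add_zero, add_zero,
      add_zero])
  have hz : ∀ i, bf J f (![e, e', h, h'] i) = 0 := fun i => hf _ (Submodule.subset_span ⟨i, rfl⟩)
  refine ⟨e, e', h, h', a, -f, hee, hhh, ?_, p1, p3, p2, p4, a1, a2, a3, a4, ?_, ?_, ?_, ?_⟩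
  · rw [← neg_one_smul F f, H99.TensorS.bf_smul_right, hJ.swap f a, hfa]; ring
  all_goals rw [← neg_one_smul F f, H99.TensorS.bf_smul_right, mul_eq_zero]; right; rw [hJ.zero_comm]
  · exact hz 0
  · exact hz 1
  · exact hz 2
  · exact hz 3

/-- The two kinds of pairs which occur in commutators. -/
theorem exists_cpairs (hJ : SympMat J) (two : (2 : F) = 0) (hm : 6 ≤ m) :
    ∃ e e' h h' : Fin m → F, bf J e e' = 1 ∧ bf J h h' = 1 ∧ bf J e h = 0 ∧ bf J e h' = 0 ∧ bf J e' h = 0 ∧
      bf J e' h' = 0 ∧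
      CPair J (H99.TensorS.rk J e e') (H99.TensorS.rk J e' e) ∧
      CPair J (H99.TensorS.rk J e e' + H99.TensorS.rk J h h')
        (H99.TensorS.rk J e' e + H99.TensorS.rk J h' h) := by
  obtain ⟨e, e', h, h', a, a', hee, hhh, haa, p1, p3, p2, p4, a1, a2, a3, a4, b1, b2, b3, b4⟩ :=
    exists_frame hJ hm
  refine ⟨e, e', h, h', hee, hhh, p1, p3, p2, p4, ?_, ?_⟩
  all_goals
    refine ⟨e' + a', e + a, fun h0 => ?_, fun s hs => ?_, ?_, ?_, ?_⟩
    · have := congrArg (bf J e) h0
      simp [H99.TensorS.bf_add_right, H99.TensorS.bf_zero_right, hee, b1] at this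
    · have k1 := congrArg (bf J e) hs
      have k2 := congrArg (bf J e') hs
      simp [H99.TensorS.bf_add_right, H99.TensorS.bf_smul_right, hJ.self, hee, a1, a2, b1, b2,
        hJ.swap e e'] at k1 k2
    · simp [H99.TensorS.bf_add_right, H99.TensorS.bf_add_left, hJ.swap e e', hee, a2, hJ.zero_comm.1 b1,
        hJ.swap a a', haa]
      linear_combination (-1 : F) * two
    all_goals
      simp only [Matrix.add_mul, Matrix.mul_add, H99.TensorS.rk_mul, Matrix.smul_mul, smul_smul, ← add_smul]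
      simp [H99.TensorS.bf_add_right, H99.TensorS.bf_add_left, hJ.self, hJ.swap e e', hee, hJ.swap h h', hhh,
        p1, p2, p3, p4, a1, a2, a3, a4, b1, b2, b3, b4, hJ.zero_comm.1 p1, hJ.zero_comm.1 p2, hJ.zero_comm.1 p3,
        hJ.zero_comm.1 p4, hJ.zero_comm.1 a1, hJ.zero_comm.1 a2, hJ.zero_comm.1 a3, hJ.zero_comm.1 a4,
        hJ.zero_comm.1 b1, hJ.zero_comm.1 b2, hJ.zero_comm.1 b3, hJ.zero_comm.1 b4, Even.neg_val two]

end Parts

variable {ι : Type} [Fintype ι] [DecidableEq ι] {M : Subgroup (GL (ι → Fin m) F)}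

section Closed

variable {κ : Type} [Fintype κ] [DecidableEq κ]

/-- A set of matrices closed under sums and the factor groups of some factors. -/
structure Cl (J : Matrix (Fin m) (Fin m) F) (M : Subgroup (GL (ι → Fin m) F)) (σ : κ → ι) (R : Finset κ)
    (S : Matrix (κ → Fin m) (κ → Fin m) F → Prop) : Prop where
  add : ∀ X Y, S X → S Y → S (X + Y)
  conj : ∀ r ∈ R, ∀ g : Matrix (Fin m) (Fin m) F, Mv J M (σ r) g → ∀ X, S X →
    S (sl r g * X * sl r (adj J J g))

local notation "KK" => Matrix (κ → Fin m) (κ → Fin m) F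

variable {σ : κ → ι} {R : Finset κ} {S : Matrix (κ → Fin m) (κ → Fin m) F → Prop} (H : SW0 J M) (two : (2 : F) = 0) (C : Cl J M σ R S)
include H two C

/-- The first difference. -/
theorem Cl.delta {r : κ} (hr : r ∈ R) {X : KK} (hX : S X) (v : Fin m → F) :
    S (sl r (H99.TensorS.rk J v v) * X + X * sl r (H99.TensorS.rk J v v) +
      sl r (H99.TensorS.rk J v v) * X * sl r (H99.TensorS.rk J v v)) := by
  set N : KK := sl r (H99.TensorS.rk J v v)
  have h := C.conj r hr _ (H.mv_trans (σ r) v 1) X hX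
  rw [H99.TensorS.adj_add, H99.TensorS.adj_one H.sJ.unit, one_smul, H99.TensorS.adj_rk H.sJ, Even.neg_mat two,
    sl_add, sl_one] at h
  have := C.add _ _ h hX
  convert this using 1
  rw [show (1 + N) * X * (1 + N) + X = N * X + X * N + N * X * N + (X + X) by noncomm_ring,
    Even.add_self_mat two, add_zero]

/-- The second difference. -/
theorem Cl.double {r : κ} (hr : r ∈ R) {X : KK} (hX : S X) {u v : Fin m → F} (huv : bf J u v = 0) :
    S (sl r (H99.TensorS.rk J u u) * X * sl r (H99.TensorS.rk J v v) +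
      sl r (H99.TensorS.rk J v v) * X * sl r (H99.TensorS.rk J u u)) := by
  set N : KK := sl r (H99.TensorS.rk J v v)
  set N' : KK := sl r (H99.TensorS.rk J u u)
  have h := C.delta H two hr (C.delta H two hr hX v) u
  have key : ∀ a b : Matrix (κ → Fin m) (κ → Fin m) F, a * b = 0 → b * a = 0 →
      a * (b * X + X * b + b * X * b) + (b * X + X * b + b * X * b) * a + a * (b * X + X * b + b * X * b) * a =
        a * X * b + b * X * a := by
    intro a b e1 e2
    simp only [Matrix.mul_add, Matrix.add_mul, ← Matrix.mul_assoc, e1, Matrix.zero_mul, add_zero, zero_add]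
    simp only [Matrix.mul_assoc, e2, Matrix.mul_zero, add_zero]
  rwa [key _ _ (by rw [sl_mul, H99.TensorS.rk_mul, huv, zero_smul, sl_zero])
    (by rw [sl_mul, H99.TensorS.rk_mul, H.sJ.zero_comm.1 huv, zero_smul, sl_zero])] at h

/-- A move of a contracted pair to transvection parts. -/
theorem Cl.to_trans {r : κ} (hr : r ∈ R) {c : F} {k₁ k₂ : κ → mm} {p q : mm} (hk₁ : k₁ r = p) (hk₂ : k₂ r = q)
    (hpq : CPair J p q) (hS : S (c • (wm 1 k₁ + wm 1 k₂))) :
    ∃ v, v ≠ 0 ∧ S (c • (wm 1 (Function.update k₁ r (H99.TensorS.rk J v v)) +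
      wm 1 (Function.update k₂ r (H99.TensorS.rk J v v)))) := by
  obtain ⟨u, v, hu, hv, huv, e1, e2⟩ := hpq
  have h := C.double H two hr hS huv
  simp only [mul_smul_comm, smul_mul_assoc, Matrix.mul_add, Matrix.add_mul, sl_wm1_sl, hk₁, hk₂, ← smul_add] at h
  rw [add_add_add_comm, ← wm1_update_add, ← wm1_update_add, e1, e2] at h
  have hv0 : v ≠ 0 := fun h0 => hv 0 (by rw [h0, zero_smul])
  have hJ := H.sJ
  have huv' : ∀ s : F, v ≠ s • (u + v) := fun s hs => by
    rcases eq_or_ne s 1 with rfl | hs1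
    · exact hu (by simpa using hs)
    · refine hv ((1 - s)⁻¹ * s) ?_
      have e : (1 - s) • v = s • u := by rw [sub_smul, one_smul]; nth_rw 1 [hs]; module
      rw [← smul_smul, ← e, smul_smul, inv_mul_cancel₀ (sub_ne_zero.2 hs1.symm), one_smul]
  obtain ⟨g, hg, gu, gv⟩ := H.mv_map_pair (σ r) hu hv huv (x' := u + v) (y' := v)
    (fun h0 => huv' 0 (by rw [zero_smul]; exact absurd h0 (fun h0 => hv (-1) (by
      rw [neg_one_smul]; exact eq_neg_of_add_eq_zero_right h0))))
    huv' (by rw [H99.TensorS.bf_add_left, huv, hJ.self, add_zero])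
  have h2 := C.add _ _ (C.conj r hr g hg _ h) h
  simp only [mul_smul_comm, smul_mul_assoc, Matrix.mul_add, Matrix.add_mul, sl_wm1_sl, Function.update_self,
    Function.update_idem, H99.TensorS.rk_conj hJ, gu, gv, H99.TensorS.rk_add_left, H99.TensorS.rk_add_right,
    wm1_update_add, ← smul_add] at h2
  refine ⟨v, hv0, ?_⟩
  convert h2 using 2
  rw [show ∀ A B C D : KK, A + B + (C + D) + (A + C) = (B + D) + ((A + A) + (C + C)) by intros; abel,
    Even.add_self_mat two, Even.add_self_mat two, add_zero, add_zero]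

/-- The last contracted pair gives an alternating part. -/
theorem Cl.to_wedge {r : κ} (hr : r ∈ R) {c : F} {k₁ k₂ : κ → mm} {p q : mm} (hk₁ : k₁ r = p) (hk₂ : k₂ r = q)
    (hpq : CPair J p q) (hoff : ∀ l, l ≠ r → k₁ l = k₂ l) (hS : S (c • (wm 1 k₁ + wm 1 k₂))) :
    ∃ T, IsT J T ∧ S (c • wm 1 (Function.update k₁ r T)) := by
  obtain ⟨u, v, hu, hv, huv, e1, e2⟩ := hpq
  have h := C.double H two hr hS huv
  simp only [mul_smul_comm, smul_mul_assoc, Matrix.mul_add, Matrix.add_mul, sl_wm1_sl, hk₁, hk₂, ← smul_add] at h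
  rw [add_add_add_comm, ← wm1_update_add, ← wm1_update_add, e1, e2] at h
  have e : ∀ A : mm, Function.update k₂ r A = Function.update k₁ r A := fun A => by
    funext l
    by_cases hl : l = r
    · subst hl; simp
    · simp [hl, hoff l hl]
  rw [e, ← wm1_update_add, ← wedge_eq two] at h
  exact ⟨_, isT_of_pair H.sJ hu hv huv, h⟩

/-- All contracted pairs become transvection parts, one of them an alternating part. -/
theorem Cl.spread {c : F} {k₁ k₂ : κ → mm} (hoff : ∀ l ∉ R, k₁ l = k₂ l)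
    (hpair : ∀ r ∈ R, CPair J (k₁ r) (k₂ r)) (hS : S (c • (wm 1 k₁ + wm 1 k₂))) {r₀ : κ} (hr₀ : r₀ ∈ R) :
    ∃ k : κ → mm, (∀ r ∈ R.erase r₀, IsN J (k r)) ∧ IsT J (k r₀) ∧ (∀ l ∉ R, k l = k₁ l) ∧ S (c • wm 1 k) := by
  suffices key : ∀ D : Finset κ, D ⊆ R.erase r₀ → ∃ a b : κ → mm, (∀ r ∈ D, IsN J (a r) ∧ b r = a r) ∧
      (∀ l ∉ D, a l = k₁ l ∧ b l = k₂ l) ∧ S (c • (wm 1 a + wm 1 b)) by
    obtain ⟨a, b, hN, hout, hab⟩ := key _ subset_rfl
    have h0 := hout r₀ (Finset.notMem_erase _ _)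
    obtain ⟨T, hT, h⟩ := C.to_wedge H two hr₀ h0.1 h0.2 (hpair _ hr₀) (fun l hl => by
      by_cases hlD : l ∈ R.erase r₀
      · exact (hN l hlD).2.symm
      · have := hout l hlD
        rw [this.1, this.2, hoff l (fun h => hlD (Finset.mem_erase.2 ⟨hl, h⟩))]) hab
    refine ⟨Function.update a r₀ T, fun r hr => ?_, by rw [Function.update_self]; exact hT, fun l hl => ?_, h⟩
    · rw [Function.update_of_ne (Finset.ne_of_mem_erase hr)]; exact (hN r hr).1
    · rw [Function.update_of_ne (fun h : l = r₀ => hl (h ▸ hr₀))]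
      exact (hout l (fun h => hl (Finset.mem_of_mem_erase h))).1
  intro D
  induction D using Finset.induction with
  | empty => exact fun _ => ⟨k₁, k₂, by simp, fun l _ => ⟨rfl, rfl⟩, hS⟩
  | insert r D hr ih =>
    intro hD
    rw [Finset.insert_subset_iff] at hD
    obtain ⟨a, b, hN, hout, hab⟩ := ih hD.2
    have hrR : r ∈ R := Finset.mem_of_mem_erase hD.1
    obtain ⟨v, hv, h⟩ := C.to_trans H two hrR (hout r hr).1 (hout r hr).2 (hpair r hrR) hab
    refine ⟨_, _, fun l hl => ?_, fun l hl => ?_, h⟩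
    · by_cases hlr : l = r
      · subst hlr; rw [Function.update_self, Function.update_self]; exact ⟨⟨v, hv, rfl⟩, rfl⟩
      · rw [Function.update_of_ne hlr, Function.update_of_ne hlr]
        exact hN l (Finset.mem_of_mem_insert_of_ne hl hlr)
    · rw [Finset.mem_insert, not_or] at hl
      rw [Function.update_of_ne hl.1, Function.update_of_ne hl.1]
      exact hout l hl.2

end Closed

local notation "MM" => Matrix (ι → Fin m) (ι → Fin m) F

variable (H : SW0 J M) (two : (2 : F) = 0)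
include H two

omit two in
/-- The elements with a fixed nilpotent part at one factor. -/
theorem SW0.cl_fac {j : ι} {A : mm} (hA : A * A = 0) {R : Finset ι} (hj : j ∉ R) :
    Cl J M id R fun X : MM => Fac j A X ∧ Mem M (1 + X) where
  add X Y hX hY := ⟨hX.1.add hY.1, hX.2.add hY.2 (hX.1.mul_eq_zero hA hY.1)⟩
  conj r hr g hg X hX := by
    have hrj : r ≠ j := fun h => hj (h ▸ hr)
    refine ⟨(hX.1.sl_left hrj).sl_right hrj, hX.2.conj' hg.1 ?_⟩
    rw [sl_mul, mul_eq_one_comm.1 hg.2, sl_one]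

/-- One monomial element gives all of its type. -/
theorem SW0.mono_two [Finite F] {P Q : Finset ι} {c₀ : F} (hc₀ : c₀ ≠ 0) {k₀ : ι → mm}
    (hP : ∀ i ∈ P, IsN J (k₀ i)) (hQ : ∀ i ∈ Q, IsT J (k₀ i)) (h1 : ∀ i, i ∉ P → i ∉ Q → k₀ i = 1)
    (hne : Q.Nonempty) (hdis : Disjoint P Q) (hmem : Mem M (1 + c₀ • wm 1 k₀)) : Mono J M P Q := by
  have hJ := H.sJ
  have all : ∀ k : ι → mm, (∀ i ∈ P, IsN J (k i)) → (∀ i ∈ Q, IsT J (k i)) →
      (∀ i, i ∉ P → i ∉ Q → k i = 1) → Mem M (1 + c₀ • wm 1 k) := by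
    intro k kP kQ k1
    suffices h : ∀ S : Finset ι, Mem M (1 + c₀ • wm 1 (S.piecewise k k₀)) by
      simpa using h Finset.univ
    intro S
    induction S using Finset.induction with
    | empty => simpa using hmem
    | insert a S ha ih =>
      rw [Finset.piecewise_insert]
      have hval : S.piecewise k k₀ a = k₀ a := Finset.piecewise_eq_of_notMem _ _ _ ha
      by_cases haP : a ∈ P
      · obtain ⟨v, hv, ev⟩ := hP a haP
        obtain ⟨w, hw, ew⟩ := kP a haP
        obtain ⟨g, hg, hgv⟩ := H.mv_map a hv hw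
        have := H.mem_conj_slot hg ih
        rwa [hval, ev, H99.TensorS.rk_conj hJ, hgv, ← ew] at this
      by_cases haQ : a ∈ Q
      · obtain ⟨x, y, hx, hy, hxy, exy⟩ := hQ a haQ
        obtain ⟨x', y', hx', hy', hxy', exy'⟩ := kQ a haQ
        obtain ⟨g, hg, hgx, hgy⟩ := H.mv_map_pair a hx hy hxy hx' hy' hxy'
        have := H.mem_conj_slot hg ih
        rwa [hval, exy, H99.TensorS.wedge_conj hJ, hgx, hgy, ← exy'] at this
      · rwa [k1 a haP haQ, ← h1 a haP haQ, ← hval, Function.update_eq_self]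
  intro c k kP kQ k1
  rcases eq_or_ne c 0 with rfl | hc
  · rw [zero_smul, add_zero]; exact Mem.one
  obtain ⟨a, ha⟩ := hne
  obtain ⟨x, y, hx, hy, hxy, exy⟩ := kQ a ha
  set s := c / c₀
  have hs : s ≠ 0 := div_ne_zero hc hc₀
  have h := all (Function.update k a (wedge J (s • x) y)) ?_ ?_ ?_
  · rwa [H99.TensorS.wedge_smul_left, wm1_update_smul, smul_smul, mul_div_cancel₀ _ hc₀, ← exy,
      Function.update_eq_self] at h
  · intro i hi
    rw [Function.update_of_ne (fun e : i = a => Finset.disjoint_left.1 hdis hi (e ▸ ha))]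
    exact kP i hi
  · intro i hi
    by_cases hia : i = a
    · subst hia
      rw [Function.update_self]
      refine isT_of_pair hJ (smul_ne_zero hs hx) (fun r hr => hy (r * s) (by rw [hr, smul_smul])) ?_
      rw [H99.TensorS.bf_smul_left, hxy, mul_zero]
    · rw [Function.update_of_ne hia]; exact kQ i hi
  · intro i hi hi'
    rw [Function.update_of_ne (show i ≠ a from fun e => hi' (e.symm ▸ ha))]
    exact k1 i hi hi'

omit H in
/-- A commutator of two monomial elements. -/
theorem comm_wm_two {k k' : ι → mm} (h : Mem M (1 + wm 1 k)) (h' : Mem M (1 + wm 1 k')) {a b c d : ι}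
    (ha : k a * k a = 0) (hb : k' b * k' b = 0) (hc : k c * k' c * k c = 0) (hd : k' d * k d * k' d = 0) :
    Mem M (1 + (1 : F) • (wm 1 (fun i => k i * k' i) + wm 1 (fun i => k' i * k i))) := by
  rw [one_smul, ← wm1_mul, ← wm1_mul]
  have e := h.comm₂ h' (by rw [wm1_mul, wm1_eq_zero a ha]) (by rw [wm1_mul, wm1_eq_zero b hb])
    (by rw [wm1_mul, wm1_mul, wm1_eq_zero c hc]) (by rw [wm1_mul, wm1_mul, wm1_eq_zero d hd])
  rwa [sub_eq_add_neg, Even.neg_mat two] at e

/-- Contraction of a commutator. -/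
theorem SW0.mono_spread [Finite F] {k₁ k₂ : ι → mm} {R P' Q' : Finset ι} {j : ι} (hj : j ∉ R) {A : mm}
    (hA : A * A = 0) (hj₁ : k₁ j = A) (hj₂ : k₂ j = A) (hoff : ∀ l ∉ R, k₁ l = k₂ l)
    (hpair : ∀ r ∈ R, CPair J (k₁ r) (k₂ r)) (hP : ∀ i ∈ P', IsN J (k₁ i)) (hQ : ∀ i ∈ Q', IsT J (k₁ i))
    (h1 : ∀ i, i ∉ R → i ∉ P' → i ∉ Q' → k₁ i = 1) (hdP : Disjoint P' R) (hdQ : Disjoint Q' R)
    (hdPQ : Disjoint P' Q') (hmem : Mem M (1 + (1 : F) • (wm 1 k₁ + wm 1 k₂))) {r₀ : ι} (hr₀ : r₀ ∈ R) :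
    Mono J M (P' ∪ R.erase r₀) (insert r₀ Q') := by
  have hfac : Fac j A ((1 : F) • (wm 1 k₁ + wm 1 k₂) : MM) :=
    ((hj₁ ▸ fac_wm1 j k₁ : Fac j A (wm 1 k₁ : MM)).add (hj₂ ▸ fac_wm1 j k₂)).smul 1
  obtain ⟨k, hN, hT, hout, -, hS⟩ :=
    (H.cl_fac hA hj).spread H two hoff hpair ⟨hfac, hmem⟩ hr₀
  refine H.mono_two two one_ne_zero (fun i hi => ?_) (fun i hi => ?_) (fun i hi hi' => ?_)
    (Finset.insert_nonempty _ _) ?_ hS
  · rcases Finset.mem_union.1 hi with h | h
    · rw [hout i (Finset.disjoint_left.1 hdP h)]; exact hP i h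
    · exact hN i h
  · rcases Finset.mem_insert.1 hi with rfl | h
    · exact hT
    · rw [hout i (Finset.disjoint_left.1 hdQ h)]; exact hQ i h
  · simp only [Finset.mem_union, Finset.mem_insert, Finset.mem_erase, not_or, not_and] at hi hi'
    have hiR : i ∉ R := fun h => hi.2 hi'.1 h
    rw [hout i hiR, h1 i hiR hi.1 hi'.2]
  · simp only [Finset.disjoint_left, Finset.mem_union, Finset.mem_insert, Finset.mem_erase]
    rintro i (h | ⟨h, h'⟩) (rfl | h2)
    · exact Finset.disjoint_left.1 hdP h hr₀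
    · exact Finset.disjoint_left.1 hdPQ h h2
    · exact h rfl
    · exact Finset.disjoint_left.1 hdQ h2 h'

/-- A monomial element with an alternating part gives a single alternating part, at some of the factors. -/
theorem SW0.mono_single [Finite F] (hm : 6 ≤ m) {P Q : Finset ι} (h : Mono J M P Q) (hd : Disjoint P Q)
    (hQ : Q.Nonempty) (h2 : 2 ≤ (P ∪ Q).card) {r : ι} (hr : if P.Nonempty then r ∈ P else r ∈ Q) :
    Mono J M ((P ∪ Q).erase r) {r} := by
  classical
  have hJ := H.sJ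
  obtain ⟨e, e', f, f', hee, hff, p1, p3, p2, p4, c1, c2⟩ := exists_cpairs hJ two hm
  have swap1 : bf J e' e = 1 := by rw [hJ.swap e e', hee, Even.neg_val two]
  have swapf : bf J f' f = 1 := by rw [hJ.swap f f', hff, Even.neg_val two]
  have he0 : e ≠ 0 := fun h0 => by rw [h0, H99.TensorS.bf_zero_left] at hee; exact zero_ne_one hee
  have he'0 : e' ≠ 0 := fun h0 => by rw [h0, H99.TensorS.bf_zero_right] at hee; exact zero_ne_one hee
  have indep : ∀ {x y z : Fin m → F}, bf J z y ≠ 0 → bf J z x = 0 → ∀ s : F, y ≠ s • x := fun hzy hzx s hs =>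
    hzy (by rw [hs, H99.TensorS.bf_smul_right, hzx, mul_zero])
  have tA : IsT J (wedge J e f) := isT_of_pair hJ he0 (indep (z := f') (by rw [swapf]; exact one_ne_zero)
    (hJ.zero_comm.1 p3)) p1
  have tB : IsT J (wedge J e f') := isT_of_pair hJ he0 (indep (z := f) (by rw [hff]; exact one_ne_zero)
    (hJ.zero_comm.1 p1)) p3
  have tC : IsT J (wedge J e' f') := isT_of_pair hJ he'0 (indep (z := f) (by rw [hff]; exact one_ne_zero)
    (hJ.zero_comm.1 p2)) p4
  have pAB : wedge J e f * wedge J e f' = H99.TensorS.rk J e e ∧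
      wedge J e f' * wedge J e f = H99.TensorS.rk J e e := by
    constructor <;>
    simp [wedge_eq two, Matrix.add_mul, Matrix.mul_add, H99.TensorS.rk_mul, hJ.self, p1, p3, hJ.zero_comm.1 p1,
      hJ.zero_comm.1 p3, hff, swapf]
  have pAC : wedge J e f * wedge J e' f' = H99.TensorS.rk J e e' + H99.TensorS.rk J f f' ∧
      wedge J e' f' * wedge J e f = H99.TensorS.rk J e' e + H99.TensorS.rk J f' f := by
    constructor <;>
    simp [wedge_eq two, Matrix.add_mul, Matrix.mul_add, H99.TensorS.rk_mul, hJ.self, p1, p2, p3, p4,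
      hJ.zero_comm.1 p1, hJ.zero_comm.1 p2, hJ.zero_comm.1 p3, hJ.zero_comm.1 p4, hff, swapf, hee, swap1, add_comm]
  have hNN : H99.TensorS.rk J e e * H99.TensorS.rk J e e = 0 := by
    rw [H99.TensorS.rk_mul, hJ.self, zero_smul]
  have hABA : wedge J e f * wedge J e f' * wedge J e f = 0 ∧ wedge J e f' * wedge J e f * wedge J e f' = 0 := by
    rw [pAB.1, pAB.2]
    constructor <;>
    simp [wedge_eq two, Matrix.mul_add, H99.TensorS.rk_mul, hJ.self, p1, p3]
  by_cases hP : P.Nonempty
  · rw [if_pos hP] at hr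
    obtain ⟨q, hq⟩ := hQ
    have hqP : q ∉ P := Finset.disjoint_right.1 hd hq
    have mA := h 1 (cfam P Q (H99.TensorS.rk J e e) (wedge J e f))
      (fun i hi => by rw [cfam_left hi]; exact ⟨e, he0, rfl⟩)
      (fun i hi => by rw [cfam_right hd hi]; exact tA) (fun i hi hi' => cfam_out hi hi')
    have mB := h 1 (cfam P Q (H99.TensorS.rk J e' e') (wedge J e f'))
      (fun i hi => by rw [cfam_left hi]; exact ⟨e', he'0, rfl⟩)
      (fun i hi => by rw [cfam_right hd hi]; exact tB) (fun i hi hi' => cfam_out hi hi')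
    rw [one_smul] at mA mB
    have hC := comm_wm_two two mA mB (a := q) (b := q) (c := q) (d := q)
      (by rw [cfam_right hd hq]; exact tA.sq hJ) (by rw [cfam_right hd hq]; exact tB.sq hJ)
      (by rw [cfam_right hd hq, cfam_right hd hq]; exact hABA.1)
      (by rw [cfam_right hd hq, cfam_right hd hq]; exact hABA.2)
    have res := H.mono_spread two (R := P) (P' := Q) (Q' := ∅) (j := q) hqP hNN
      (by simp [cfam_right hd hq, pAB.1]) (by simp [cfam_right hd hq, pAB.2]) (fun l hl => ?_) (fun l hl => ?_)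
      (fun l hl => ?_) (by simp) (fun l hl hl' _ => ?_) hd.symm (by simp) (by simp) hC hr
    · convert res using 1
      swap
      · simp
      ext x
      simp only [Finset.mem_erase, Finset.mem_union]
      constructor
      · rintro ⟨hx, hxP | hxQ⟩
        · exact Or.inr ⟨hx, hxP⟩
        · exact Or.inl hxQ
      · rintro (hxQ | ⟨hx, hxP⟩)
        · exact ⟨fun e => Finset.disjoint_left.1 hd hr (e ▸ hxQ), Or.inr hxQ⟩
        · exact ⟨hx, Or.inl hxP⟩
    · by_cases hlQ : l ∈ Q
      · simp [cfam_right hd hlQ, pAB.1, pAB.2]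
      · simp [cfam_out hl hlQ]
    · simp only [cfam_left hl, H99.TensorS.rk_mul, hee, swap1, one_smul]
      exact c1
    · simp only [cfam_right hd hl, pAB.1]
      exact ⟨e, he0, rfl⟩
    · simp [cfam_out hl hl']
  · rw [if_neg hP] at hr
    rw [Finset.not_nonempty_iff_eq_empty] at hP
    subst hP
    rw [Finset.empty_union] at h2 ⊢
    obtain ⟨q, hq⟩ := Finset.card_pos.1 (show 0 < (Q.erase r).card by rw [Finset.card_erase_of_mem hr]; omega)
    obtain ⟨hqr, hqQ⟩ := Finset.mem_erase.1 hq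
    have hdd : Disjoint ({r} : Finset ι) (Q.erase r) := by simp
    have mA := h 1 (cfam {r} (Q.erase r) (wedge J e f) (wedge J e f)) (by simp)
      (fun i hi => ?_) (fun i _ hi' => cfam_out (by simp; rintro rfl; exact hi' hr) (by simp [hi']))
    swap
    · by_cases hir : i = r
      · subst hir; rw [cfam_left (Finset.mem_singleton_self _)]; exact tA
      · rw [cfam_right hdd (Finset.mem_erase.2 ⟨hir, hi⟩)]; exact tA
    have mB := h 1 (cfam {r} (Q.erase r) (wedge J e' f') (wedge J e f')) (by simp)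
      (fun i hi => ?_) (fun i _ hi' => cfam_out (by simp; rintro rfl; exact hi' hr) (by simp [hi']))
    swap
    · by_cases hir : i = r
      · subst hir; rw [cfam_left (Finset.mem_singleton_self _)]; exact tC
      · rw [cfam_right hdd (Finset.mem_erase.2 ⟨hir, hi⟩)]; exact tB
    rw [one_smul] at mA mB
    have hC := comm_wm_two two mA mB (a := q) (b := q) (c := q) (d := q)
      (by rw [cfam_right hdd hq]; exact tA.sq hJ) (by rw [cfam_right hdd hq]; exact tB.sq hJ)
      (by rw [cfam_right hdd hq, cfam_right hdd hq]; exact hABA.1)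
      (by rw [cfam_right hdd hq, cfam_right hdd hq]; exact hABA.2)
    have res := H.mono_spread two (R := {r}) (P' := Q.erase r) (Q' := ∅) (j := q) (by simpa using hqr) hNN
      (by simp [cfam_right hdd hq, pAB.1]) (by simp [cfam_right hdd hq, pAB.2]) (fun l hl => ?_) (fun l hl => ?_)
      (fun l hl => ?_) (by simp) (fun l hl hl' _ => ?_) hdd.symm (by simp) (by simp) hC (Finset.mem_singleton_self r)
    · simpa using res
    · by_cases hlQ : l ∈ Q.erase r
      · simp [cfam_right hdd hlQ, pAB.1, pAB.2]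
      · simp [cfam_out hl hlQ]
    · simp only [cfam_left hl, pAC.1, pAC.2]
      exact c2
    · simp only [cfam_right hdd hl, pAB.1]
      exact ⟨e, he0, rfl⟩
    · simp [cfam_out hl hl']

/-- A monomial element with an alternating part gives a single alternating part, at every factor of it. -/
theorem SW0.mono_norm [Finite F] (hm : 6 ≤ m) {P Q : Finset ι} (h : Mono J M P Q) (hd : Disjoint P Q)
    (hQ : Q.Nonempty) (h2 : 2 ≤ (P ∪ Q).card) : ∀ r ∈ P ∪ Q, Mono J M ((P ∪ Q).erase r) {r} := by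
  obtain ⟨a, ha⟩ : ∃ a, if P.Nonempty then a ∈ P else a ∈ Q := by
    by_cases hP : P.Nonempty
    · obtain ⟨a, ha⟩ := hP; exact ⟨a, by rw [if_pos ⟨a, ha⟩]; exact ha⟩
    · obtain ⟨a, ha⟩ := hQ; exact ⟨a, by rw [if_neg hP]; exact ha⟩
  have haS : a ∈ P ∪ Q := by split_ifs at ha <;> simp [ha]
  have h1 := H.mono_single two hm h hd hQ h2 ha
  intro r hr
  by_cases hra : r = a
  · subst hra; exact h1
  have hne : ((P ∪ Q).erase a).Nonempty := ⟨r, Finset.mem_erase.2 ⟨hra, hr⟩⟩
  have eu : (P ∪ Q).erase a ∪ {a} = P ∪ Q := by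
    rw [Finset.union_comm, ← Finset.insert_eq, Finset.insert_erase haS]
  have := H.mono_single two hm h1 (by simp) (Finset.singleton_nonempty a) (by rw [eu]; exact h2) (r := r)
    (by rw [if_pos hne]; exact Finset.mem_erase.2 ⟨hra, hr⟩)
  rwa [eu] at this

/-- One more factor. -/
theorem SW0.mono_grow [Finite F] (hm : 6 ≤ m) {S : Finset ι} (h : ∀ r ∈ S, Mono J M (S.erase r) {r})
    (h2 : 2 ≤ S.card) {o : ι} (ho : o ∉ S) : ∀ r ∈ insert o S, Mono J M ((insert o S).erase r) {r} := by
  classical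
  have hJ := H.sJ
  obtain ⟨e, e', f, f', hee, hff, p1, p3, p2, p4, c1, -⟩ := exists_cpairs hJ two hm
  have swap1 : bf J e' e = 1 := by rw [hJ.swap e e', hee, Even.neg_val two]
  have swapf : bf J f' f = 1 := by rw [hJ.swap f f', hff, Even.neg_val two]
  have he0 : e ≠ 0 := fun h0 => by rw [h0, H99.TensorS.bf_zero_left] at hee; exact zero_ne_one hee
  have he'0 : e' ≠ 0 := fun h0 => by rw [h0, H99.TensorS.bf_zero_right] at hee; exact zero_ne_one hee
  have tA : IsT J (wedge J e f) := isT_of_pair hJ he0 (fun s hs => by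
    rw [hs, H99.TensorS.bf_smul_left, hJ.zero_comm.1 (hJ.zero_comm.1 p3), mul_zero] at hff
    exact zero_ne_one hff) p1
  obtain ⟨b, hb⟩ := Finset.card_pos.1 (show 0 < S.card by omega)
  obtain ⟨a, ha⟩ := Finset.card_pos.1 (show 0 < (S.erase b).card by rw [Finset.card_erase_of_mem hb]; omega)
  obtain ⟨hab, haS⟩ := Finset.mem_erase.1 ha
  have hao : a ≠ o := fun e => ho (e ▸ haS)
  have hbo : b ≠ o := fun e => ho (e ▸ hb)
  set σ : Equiv.Perm ι := Equiv.swap a o * Equiv.swap o b with hσ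
  have himg : (S.erase a).image σ = S.erase b ∧ σ a = o := by
    have k1 : σ a = o := by
      simp [hσ, Equiv.Perm.mul_apply, Equiv.swap_apply_of_ne_of_ne hao hab]
    have k2 : σ b = a := by simp [hσ, Equiv.Perm.mul_apply]
    have k3 : ∀ l, l ≠ a → l ≠ b → l ≠ o → σ l = l := fun l h1 h2 h3 => by
      simp [hσ, Equiv.Perm.mul_apply, Equiv.swap_apply_of_ne_of_ne h3 h2, Equiv.swap_apply_of_ne_of_ne h1 h3]
    refine ⟨?_, k1⟩
    ext l
    simp only [Finset.mem_image, Finset.mem_erase]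
    constructor
    · rintro ⟨x, ⟨hxa, hxS⟩, rfl⟩
      by_cases hxb : x = b
      · subst hxb; rw [k2]; exact ⟨hab, haS⟩
      · rw [k3 x hxa hxb (fun e => ho (e ▸ hxS))]; exact ⟨hxb, hxS⟩
    · rintro ⟨hlb, hlS⟩
      by_cases hla : l = a
      · exact ⟨b, ⟨hab.symm, hb⟩, by rw [k2, hla]⟩
      · exact ⟨l, ⟨hla, hlS⟩, k3 l hla hlb (fun e => ho (e ▸ hlS))⟩
  have hB : Mono J M (S.erase b) {o} := by
    have := H.mono_cycle (h a haS) hao hbo.symm hab
    rwa [← hσ, Finset.image_singleton, himg.1, himg.2] at this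
  have hd1 : Disjoint (S.erase b) {b} := by simp
  have hd2 : Disjoint (S.erase b) {o} := by simp [ho]
  have mA := h b hb 1 (cfam (S.erase b) {b} (H99.TensorS.rk J e e) (wedge J e f))
    (fun i hi => by rw [cfam_left hi]; exact ⟨e, he0, rfl⟩)
    (fun i hi => by rw [cfam_right hd1 hi]; exact tA) (fun i hi hi' => cfam_out hi hi')
  have mB := hB 1 (cfam (S.erase b) {o} (H99.TensorS.rk J e' e') (wedge J e f))
    (fun i hi => by rw [cfam_left hi]; exact ⟨e', he'0, rfl⟩)
    (fun i hi => by rw [cfam_right hd2 hi]; exact tA) (fun i hi hi' => cfam_out hi hi')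
  rw [one_smul] at mA mB
  have hb1 : b ∉ S.erase b := Finset.notMem_erase b S
  have hb2 : b ∉ ({o} : Finset ι) := by simpa using hbo
  have ho1 : o ∉ S.erase b := fun h => ho (Finset.mem_of_mem_erase h)
  have ho2 : o ∉ ({b} : Finset ι) := by simpa using hbo.symm
  have bs : b ∈ ({b} : Finset ι) := Finset.mem_singleton_self b
  have os : o ∈ ({o} : Finset ι) := Finset.mem_singleton_self o
  have hC := comm_wm_two two mA mB (a := b) (b := o) (c := b) (d := o)
    (by rw [cfam_right hd1 bs]; exact tA.sq hJ) (by rw [cfam_right hd2 os]; exact tA.sq hJ)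
    (by rw [cfam_right hd1 bs, cfam_out hb1 hb2, Matrix.mul_one]; exact tA.sq hJ)
    (by rw [cfam_right hd2 os, cfam_out ho1 ho2, Matrix.mul_one]; exact tA.sq hJ)
  have hcases : ∀ l, l ∉ S.erase b → (l = b ∨ l = o) ∨ (l ∉ ({b} : Finset ι) ∧ l ∉ ({o} : Finset ι)) := fun l _ => by
    by_cases h1 : l = b
    · exact Or.inl (Or.inl h1)
    by_cases h2 : l = o
    · exact Or.inl (Or.inr h2)
    exact Or.inr ⟨by simpa using h1, by simpa using h2⟩
  have res := H.mono_spread two (R := S.erase b) (P' := ∅) (Q' := {b, o}) (j := b) hb1 (tA.sq hJ)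
    (by simp [cfam_right hd1 bs, cfam_out hb1 hb2]) (by simp [cfam_right hd1 bs, cfam_out hb1 hb2])
    (fun l hl => ?_) (fun l hl => ?_) (by simp) (fun l hl => ?_) (fun l hl _ hl' => ?_) (by simp)
    (by simp [Finset.disjoint_left, ho]) (by simp) hC ha
  · have hset : (∅ ∪ (S.erase b).erase a) ∪ insert a {b, o} = insert o S := by
      ext x
      simp only [Finset.mem_union, Finset.mem_insert, Finset.mem_singleton, Finset.mem_erase]
      constructor
      · rintro ((h | ⟨-, -, h⟩) | rfl | rfl | rfl)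
        · simp at h
        · exact Or.inr h
        · exact Or.inr haS
        · exact Or.inr hb
        · exact Or.inl rfl
      · rintro (rfl | h)
        · exact Or.inr (Or.inr (Or.inr rfl))
        · by_cases hxa : x = a
          · exact Or.inr (Or.inl hxa)
          by_cases hxb : x = b
          · exact Or.inr (Or.inr (Or.inl hxb))
          exact Or.inl (Or.inr ⟨hxa, hxb, h⟩)
    have := H.mono_norm two hm res ?_ (Finset.insert_nonempty _ _) ?_
    · rwa [hset] at this
    · simp only [Finset.disjoint_left, Finset.mem_union, Finset.mem_insert, Finset.mem_singleton, Finset.mem_erase]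
      rintro x (h | ⟨hxa, hxb, hxS⟩) (rfl | rfl | rfl)
      all_goals first | simp at h | exact hxa rfl | exact hxb rfl | exact ho hxS
    · rw [hset, Finset.card_insert_of_notMem ho]; omega
  · rcases hcases l hl with (rfl | rfl) | ⟨h1, h2⟩
    · simp [cfam_right hd1 bs, cfam_out hb1 hb2]
    · simp [cfam_right hd2 os, cfam_out ho1 ho2]
    · simp [cfam_out hl h1, cfam_out hl h2]
  · simp only [cfam_left hl, H99.TensorS.rk_mul, hee, swap1, one_smul]
    exact c1
  · simp only [Finset.mem_insert, Finset.mem_singleton] at hl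
    rcases hl with rfl | rfl
    · simp only [cfam_right hd1 bs, cfam_out hb1 hb2, Matrix.mul_one]; exact tA
    · simp only [cfam_right hd2 os, cfam_out ho1 ho2, Matrix.one_mul]; exact tA
  · simp only [Finset.mem_insert, Finset.mem_singleton, not_or] at hl'
    simp [cfam_out hl (show l ∉ ({b} : Finset ι) by simpa using hl'.1),
      cfam_out hl (show l ∉ ({o} : Finset ι) by simpa using hl'.2)]

/-- All parts but one of transvection type. -/
theorem SW0.top_two [Finite F] (hm : 6 ≤ m) {P Q : Finset ι} (h : Mono J M P Q) (hd : Disjoint P Q)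
    (hQ : Q.Nonempty) (h2 : 2 ≤ (P ∪ Q).card) : ∀ i, Mono J M (Finset.univ.erase i) {i} := by
  classical
  suffices key : ∀ (n : ℕ) (S : Finset ι), Sᶜ.card ≤ n → 2 ≤ S.card → (∀ r ∈ S, Mono J M (S.erase r) {r}) →
      ∀ i, Mono J M (Finset.univ.erase i) {i} from key _ _ le_rfl h2 (H.mono_norm two hm h hd hQ h2)
  intro n
  induction n with
  | zero =>
    intro S hS _ hall i
    have e : S = Finset.univ := by
      rw [← Finset.compl_eq_empty_iff, ← Finset.card_eq_zero]; omega
    subst e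
    exact hall i (Finset.mem_univ i)
  | succ n ih =>
    intro S hS hS2 hall
    by_cases e : S = Finset.univ
    · subst e; exact fun i => hall i (Finset.mem_univ i)
    obtain ⟨o, ho⟩ : ∃ o, o ∉ S := by
      by_contra hc
      push Not at hc
      exact e (Finset.eq_univ_iff_forall.2 hc)
    refine ih (insert o S) ?_ ?_ (H.mono_grow two hm hall hS2 ho)
    · rw [Finset.card_compl, Finset.card_insert_of_notMem ho]
      rw [Finset.card_compl] at hS
      omega
    · rw [Finset.card_insert_of_notMem ho]; omega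

end Cfsg.Agent.H5.C7
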