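import Cfsg.Agent.H5.C7.MonoTop
import Cfsg.Agent.H5.C7.Endgame2
import Cfsg.Agent.H58.Wreath.Sp.Global

/-!
Odd characteristic, an even number of factors: either the conjugates of the factor transvections lie in one
factor, or all monomial elements with all parts but one of transvection type occur.
-/

set_option autoImplicit false
set_option linter.unusedSectionVars false

namespace Cfsg.Agent.H5.C7

open Matrix
open Cfsg.Agent.H99.Tensor
open Cfsg.Agent.H99.TensorS (SympMat bf adj el wedge)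
open Cfsg.Agent.H58.Wreath.Sp (tens tens_unit tens_transpose rI_tensJ rI_transpose iso_iff Good Setup split_sq IsRoot rootR)
open scoped Kronecker

variable {F : Type*} [Field F] {ι : Type} [Fintype ι] [DecidableEq ι] {m : ℕ} {J : Matrix (Fin m) (Fin m) F}
  {M : Subgroup (GL (ι → Fin m) F)} (H : SW J M)

local notation "MM" => Matrix (ι → Fin m) (ι → Fin m) F
local notation "mm" => Matrix (Fin m) (Fin m) F

include H

theorem SW.setup (size : (m = 2 ∧ ∃ r : F, r ≠ 0 ∧ r * r ≠ 1) ∨ 4 ≤ m) (i : ι) (hgood : Good J M i) :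
    Setup (tens {j : ι // j ≠ i} J) J (slotM i M) where
  sA := by
    refine ⟨(-1) ^ Fintype.card {j : ι // j ≠ i}, ?_, tens_transpose H.sJ⟩
    rw [← mul_pow, neg_one_mul, neg_neg, one_pow]
  uA := tens_unit H.sJ.unit
  sB := H.sJ
  two := H.two
  size := size
  iso := fun y hy => by
    obtain ⟨x, hx, e⟩ := inM_slotM.1 (⟨y, hy, rfl⟩ : InM (slotM i M) (y : Matrix _ _ F))
    rw [iso_iff (by rw [← rI_tensJ, rI, Matrix.det_reindexAlgEquiv]; exact tens_unit H.sJ.unit), ← rI_tensJ,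
      ← e, rI_transpose, ← map_mul, ← map_mul, show tens ι J = wm 1 fun _ => J from rfl, H.iso x hx]
  right := fun w d => by
    obtain ⟨y, hy, e⟩ := H.slot i w d
    exact inM_slotM.2 ⟨y, hy, by rw [e, rI_sl_self]⟩
  lay := hgood.1
  mid := hgood.2

/-- With scalar layers and middle parts the conjugates of the transvections of a factor lie in one factor. -/
theorem SW.split_odd [Finite F] (size : (m = 2 ∧ ∃ r : F, r ≠ 0 ∧ r * r ≠ 1) ∨ 4 ≤ m) (i : ι)
    (hgood : Good J M i) {g : GL (ι → Fin m) F} (hg : g ∈ M) {v : Fin m → F} (hv : v ≠ 0) :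
    (∃ K, rI i ((g : MM) * sl i (H99.TensorS.rk J v v) * ((g⁻¹ : GL (ι → Fin m) F) : MM)) = K ⊗ₖ (1 : mm)) ∨
      ∃ N : mm, rI i ((g : MM) * sl i (H99.TensorS.rk J v v) * ((g⁻¹ : GL (ι → Fin m) F) : MM)) = 1 ⊗ₖ N := by
  have hm : 0 < m := by rcases size with ⟨h, -⟩ | h <;> omega
  haveI : NeZero m := ⟨by omega⟩
  haveI : Nonempty ({j : ι // j ≠ i} → Fin m) := ⟨fun _ => 0⟩
  have S := H.setup size i hgood
  have hgM : InM (slotM i M) (rI i (g : MM)) := inM_slotM.2 ⟨g, hg, rfl⟩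
  have hinv : adj (tens {l : ι // l ≠ i} J ⊗ₖ J) (tens {l : ι // l ≠ i} J ⊗ₖ J) (rI i (g : MM)) =
      rI i ((g⁻¹ : GL (ι → Fin m) F) : MM) := by
    calc _ = adj (tens {l : ι // l ≠ i} J ⊗ₖ J) (tens {l : ι // l ≠ i} J ⊗ₖ J) (rI i (g : MM)) *
        (rI i (g : MM) * rI i ((g⁻¹ : GL (ι → Fin m) F) : MM)) := by
          rw [← map_mul, Units.mul_inv, map_one, Matrix.mul_one]
      _ = _ := by rw [← Matrix.mul_assoc, S.unit hgM, Matrix.one_mul]
  have hroot : IsRoot (tens {l : ι // l ≠ i} J) J (slotM i M)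
      (rI i ((g : MM) * sl i (H99.TensorS.rk J v v) * ((g⁻¹ : GL (ι → Fin m) F) : MM))) := by
    refine ⟨rI i (g : MM), v, hgM, hv, ?_⟩
    rw [map_mul, map_mul, rI_sl_self, hinv]
    rfl
  exact split_sq S.two (S.root_sq hroot) (S.root_pure hroot)

/-- A layer or middle part which is not scalar gives all monomial elements with all parts but one of transvection
type. -/
theorem SW.top_odd (hm : 0 < m) (hev : Even (Fintype.card ι)) {i : ι} (hbad : ¬ Good J M i) :
    (3 ≤ m → ∀ o, Mono J M (Finset.univ.erase o) {o}) ∧ (m ≤ 2 → ∀ o, Mono J M (Finset.univ.erase o) ∅) := by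
  classical
  suffices h : ∃ (Am : mm) (G : Matrix ({l : ι // l ≠ i} → Fin m) ({l : ι // l ≠ i} → Fin m) F),
      (IsN J Am ∨ IsT J Am) ∧ (∀ c : F, G ≠ c • 1) ∧ InM (slotM i M) (1 + G ⊗ₖ Am) by
    obtain ⟨Am, G, hA, hG, hmem⟩ := h
    obtain ⟨y, hy, ey⟩ := inM_slotM.1 hmem
    have hX : Mem M (1 + ((y : MM) - 1)) := ⟨y, hy, by rw [add_sub_cancel]⟩
    rcases H.top_of_bad hA hX hG (by rw [map_sub, map_one, ey, add_sub_cancel_left]) with ⟨-, ho⟩ | ⟨-, h1, h2⟩
    · exact absurd hev (Nat.not_even_iff_odd.2 ho)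
    · exact ⟨h1, h2⟩
  by_contra hno
  push Not at hno
  refine hbad ⟨fun w G hw hG => ?_, fun z η D hz hzη hη hD hmem => ?_⟩
  · by_contra hc
    push Not at hc
    exact hno _ G (Or.inl ⟨w, hw, rfl⟩) hc hG
  · by_contra hD0
    refine hno _ D (Or.inr ⟨η, z, fun h => hη 0 (by rw [h, zero_smul]), fun s hs => ?_, H.sJ.zero_comm.1 hzη, rfl⟩)
      (fun c hc => ?_) ?_
    · by_cases h0 : s = 0
      · exact hz (by rw [hs, h0, zero_smul])
      · exact hη s⁻¹ (by rw [hs, smul_smul, inv_mul_cancel₀ h0, one_smul])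
    · rw [hc, H99.TensorS.adj_smul, H99.TensorS.adj_one (tens_unit H.sJ.unit), ← sub_eq_zero, sub_neg_eq_add,
        ← add_smul] at hD
      have h1 : (1 : Matrix ({l : ι // l ≠ i} → Fin m) ({l : ι // l ≠ i} → Fin m) F) ≠ 0 := fun h => by
        have := congrFun (congrFun h fun _ => ⟨0, hm⟩) fun _ => ⟨0, hm⟩
        simp at this
      have hc0 : c + c = 0 := (smul_eq_zero.1 hD).resolve_right h1
      rw [← two_mul] at hc0
      exact hD0 (by rw [hc, (mul_eq_zero.1 hc0).resolve_left H.two, zero_smul])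
    · rw [H58.Wreath.Sp.el_lft (tens_unit H.sJ.unit), zero_kronecker, add_zero, hD] at hmem
      convert hmem using 1
      rw [wedge, sub_eq_add_neg, kronecker_add, ← neg_one_smul F (H99.TensorS.rk J z η), kronecker_smul,
        ← smul_kronecker, neg_one_smul]
      abel

end Cfsg.Agent.H5.C7
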