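import Cfsg.Agent.H5.C7.OrthOmega
import Cfsg.Agent.H5.C7.OrthOdd
import Cfsg.Agent.H5.C7.Linear
import Cfsg.Agent.H58.Wreath.Transport
import Cfsg.Agent.H98.QuadFun
import Cfsg.Agent.H98.OrthSubMain

/-!
The stabiliser of a decomposition as a tensor power of a symplectic space is maximal in `Ω`.
-/

set_option autoImplicit false
set_option linter.unusedSectionVars false

namespace Cfsg.Agent.H5.C7

open Matrix QuadraticMap Cfsg.Geo
open Cfsg.Agent.H99.Tensor (InM)
open Cfsg.Agent.H99.TensorS (SympMat bf InK)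
open Cfsg.Agent.H58.Wreath.Sp (tens tens_unit tens_transpose sympMat_tens Good)

variable {F : Type*} [Field F] {t m : ℕ} {J : Matrix (Fin m) (Fin m) F}

/-- In standard coordinates. -/
theorem standard_maximal_orth [Finite F] (Qc : QuadraticForm F ((Fin t → Fin m) → F)) (hJ : SympMat J)
    (hpol : ∀ u v, polar Qc u v = bf (tens (Fin t) J) u v) (hpure : ∀ w : Fin t → Fin m → F, Qc (pv w) = 0)
    (ht : 2 ≤ t) (hn : 13 ≤ m ^ t)
    (hcond : ((2 : F) = 0 ∧ 6 ≤ m) ∨
      ((2 : F) ≠ 0 ∧ Even t ∧ ((m = 2 ∧ ∃ r : F, r ≠ 0 ∧ r * r ≠ 1) ∨ 4 ≤ m))) :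
    IsMaximalIn (omegaGL ⇑Qc) (tensorWreathStandard m t F ⊓ omegaGL ⇑Qc) := by
  classical
  have hcard : Fintype.card (Fin t → Fin m) = m ^ t := by simp
  have hm : 2 ≤ m := by
    rcases hcond with ⟨-, h⟩ | ⟨-, -, ⟨h, -⟩ | h⟩ <;> omega
  have ht' : 2 ≤ Fintype.card (Fin t) := by rwa [Fintype.card_fin]
  have ht2 : Fintype.card (Fin t) = 2 → 4 ≤ m := fun h => by
    rw [Fintype.card_fin] at h
    subst h
    by_contra hlt
    have : m ^ 2 ≤ 3 ^ 2 := Nat.pow_le_pow_left (by omega) 2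
    omega
  have hsymA : ∀ i : Fin t, SympMat (tens {l : Fin t // l ≠ i} J) := by
    intro i
    rcases hcond with ⟨h2, -⟩ | ⟨-, hev, -⟩
    · obtain ⟨r, hr⟩ : ∃ r, r ≠ i := Fintype.exists_ne_of_one_lt_card (by omega) i
      haveI : Nonempty {l : Fin t // l ≠ i} := ⟨⟨r, hr⟩⟩
      exact Even.sympMat_tens_two h2 hJ
    · refine sympMat_tens hJ ?_
      rw [Fintype.card_subtype_compl, Fintype.card_subtype_eq, Fintype.card_fin]
      obtain ⟨s, hs⟩ := hev
      exact ⟨s - 1, by omega⟩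
  have hQ : (polarBilin Qc).Nondegenerate := by
    have key : ∀ x, (∀ y, bf (tens (Fin t) J) x y = 0) → x = 0 := by
      intro x hx
      by_contra hx0
      exact (tens_unit (ι := Fin t) hJ.unit).ne_zero ((Matrix.exists_vecMul_eq_zero_iff).1 ⟨x, hx0, funext fun j => by
        have := hx (Pi.single j 1)
        rwa [bf, dotProduct_single_one] at this⟩)
    refine ⟨fun x hx => key x fun y => ?_, fun y hy => key y fun x => ?_⟩
    · have := hx y
      rwa [polarBilin_apply_apply, hpol] at this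
    · have := hy x
      rwa [polarBilin_apply_apply, polar_comm, hpol] at this
  have h5 : 5 ≤ Fintype.card (Fin t → Fin m) := by omega
  set hom := toGLHom Qc (f := ⇑Qc) rfl with hhom
  have hinj : Function.Injective hom := fun g g' h => orth_ext fun x => by
    rw [← toGLHom_mulVec Qc rfl, ← toGLHom_mulVec Qc rfl, ← hhom, h]
  refine isMaximalIn_omegaGL Qc rfl _ ?_ ?_
  · obtain ⟨g, hg, hgw⟩ := exists_omega_not_wreath Qc hJ hQ hpol hpure h5 ht' (by omega) ht2
    exact ⟨g, hg, fun h => hgw (isWreath_of_mem_standard (by omega) h)⟩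
  intro M hM g hgM hg hgS
  set Mg := (M ⊓ commutator (orth Qc)).map hom with hMg
  have hlift : ∀ {X : Matrix (Fin t → Fin m) (Fin t → Fin m) F}, Mem (omegaMat Qc) X → IsWreath X → Mem Mg X := by
    rintro X ⟨y, ⟨k, hk, rfl⟩, rfl⟩ hw
    exact ⟨hom k, ⟨k, ⟨hM k hk (mem_standard_of_isWreath (by omega) hw), hk⟩, rfl⟩, rfl⟩
  have hiso : ∀ y ∈ Mg, (y : Matrix (Fin t → Fin m) (Fin t → Fin m) F)ᵀ * wm 1 (fun _ => J) *
      (y : Matrix (Fin t → Fin m) (Fin t → Fin m) F) = wm 1 fun _ => J := by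
    rintro y ⟨k, -, rfl⟩
    refine Matrix.ext fun i j => ?_
    have := orth_polar k (Pi.single i 1) (Pi.single j 1)
    rw [← toGLHom_mulVec Qc rfl, ← toGLHom_mulVec Qc rfl, hpol, hpol, bf, bf, ← vecMul_transpose, vecMul_vecMul,
      dotProduct_mulVec, vecMul_vecMul, ← hhom, tens] at this
    simpa [dotProduct_single, single_vecMul] using this
  have H : SW0 J Mg :=
    { sJ := hJ
      slot := fun i v d => hlift (omegaMat_trans Qc hJ hQ hpol hpure h5 (hsymA i) v d) ⟨_, _, rfl⟩
      cyc := fun a b c hab hbc hac => hlift (omegaMat_cyc Qc hJ hpol hpure hab hbc hac) ⟨_, _, rfl⟩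
      iso := hiso }
  have hgMg : hom g ∈ Mg := ⟨g, ⟨hgM, hg⟩, rfl⟩
  suffices htop : (3 ≤ m → ∀ o, Mono J Mg (Finset.univ.erase o) {o}) ∧
      (m ≤ 2 → ∀ o, Mono J Mg (Finset.univ.erase o) ∅) by
    intro k hk
    have ht2' : m ≤ 2 → _root_.Even (Fintype.card (Fin t)) ∧ 4 ≤ Fintype.card (Fin t) := fun h => by
      rw [Fintype.card_fin]
      obtain rfl : m = 2 := by omega
      rcases hcond with ⟨-, h'⟩ | ⟨-, hev, -⟩
      · omega
      refine ⟨hev, ?_⟩
      by_contra hlt
      have : 2 ^ t ≤ 2 ^ 3 := Nat.pow_le_pow_right (by norm_num) (by omega)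
      omega
    obtain ⟨k', hk', hkk⟩ := H.commutator_le Qc rfl hQ hpol hpure htop ht' ht2' (by omega) h5 k hk
    exact hinj hkk ▸ hk'.1
  rcases hcond with ⟨h2, h6⟩ | ⟨h2, hev, size⟩
  · refine ⟨fun _ => ?_, fun h => absurd h (by omega)⟩
    have qpolar : ∀ u v, Qc (u + v) = Qc u + Qc v + bf (tens (Fin t) J) u v := fun u v => by
      rw [QuadraticMap.map_add ⇑Qc, hpol]
    have O : ∀ i : Fin t, Even.OvR (tens {l : Fin t // l ≠ i} J) J (fun x => Qc (x ∘ eI i))
        (slotM i Mg) := fun i => Even.ovr H h2 h6 ht' i qpolar hpure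
      (fun c v => by rw [QuadraticMap.map_smul, smul_eq_mul])
      (by rintro y ⟨k, -, rfl⟩ v; rw [hhom, toGLHom_mulVec, orth_map])
    by_cases hsc : ∀ i : Fin t, ∀ C, InK (tens {l : Fin t // l ≠ i} J) J (slotM i Mg) C →
        ∃ c : F, C = c • (1 : Matrix ({l : Fin t // l ≠ i} → Fin m) ({l : Fin t // l ≠ i} → Fin m) F)
    · exact absurd (mem_standard_of_isWreath (by omega) (H.isWreath_of_split hm ht'
        (fun i x hx v hv => Even.split_two H h2 (O i) (hsc i) hx hv) hgMg)) hgS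
    · push Not at hsc
      obtain ⟨i, C, hC, hns⟩ := hsc
      exact Even.top_of_inK H h2 h6 (O i) hC hns
  · have H' : SW J Mg := { toSW0 := H, two := h2 }
    by_cases hgood : ∀ i, Good J Mg i
    · exact absurd (mem_standard_of_isWreath (by omega) (H.isWreath_of_split hm ht'
        (fun i x hx v hv => H'.split_odd size i (hgood i) hx hv) hgMg)) hgS
    · push Not at hgood
      obtain ⟨i, hi⟩ := hgood
      exact H'.top_odd (by omega) (by rwa [Fintype.card_fin]) hi

open Cfsg.Agent.H58.Wreath in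
/-- In any frame. -/
theorem omega_symp_wreath_maximal [Fintype F] {n k : ℕ} (hn : 13 ≤ n) (Q : (Fin n → F) → F)
    (hQ : IsNondegenerateQuadraticForm Q) (ht : 2 ≤ t) (hqt : Odd (Fintype.card F) → _root_.Even t)
    (hex2 : ¬ (Fintype.card F = 3 ∧ k = 2)) (hex3 : ¬ Odd (Fintype.card F) → 6 ≤ k)
    (e : Fin n ≃ (Fin t → Fin k)) (P : GL (Fin n) F) (f₁ : (Fin k → F) → (Fin k → F) → F)
    (hf₁ : IsSymplecticForm f₁) (hT : IsTensorPowerFormStructure id (QuadraticMap.polar Q) f₁ e P)
    (hpure : ∀ xs : Fin t → (Fin k → F),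
      Q ((P : Matrix (Fin n) (Fin n) F) *ᵥ ((fun a : Fin t → Fin k => ∏ i, xs i (a i)) ∘ e)) = 0) :
    IsMaximalIn (omegaGL Q) (tensorWreathSubgroup k t e P ⊓ omegaGL Q) := by
  classical
  obtain ⟨c, hc, hT⟩ := hT
  let L : ((Fin t → Fin k) → F) →ₗ[F] (Fin n → F) :=
    (Matrix.mulVecLin (P : Matrix (Fin n) (Fin n) F)).comp (LinearMap.funLeft F F e)
  have hLapp : ∀ x, L x = (P : Matrix (Fin n) (Fin n) F) *ᵥ (x ∘ e) := fun x => rfl
  set Qc : QuadraticForm F ((Fin t → Fin k) → F) := c⁻¹ • (H98.qOfFun Q hQ).comp L with hQc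
  have hQcv : ∀ x, Qc x = c⁻¹ * Q (L x) := fun x => rfl
  have hJ : SympMat (gramMatrix f₁) := by
    have := H99.TensorS.sympMat_gram hf₁ (one_ne_zero (α := F))
    rwa [one_smul] at this
  have hpol : ∀ u v, polar Qc u v = bf (tens (Fin t) (gramMatrix f₁)) u v := by
    intro u v
    have : polar Qc u v = c⁻¹ * polar Q (L u) (L v) := by
      simp only [polar, hQcv, map_add]
      ring
    rw [this, hLapp, hLapp, hT, ← mul_assoc, inv_mul_cancel₀ hc, one_mul, H99.TensorS.bf_eq_sum]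
    refine Finset.sum_congr rfl fun p _ => Finset.sum_congr rfl fun r _ => ?_
    simp [tens, wm_apply]
  have hnk : k ^ t = n := by simpa using (Fintype.card_congr e).symm
  have hev : _root_.Even k := hJ.even
  have hk2 : 2 ≤ k := by
    obtain ⟨j, hj⟩ := hev
    rcases Nat.eq_zero_or_pos k with rfl | h
    · rw [zero_pow (by omega)] at hnk; omega
    · omega
  have hcond : ((2 : F) = 0 ∧ 6 ≤ k) ∨
      ((2 : F) ≠ 0 ∧ _root_.Even t ∧ ((k = 2 ∧ ∃ r : F, r ≠ 0 ∧ r * r ≠ 1) ∨ 4 ≤ k)) := by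
    by_cases h2 : (2 : F) = 0
    · refine Or.inl ⟨h2, hex3 fun hodd => ?_⟩
      have hp : ringChar F = 2 := CharP.ringChar_of_prime_eq_zero Nat.prime_two (by exact_mod_cast h2)
      exact (Nat.not_even_iff_odd.2 hodd) (Nat.even_iff.2 (FiniteField.even_card_iff_char_two.1 hp))
    · have hodd : Odd (Fintype.card F) := by
        rw [← Nat.not_even_iff_odd, Nat.even_iff]
        intro h
        have hp := FiniteField.even_card_iff_char_two.2 h
        have : CharP F 2 := ringChar.of_eq hp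
        exact h2 (by exact_mod_cast CharP.cast_eq_zero F 2)
      refine Or.inr ⟨h2, hqt hodd, ?_⟩
      obtain ⟨j, hj⟩ := hev
      by_cases hk : k = 2
      · refine Or.inl ⟨hk, ?_⟩
        by_contra hc'
        push Not at hc'
        have hsub : (Finset.univ : Finset F) ⊆ {0, 1, -1} := fun r _ => by
          by_cases hr : r = 0
          · simp [hr]
          · rcases mul_self_eq_one_iff.1 (hc' r hr) with h | h <;> simp [h]
        have := Finset.card_le_card hsub
        rw [Finset.card_univ] at this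
        have h3 : ({0, 1, -1} : Finset F).card ≤ 3 := Finset.card_le_three
        have h1 : 1 < Fintype.card F := Fintype.one_lt_card
        obtain ⟨i, hi⟩ := hodd
        exact hex2 ⟨by omega, hk⟩
      · exact Or.inr (by omega)
  have hmax := standard_maximal_orth Qc hJ hpol (fun w => by
    rw [hQcv, hLapp]
    exact mul_eq_zero_of_right _ (hpure w)) ht (by omega) hcond
  refine isMaximalIn_frame e P (one_mem _) (fun g => ?_) hmax
  rw [map_one, mul_one]
  have hiso : (Cfsg.isometryGroup F ⇑Qc).map (frameHom e P).toMonoidHom = Cfsg.isometryGroup F Q := by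
    have key : ∀ y : GL (Fin t → Fin k) F,
        frameHom e P y ∈ Cfsg.isometryGroup F Q ↔ y ∈ Cfsg.isometryGroup F ⇑Qc := by
      intro y
      rw [mem_isometryGroup, mem_isometryGroup]
      constructor
      · intro h u
        have := h ((P : Matrix (Fin n) (Fin n) F) *ᵥ (u ∘ e))
        rw [frameHom_mulVec] at this
        rw [hQcv, hQcv, hLapp, hLapp, this]
      · intro h v
        obtain ⟨x, rfl⟩ := exists_coords e P v
        have := h x
        rw [hQcv, hQcv, hLapp, hLapp] at this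
        rw [frameHom_mulVec]
        exact mul_left_cancel₀ (inv_ne_zero hc) this
    ext x
    constructor
    · rintro ⟨y, hy, rfl⟩
      exact (key y).2 hy
    · intro hx
      exact ⟨(frameHom e P).symm x, (key _).1 (by rwa [(frameHom e P).apply_symm_apply]),
        (frameHom e P).apply_symm_apply x⟩
  have homega : (omegaGL ⇑Qc).map (frameHom e P).toMonoidHom = omegaGL Q := by
    rw [H98.OSub.omegaGL_eq_commutator, H98.OSub.omegaGL_eq_commutator, Subgroup.map_commutator, hiso]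
  rw [← homega, Subgroup.mem_map]
  constructor
  · rintro ⟨y, hy, hyg⟩
    rwa [← (frameHom e P).injective hyg]
  · exact fun h => ⟨g, h, rfl⟩

end Cfsg.Agent.H5.C7
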