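import Cfsg.Agent.H5.C7.MonoRoot
import Cfsg.Agent.H5.C7.Even.Bad

/-!
The orthogonal group of a tensor power of an alternating form: the factor transvections and the three-cycles of
the factors lie in the commutator group, which is not monomial.
-/

set_option autoImplicit false
set_option linter.unusedSectionVars false

namespace Cfsg.Agent.H5.C7

open Matrix QuadraticMap Cfsg.Agent.H99.Tensor
open Cfsg.Agent.H99.TensorS (SympMat bf adj wedge)
open Cfsg.Agent.H58.Wreath.Sp (tens tens_unit rI_tensJ)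
open scoped Kronecker

variable {F : Type*} [Field F]

/-- The identity is a sum of alternating rank two maps. -/
theorem sum_wedge_one {n : Type} [Fintype n] [DecidableEq n] {T : Matrix n n F} (hT : SympMat T)
    (P : Matrix n n F → Prop) (h0 : P 0) (hadd : ∀ X Y, P X → P Y → P (X + Y))
    (hw : ∀ (p r : n) (c : F), P (wedge T (Pi.single p 1) (c • Pi.single r 1))) : P 1 := by
  classical
  let e := Fintype.equivFin n
  set C := T⁻¹ with hC
  have hskew : ∀ i j, C j i = -C i j := by
    have h : (T⁻¹)ᵀ = -T⁻¹ := by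
      refine left_inv_eq_left_inv (A := Tᵀ) ?_ ?_
      · rw [← transpose_mul, mul_nonsing_inv T hT.unit, transpose_one]
      · rw [hT.skew, Matrix.neg_mul, Matrix.mul_neg, neg_neg, nonsing_inv_mul T hT.unit]
    intro i j
    exact congrFun (congrFun h i) j
  have hdiag : ∀ i, C i i = 0 := by
    intro i
    have := hT.self (Pi.single i 1 ᵥ* C)
    rwa [bf, vecMul_vecMul, hC, nonsing_inv_mul T hT.unit, vecMul_one, single_one_dotProduct,
      single_one_vecMul, ← hC] at this
  set f : n → n → Matrix n n F := fun i j => C i j • H99.TensorS.rk T (Pi.single i 1) (Pi.single j 1) with hf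
  have e1 : (1 : Matrix n n F) = ∑ i, ∑ j, f i j := by
    ext k l
    rw [← nonsing_inv_mul T hT.unit, ← hC, Matrix.mul_apply]
    simp only [hf, Matrix.sum_apply, H99.TensorS.rk, Matrix.smul_apply, vecMulVec_apply, single_one_vecMul,
      smul_eq_mul, Pi.single_apply, ite_mul, one_mul, zero_mul, mul_ite, mul_zero, Finset.sum_ite_irrel,
      Finset.sum_const_zero, Finset.sum_ite_eq, Finset.mem_univ, if_true]
    rfl
  have e2 : ∀ i j, f i j = (if e i < e j then f i j else 0) + (if e j < e i then f i j else 0) := by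
    intro i j
    rcases lt_trichotomy (e i) (e j) with h | h | h
    · simp [h, h.asymm]
    · obtain rfl := e.injective h; simp [hf, hdiag]
    · simp [h, h.asymm]
  have e3 : (1 : Matrix n n F) =
      ∑ i, ∑ j, if e i < e j then wedge T (Pi.single i 1) (C i j • Pi.single j 1) else 0 := by
    rw [e1, Finset.sum_congr rfl fun i _ => Finset.sum_congr rfl fun j _ => e2 i j]
    simp only [Finset.sum_add_distrib]
    conv_lhs => arg 2; rw [Finset.sum_comm]
    rw [← Finset.sum_add_distrib]
    refine Finset.sum_congr rfl fun i _ => ?_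
    rw [← Finset.sum_add_distrib]
    refine Finset.sum_congr rfl fun j _ => ?_
    split_ifs with h
    · simp only [hf, hskew i j]
      rw [H99.TensorS.wedge_smul_right, wedge, neg_smul, smul_sub, sub_eq_add_neg]
    · exact add_zero _
  rw [e3]
  refine Finset.sum_induction _ P hadd h0 fun i _ => Finset.sum_induction _ P hadd h0 fun j _ => ?_
  split_ifs
  · exact hw _ _ _
  · exact h0

variable {ι : Type} [Fintype ι] [DecidableEq ι] {m : ℕ} {J : Matrix (Fin m) (Fin m) F}

local notation "MM" => Matrix (ι → Fin m) (ι → Fin m) F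
local notation "mm" => Matrix (Fin m) (Fin m) F

/-- A rank one matrix seen at one factor. -/
theorem rI_rk (i : ι) (u v : ({l : ι // l ≠ i} → Fin m) × Fin m → F) :
    rI i (H99.TensorS.rk (tens ι J) (u ∘ eI i) (v ∘ eI i)) = H99.TensorS.rk (tens _ J ⊗ₖ J) u v := by
  ext p r
  rw [rI_apply]
  simp only [H99.TensorS.rk, vecMulVec_apply, Function.comp_apply, Equiv.apply_symm_apply]
  congr 1
  simp only [vecMul, dotProduct]
  rw [← Equiv.sum_comp (eI i).symm]
  refine Finset.sum_congr rfl fun q _ => ?_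
  rw [Function.comp_apply, Equiv.apply_symm_apply, ← rI_apply i (tens ι J) q r, rI_tensJ]

/-- The even permutations are products of commutators. -/
theorem cycle_eq (a b c : ι) (hab : a ≠ b) (hbc : b ≠ c) (hac : a ≠ c) :
    let s := Equiv.swap a b
    let r := Equiv.swap b c
    s * r = (s * r * s⁻¹ * r⁻¹) * (s * r * s⁻¹ * r⁻¹) := by
  intro s r
  have h3 : s * r * (s * r) * (s * r) = 1 := by
    have ea : (s * r) a = b := by
      rw [Equiv.Perm.mul_apply, Equiv.swap_apply_of_ne_of_ne hab hac, Equiv.swap_apply_left]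
    have eb : (s * r) b = c := by
      rw [Equiv.Perm.mul_apply, Equiv.swap_apply_left, Equiv.swap_apply_of_ne_of_ne hac.symm hbc.symm]
    have ec : (s * r) c = a := by
      rw [Equiv.Perm.mul_apply, Equiv.swap_apply_right, Equiv.swap_apply_right]
    ext x
    simp only [Equiv.Perm.mul_apply (f := s * r * (s * r)), Equiv.Perm.mul_apply (f := s * r) (g := s * r),
      Equiv.Perm.one_apply]
    by_cases h1 : x = a
    · rw [h1, ea, eb, ec]
    by_cases h2 : x = b
    · rw [h2, eb, ec, ea]
    by_cases h3 : x = c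
    · rw [h3, ec, ea, eb]
    have ex : (s * r) x = x := by
      rw [Equiv.Perm.mul_apply, Equiv.swap_apply_of_ne_of_ne h2 h3, Equiv.swap_apply_of_ne_of_ne h1 h2]
    rw [ex, ex, ex]
  rw [Equiv.swap_inv, Equiv.swap_inv]
  calc s * r = s * r * (s * r * (s * r) * (s * r)) := by rw [h3, mul_one]
    _ = _ := by simp only [s, r, mul_assoc]

section Omega

variable [Finite F] (Qc : QuadraticForm F ((ι → Fin m) → F))

/-- The commutator group as a group of matrices. -/
noncomputable def omegaMat : Subgroup (GL (ι → Fin m) F) :=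
  (commutator (orth Qc)).map (toGLHom Qc (f := ⇑Qc) rfl)

variable (hJ : SympMat J) (hQ : (polarBilin Qc).Nondegenerate)
  (hpol : ∀ u v, polar Qc u v = bf (tens ι J) u v) (hpure : ∀ w : ι → Fin m → F, Qc (pv w) = 0)
  (hn : 5 ≤ Fintype.card (ι → Fin m))
include hJ hQ hpol hpure hn

theorem omegaMat_root {u w : (ι → Fin m) → F} (hu : Qc u = 0) (hw : Qc w = 0) (huw : bf (tens ι J) u w = 0) :
    Mem (omegaMat Qc) (1 + wedge (tens ι J) w u : MM) := by
  haveI : Finite ((ι → Fin m) → F) := Pi.finite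
  refine ⟨toGLHom Qc rfl (eich Qc u w),
    ⟨_, eich_mem_commutator hQ (by rw [Module.finrank_fintype_fun_eq_card]; exact hn) u w, rfl⟩,
    Matrix.ext_of_mulVec_single fun i => ?_⟩
  rw [toGLHom_mulVec, eich_apply hu (by rw [hpol, huw]), hpol, hpol, hw, zero_mul, zero_smul, sub_zero,
    add_mulVec, one_mulVec, wedge, sub_mulVec, H99.TensorS.rk_mulVec, H99.TensorS.rk_mulVec, add_sub_assoc]

/-- The transvections of one factor are in the commutator group. -/
theorem omegaMat_trans {i : ι} (hA : SympMat (tens {l : ι // l ≠ i} J)) (v : Fin m → F) (d : F) :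
    Mem (omegaMat Qc) (sl i (1 + d • H99.TensorS.rk J v v) : MM) := by
  classical
  set TA := tens {l : ι // l ≠ i} J
  let P : Matrix ({l : ι // l ≠ i} → Fin m) ({l : ι // l ≠ i} → Fin m) F → Prop := fun G =>
    InM (slotM i (omegaMat Qc)) (1 + G ⊗ₖ (d • H99.TensorS.rk J v v))
  have hadd : ∀ X Y, P X → P Y → P (X + Y) := by
    intro X Y h h'
    have := h.mul h'
    rwa [Matrix.add_mul, Matrix.one_mul, Matrix.mul_add, Matrix.mul_one, ← mul_kronecker_mul, Matrix.smul_mul,
      Matrix.mul_smul, H99.TensorS.rk_mul, hJ.self, zero_smul, smul_zero, smul_zero, kronecker_zero, add_zero,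
      add_assoc, add_comm (Y ⊗ₖ (d • H99.TensorS.rk J v v)), ← add_kronecker] at this
  have h1 : P 1 := by
    refine sum_wedge_one hA P ?_ hadd fun p r c => ?_
    · show InM _ _
      rw [zero_kronecker, add_zero]
      exact InM.one
    show InM _ _
    set x : ({l : ι // l ≠ i} → Fin m) → F := Pi.single p 1
    set x' : ({l : ι // l ≠ i} → Fin m) → F := Pi.single r 1
    set u := H99.TensorS.pv x' v ∘ eI i with hu
    set w := H99.TensorS.pv x ((c * d) • v) ∘ eI i with hw
    have hQu : Qc u = 0 := by rw [hu, Even.pure_single]; exact hpure _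
    have hQw : Qc w = 0 := by rw [hw, Even.pure_single]; exact hpure _
    have huw : bf (tens ι J) u w = 0 := by
      rw [hu, hw, Even.bf_comp, show (tens ι J).submatrix (eI i).symm (eI i).symm = TA ⊗ₖ J from rI_tensJ i,
        H99.TensorS.bf_pv, H99.TensorS.bf_smul_right, hJ.self, mul_zero, mul_zero]
    obtain ⟨y, hy, ey⟩ := omegaMat_root Qc hJ hQ hpol hpure hn hQu hQw huw
    refine inM_slotM.2 ⟨y, hy, ?_⟩
    rw [ey, map_add, map_one, wedge, map_sub, hu, hw, rI_rk, rI_rk, ← H99.TensorS.rk_kron, ← H99.TensorS.rk_kron,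
      H99.TensorS.rk_smul_left, H99.TensorS.rk_smul_right, wedge, H99.TensorS.rk_smul_left,
      H99.TensorS.rk_smul_right]
    congr 1
    ext a b
    simp [kroneckerMap_apply]
    ring
  obtain ⟨y, hy, ey⟩ := inM_slotM.1 h1
  refine ⟨y, hy, (rI i).injective ?_⟩
  rw [ey, rI_sl_self, kronecker_add, one_kronecker_one]

omit hn hQ in
theorem perm_isometry (σ : Equiv.Perm ι) (v : (ι → Fin m) → F) :
    Qc ((wm σ (fun _ => 1) : MM) *ᵥ v) = Qc v := by
  classical
  set W : MM := wm σ fun _ => 1
  have hb : ∀ u v, polar Qc (W *ᵥ u) (W *ᵥ v) = polar Qc u v := fun u v => by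
    rw [hpol, hpol, bf, bf, ← vecMul_transpose, vecMul_vecMul, dotProduct_mulVec, vecMul_vecMul,
      H58.Wreath.Sp.perm_iso]
  have hs : ∀ g : ι → Fin m, (Pi.single g (1 : F) : (ι → Fin m) → F) = pv fun l => Pi.single (g l) 1 := fun g => by
    funext f
    by_cases h : f = g
    · subst h; simp [pv]
    · obtain ⟨l, hl⟩ := Function.ne_iff.1 h
      rw [Pi.single_eq_of_ne h, eq_comm, pv]
      exact Finset.prod_eq_zero (Finset.mem_univ l) (by rw [Pi.single_eq_of_ne hl])
  have key : ∀ S : Finset (ι → Fin m), Qc (W *ᵥ ∑ g ∈ S, v g • Pi.single g (1 : F)) =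
      Qc (∑ g ∈ S, v g • Pi.single g (1 : F)) := by
    intro S
    induction S using Finset.induction with
    | empty => rw [Finset.sum_empty, mulVec_zero]
    | insert g S hg ih =>
      rw [Finset.sum_insert hg, mulVec_add, QuadraticMap.map_add Qc, QuadraticMap.map_add Qc, hb, ih, mulVec_smul,
        QuadraticMap.map_smul, QuadraticMap.map_smul, hs, wm_pv, hpure, hpure]
  have := key Finset.univ
  rwa [← pi_eq_sum_univ'] at this

omit hn hQ in
/-- The three-cycles of the factors are in the commutator group. -/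
theorem omegaMat_cyc {a b c : ι} (hab : a ≠ b) (hbc : b ≠ c) (hac : a ≠ c) :
    Mem (omegaMat Qc) (wm (Equiv.swap a b * Equiv.swap b c) fun _ => (1 : mm)) := by
  classical
  have lift : ∀ σ : Equiv.Perm ι, ∃ g : orth Qc, (toGLHom Qc (f := ⇑Qc) rfl g : MM) = wm σ⁻¹ fun _ => 1 := by
    intro σ
    set y : GL (ι → Fin m) F := ⟨wm σ⁻¹ (fun _ => 1), wm σ (fun _ => 1),
      by rw [wm_mul, mul_inv_cancel, ← wm_one]; simp, by rw [wm_mul, inv_mul_cancel, ← wm_one]; simp⟩
    refine ⟨isoEquiv Qc rfl ⟨y, mem_isometryGroup.2 fun v => perm_isometry Qc hJ hpol hpure σ⁻¹ v⟩, ?_⟩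
    rw [toGLHom, MonoidHom.comp_apply, MulEquiv.toMonoidHom_eq_coe, MonoidHom.coe_coe, MulEquiv.symm_apply_apply]
    rfl
  choose φ hφ using lift
  have hhom : ∀ σ ρ : Equiv.Perm ι, φ (σ * ρ) = φ σ * φ ρ := fun σ ρ => by
    refine orth_ext fun x => ?_
    rw [orth_mul_apply, ← toGLHom_mulVec Qc rfl, ← toGLHom_mulVec Qc rfl, ← toGLHom_mulVec Qc rfl, hφ, hφ, hφ,
      mulVec_mulVec, wm_mul, _root_.mul_inv_rev]
    simp
  have hinv : ∀ σ : Equiv.Perm ι, φ σ⁻¹ = (φ σ)⁻¹ := fun σ => eq_inv_of_mul_eq_one_left (by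
    rw [← hhom, inv_mul_cancel]
    have := hhom 1 1
    rw [one_mul] at this
    exact left_eq_mul.1 this)
  have hin : ∀ s r : Equiv.Perm ι, φ (s * r * s⁻¹ * r⁻¹) ∈ commutator (orth Qc) := fun s r => by
    rw [hhom, hhom, hhom, hinv, hinv, commutator_def]
    exact Subgroup.commutator_mem_commutator (Subgroup.mem_top _) (Subgroup.mem_top _)
  set π := Equiv.swap a b * Equiv.swap b c
  have hπ : π⁻¹ = Equiv.swap c b * Equiv.swap b a := by
    rw [_root_.mul_inv_rev, Equiv.swap_inv, Equiv.swap_inv, Equiv.swap_comm b c, Equiv.swap_comm a b]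
  refine ⟨toGLHom Qc rfl (φ π⁻¹), ⟨_, ?_, rfl⟩, by rw [hφ, inv_inv]⟩
  rw [hπ, cycle_eq c b a hbc.symm hab.symm hac.symm, hhom]
  exact mul_mem (hin _ _) (hin _ _)

/-- The commutator group is not monomial. -/
theorem exists_omega_not_wreath (ht : 2 ≤ Fintype.card ι) (hm : 0 < m) (ht2 : Fintype.card ι = 2 → 4 ≤ m) :
    ∃ g ∈ commutator (orth Qc), ¬ IsWreath (toGLHom Qc (f := ⇑Qc) rfl g : MM) := by
  classical
  obtain ⟨a, b, hab⟩ := Fintype.exists_pair_of_one_lt_card (show 1 < Fintype.card ι by omega)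
  set e : Fin m → F := Pi.single ⟨0, hm⟩ 1 with he
  have he0 : e ≠ 0 := by simp [he]
  obtain ⟨f, hf⟩ := hJ.exists_one he0
  have hfe : bf J f e = -1 := by rw [hJ.swap e f, hf]
  -- the partner at the second factor
  obtain ⟨h, q₂, heh, hq₂f, hq₂h, hcase⟩ : ∃ h q₂ : Fin m → F, bf J e h = 0 ∧ bf J q₂ f = 0 ∧ bf J q₂ h ≠ 0 ∧
      (bf J h f = 0 ∨ ∃ l, l ≠ a ∧ l ≠ b) := by
    by_cases h2 : Fintype.card ι = 2
    · have := ht2 h2
      obtain ⟨h, h0, hp⟩ := H99.TensorS.exists_perp (J := J) ![e, f] (by simp; omega)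
      have h1 : bf J e h = 0 := hp 0
      have h2' : bf J f h = 0 := hp 1
      obtain ⟨q, -, hqf, hqh⟩ := hJ.sep₁ (z := f) (a := h) fun s hs => by
        rw [hs, H99.TensorS.bf_smul_right, hf, mul_one] at h1
        exact h0 (by rw [hs, h1, zero_smul])
      exact ⟨h, q, h1, hqf, by rw [hqh]; exact one_ne_zero, Or.inl (hJ.zero_comm.1 h2')⟩
    · refine ⟨e, f, hJ.self e, hJ.self f, by rw [hfe]; exact neg_ne_zero.2 one_ne_zero, Or.inr ?_⟩
      have h3 : 0 < ((Finset.univ.erase a).erase b).card := by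
        rw [Finset.card_erase_of_mem (Finset.mem_erase.2 ⟨hab.symm, Finset.mem_univ b⟩),
          Finset.card_erase_of_mem (Finset.mem_univ a), Finset.card_univ]
        omega
      obtain ⟨l, hl⟩ := Finset.card_pos.1 h3
      simp only [Finset.mem_erase] at hl
      exact ⟨l, hl.2.1, hl.1⟩
  set W : ι → Fin m → F := Function.update (Function.update (fun _ => f) a e) b h with hW
  have hWa : W a = e := by simp [hW, hab]
  have hWb : W b = h := by simp [hW]
  have hWl : ∀ l, l ≠ a → l ≠ b → W l = f := fun l h1 h2 => by simp [hW, h1, h2]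
  have huw : bf (tens ι J) (pv fun _ : ι => e) (pv W) = 0 := by
    rw [H58.Wreath.Sp.bf_tens]
    exact Finset.prod_eq_zero (Finset.mem_univ a) (by rw [hWa, hJ.self])
  have hwv : bf (tens ι J) (pv W) (pv fun _ : ι => f) = 0 := by
    rw [H58.Wreath.Sp.bf_tens]
    rcases hcase with h0 | ⟨l, h1, h2⟩
    · exact Finset.prod_eq_zero (Finset.mem_univ b) (by rw [hWb, h0])
    · exact Finset.prod_eq_zero (Finset.mem_univ l) (by rw [hWl l h1 h2, hJ.self])
  obtain ⟨y, ⟨g, hg, rfl⟩, ey⟩ := omegaMat_root Qc hJ hQ hpol hpure hn (hpure _) (hpure W) huw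
  refine ⟨g, hg, ?_⟩
  rintro ⟨π, k, hk⟩
  rw [ey] at hk
  have himg : (1 + wedge (tens ι J) (pv W) (pv fun _ : ι => e) : MM) *ᵥ pv (fun _ : ι => f) =
      pv (fun _ : ι => f) + pv W := by
    rw [add_mulVec, one_mulVec, wedge, sub_mulVec, H99.TensorS.rk_mulVec, H99.TensorS.rk_mulVec, hwv, zero_smul,
      sub_zero, H58.Wreath.Sp.bf_tens]
    simp [hf]
  set y' : ι → Fin m → F := fun j => k j *ᵥ f
  have hy : pv (fun _ : ι => f) + pv W = pv y' := by
    rw [← himg, hk, wm_pv]
  set z := e + f with hz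
  have hzf : bf J z f = 1 := by rw [hz, H99.TensorS.bf_add_left, hJ.self, hf, add_zero]
  set u : (Fin m → F) → (Fin m → F) → ι → Fin m → F :=
    fun p q => Function.update (Function.update (fun _ => z) a p) b q with hu
  set Cst := ∏ i ∈ (Finset.univ.erase b).erase a, bf J z (y' i)
  have hval : ∀ p q x : _, (bf (tens ι J) (pv (u p q)) (pv x)) =
      bf J p (x a) * bf J q (x b) * ∏ i ∈ (Finset.univ.erase b).erase a, bf J z (x i) := by
    intro p q x
    rw [H58.Wreath.Sp.bf_tens, ← Finset.mul_prod_erase _ _ (Finset.mem_univ b),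
      ← Finset.mul_prod_erase _ _ (Finset.mem_erase.2 ⟨hab, Finset.mem_univ a⟩)]
    simp only [hu, Function.update_self, Function.update_of_ne hab]
    rw [mul_left_comm, ← mul_assoc]
    congr 1
    refine Finset.prod_congr rfl fun i hi => ?_
    simp only [Finset.mem_erase] at hi
    rw [Function.update_of_ne hi.2.1, Function.update_of_ne hi.1]
  have hsum : ∀ p q, bf J p (y' a) * bf J q (y' b) * Cst = bf J p f * bf J q f + bf J p e * bf J q h := by
    intro p q
    rw [← hval, ← hy, H99.TensorS.bf_add_right, hval, hval, hWa, hWb, Finset.prod_eq_one, Finset.prod_eq_one,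
      mul_one, mul_one]
    · intro i hi
      simp only [Finset.mem_erase] at hi
      rw [hWl i hi.1 hi.2.1, hzf]
    · exact fun i _ => hzf
  have h1 := hsum e e
  have h2 := hsum f q₂
  have h3 := hsum e q₂
  have h4 := hsum f e
  simp only [hJ.self, hf, hfe, hq₂f, heh, mul_zero, zero_mul, add_zero, zero_add, one_mul] at h1 h2 h3 h4
  have h5 := congrArg₂ (· * ·) h1 h2
  have h6 := congrArg₂ (· * ·) h3 h4
  simp only [mul_zero, one_mul] at h5 h6
  refine hq₂h ?_
  linear_combination h5 - h6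

end Omega

end Cfsg.Agent.H5.C7
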