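import Cfsg.Agent.H5.C7.Tens

/-!
An involutory monomial tensor differing from the identity by a map through one factor fewer
interchanges at most two factors.
-/

set_option autoImplicit false
set_option linter.unusedSectionVars false

namespace Cfsg.Agent.H5.C7

open Matrix

variable {F : Type*} [Field F] {ι : Type} [Fintype ι] [DecidableEq ι] {m : ℕ}

local notation "MM" => Matrix (ι → Fin m) (ι → Fin m) F

/-- A monomial tensor exchanging two pairs of factors without twist is not near the identity. -/
theorem rank_two_swaps (hm : 3 ≤ m) {π : Equiv.Perm ι} {k : ι → Matrix (Fin m) (Fin m) F} {a c : ι}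
    (ha : π (π a) = a) (hc : π (π c) = c) (hac : c ≠ a) (hca : c ≠ π a) (ha' : π a ≠ a) (hc' : π c ≠ c)
    (hka : k a = 1) (hkb : ∃ s : F, k (π a) = s • (1 : Matrix (Fin m) (Fin m) F))
    (hkc : k c = 1) (hkd : ∃ s : F, k (π c) = s • (1 : Matrix (Fin m) (Fin m) F))
    {β : Type} [Fintype β] (hβ : Fintype.card β * m ≤ Fintype.card (ι → Fin m))
    (J : Matrix (ι → Fin m) β F) (K : Matrix β (ι → Fin m) F) (e : (wm π k : MM) - 1 = J * K) : False := by
  classical
  set b := π a with hb
  set d := π c with hd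
  have hab : a ≠ b := Ne.symm ha'
  have hcd : c ≠ d := Ne.symm hc'
  have hadd : a ≠ d := fun h => hca (by rw [hb, h, hd, hc])
  have hbd : b ≠ d := fun h => hac (π.injective h).symm
  -- where the two coordinates exchanged agree
  have hsupp : ∀ f g : ι → Fin m, (wm π k : MM) f g ≠ 0 → f a = g b ∧ f b = g a ∧ f c = g d ∧ f d = g c := by
    intro f g hne
    rw [wm_apply, Finset.prod_ne_zero_iff] at hne
    have h1 : ∀ j, (∃ s : F, k j = s • (1 : Matrix (Fin m) (Fin m) F)) → f j = g (π j) := by
      rintro j ⟨s, hs⟩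
      by_contra hne'
      exact hne j (Finset.mem_univ j) (by rw [hs, Matrix.smul_apply, Matrix.one_apply_ne hne', smul_zero])
    refine ⟨h1 a ⟨1, by rw [hka, one_smul]⟩, ?_, h1 c ⟨1, by rw [hkc, one_smul]⟩, ?_⟩
    · have := h1 b hkb; rwa [hb, ha] at this
    · have := h1 d hkd; rwa [hd, hc] at this
  let x0 : Fin m := ⟨0, by omega⟩
  let x1 : Fin m := ⟨1, by omega⟩
  let x2 : Fin m := ⟨2, by omega⟩
  let p : Fin m → Fin m × Fin m := fun x => if x = x0 then (x1, x2) else (x0, x)
  have hplt : ∀ x, (p x).1 < (p x).2 := by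
    intro x
    simp only [p]
    split_ifs with h
    · simp [x1, x2, Fin.lt_def]
    · have : x.val ≠ 0 := fun h' => h (Fin.ext h')
      simp only [x0, Fin.lt_def]; omega
  have hpinj : Function.Injective p := by
    intro x y hxy
    simp only [p] at hxy
    split_ifs at hxy with h1 h2
    · rw [h1, h2]
    · exact absurd (congrArg Prod.fst hxy) (by simp [x0, x1, Fin.ext_iff])
    · exact absurd (congrArg Prod.fst hxy) (by simp [x0, x1, Fin.ext_iff])
    · exact congrArg Prod.snd hxy
  let Φ : (ι → Fin m) → (ι → Fin m) := fun f => Function.update (Function.update f a (p (f b)).1) b (p (f b)).2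
  set S1 := Finset.univ.image Φ with hS1
  have hcard1 : Fintype.card (ι → Fin m) ≤ S1.card * m := by
    let Ψ : (ι → Fin m) → S1 × Fin m := fun f => (⟨Φ f, Finset.mem_image_of_mem Φ (Finset.mem_univ f)⟩, f a)
    have hinj : Function.Injective Ψ := by
      intro f g hfg
      simp only [Ψ, Prod.mk.injEq, Subtype.mk.injEq] at hfg
      obtain ⟨h1, h2⟩ := hfg
      have hb1 : f b = g b := by
        refine hpinj (Prod.ext ?_ ?_)
        · simpa [Φ, hab] using congrFun h1 a
        · simpa [Φ] using congrFun h1 b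
      funext j
      by_cases hja : j = a
      · rw [hja]; exact h2
      by_cases hjb : j = b
      · rw [hjb]; exact hb1
      simpa [Φ, hja, hjb] using congrFun h1 j
    have := Fintype.card_le_of_injective Ψ hinj
    simpa [Fintype.card_prod] using this
  let f0 : ι → Fin m := Function.update (fun _ => x0) d x1
  have hlt : ∀ f ∈ S1, f a < f b := by
    intro f hf
    obtain ⟨g, -, rfl⟩ := Finset.mem_image.1 hf
    simpa [Φ, hab] using hplt (g b)
  have hf0ab : f0 a = f0 b := by simp [f0, hadd, hbd]
  have hf0cd : f0 c ≠ f0 d := by simp [f0, hcd, x0, x1, Fin.ext_iff]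
  have hf0 : f0 ∉ S1 := fun h => absurd (hlt f0 h) (by rw [hf0ab]; exact lt_irrefl _)
  set S := insert f0 S1
  have hzero : ∀ f ∈ S, ∀ g ∈ S, (wm π k : MM) f g = 0 := by
    intro f hf g hg
    by_contra hne
    obtain ⟨e1, e2, e3, e4⟩ := hsupp f g hne
    rcases Finset.mem_insert.1 hf with rfl | hf' <;> rcases Finset.mem_insert.1 hg with rfl | hg'
    · exact hf0cd e3
    · exact absurd (hlt g hg') (by rw [← e1, ← e2, hf0ab]; exact lt_irrefl _)
    · exact absurd (hlt f hf') (by rw [e1, e2, hf0ab]; exact lt_irrefl _)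
    · have h1 := hlt f hf'
      rw [e1, e2] at h1
      exact lt_asymm h1 (hlt g hg')
  -- the submatrix is minus the identity
  let inc : S → (ι → Fin m) := Subtype.val
  let L : (S → F) →ₗ[F] (β → F) := Matrix.mulVecLin (K.submatrix id inc)
  have hL : Function.Injective L := by
    intro u u' huu
    have hsub : (J.submatrix inc id) * (K.submatrix id inc) = -(1 : Matrix S S F) := by
      rw [← Matrix.submatrix_mul _ _ _ id _ Function.bijective_id, ← e]
      ext s t
      rw [Matrix.submatrix_apply, Matrix.sub_apply, hzero _ s.2 _ t.2, zero_sub, Matrix.neg_apply]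
      congr 1
      by_cases hst : s = t
      · subst hst; rw [Matrix.one_apply_eq, Matrix.one_apply_eq]
      · rw [Matrix.one_apply_ne hst, Matrix.one_apply_ne (fun h => hst (Subtype.ext h))]
    have h1 := congrArg ((J.submatrix inc id) *ᵥ ·) huu
    simp only [L, Matrix.mulVecLin_apply, Matrix.mulVec_mulVec, hsub, Matrix.neg_mulVec, Matrix.one_mulVec,
      neg_inj] at h1
    exact h1
  have h1 := LinearMap.finrank_le_finrank_of_injective hL
  rw [Module.finrank_pi, Module.finrank_pi, Fintype.card_coe] at h1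
  rw [Finset.card_insert_of_notMem hf0] at h1
  have : S1.card * m < Fintype.card β * m := Nat.mul_lt_mul_of_pos_right (by omega) (by omega)
  omega

/-- An involutory monomial tensor near the identity interchanges at most two factors. -/
theorem swap_of_near_one (hm : 3 ≤ m) {π : Equiv.Perm ι} {k : ι → Matrix (Fin m) (Fin m) F}
    (h2 : (wm π k : MM) * wm π k = 1) {β : Type} [Fintype β]
    (hβ : Fintype.card β * m ≤ Fintype.card (ι → Fin m))
    (J : Matrix (ι → Fin m) β F) (K : Matrix β (ι → Fin m) F) (e : (wm π k : MM) - 1 = J * K) :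
    π = 1 ∨ ∃ a b : ι, a ≠ b ∧ π = Equiv.swap a b := by
  classical
  rw [wm_mul] at h2
  obtain ⟨hππ, hkk⟩ := wm_eq_one (by omega) h2
  have hinv : ∀ j, π (π j) = j := fun j => by
    have := congrArg (fun σ : Equiv.Perm ι => σ j) hππ; simpa using this
  by_cases hπ1 : π = 1
  · exact Or.inl hπ1
  obtain ⟨a, ha⟩ : ∃ a, π a ≠ a := by
    by_contra hc; push Not at hc; exact hπ1 (Equiv.ext hc)
  refine Or.inr ⟨a, π a, Ne.symm ha, Equiv.ext fun j => ?_⟩
  by_cases hja : j = a
  · rw [hja, Equiv.swap_apply_left]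
  by_cases hjb : j = π a
  · rw [hjb, Equiv.swap_apply_right, hinv]
  rw [Equiv.swap_apply_of_ne_of_ne hja hjb]
  by_contra hjne
  -- straighten the two exchanged pairs
  have hu : ∀ l, IsUnit (k l).det := fun l => by
    refine wm_factor_unit (π := π) (Y := (wm π k : MM)) ?_ (by omega) l
    rw [wm_mul, hππ, ← wm_one]
    rw [hππ] at h2
    exact h2.trans wm_one.symm
  set T : ι → Matrix (Fin m) (Fin m) F :=
    Function.update (Function.update (fun _ => 1) (π a) (k a)) (π j) (k j) with hT
  have hTu : ∀ l, IsUnit (T l).det := by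
    intro l
    rw [hT]
    by_cases h1 : l = π j
    · rw [h1, Function.update_self]; exact hu j
    rw [Function.update_of_ne h1]
    by_cases h3 : l = π a
    · rw [h3, Function.update_self]; exact hu a
    · rw [Function.update_of_ne h3, Matrix.det_one]; exact isUnit_one
  have hTi : ((wm 1 T : MM)) * wm 1 (fun l => (T l)⁻¹) = 1 := by
    have := wm_mul_inv (1 : Equiv.Perm ι) T (fun l => (T l)⁻¹) (fun l => Matrix.mul_nonsing_inv _ (hTu l))
    simpa using this
  have hconj : (wm π (fun l => T l * k l * (T (π l))⁻¹) : MM) - 1 =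
      ((wm 1 T : MM) * J) * (K * wm 1 (fun l => (T l)⁻¹)) := by
    have e1 : (wm 1 T : MM) * wm π k * wm 1 (fun l => (T l)⁻¹) = wm π fun l => T l * k l * (T (π l))⁻¹ := by
      rw [wm_mul, wm_mul]; simp
    rw [← e1, ← Matrix.mul_assoc, Matrix.mul_assoc _ J K, ← e, Matrix.mul_sub, Matrix.mul_one, Matrix.sub_mul,
      hTi]
  have hja' : π j ≠ π a := π.injective.ne hja
  have hjb' : π j ≠ a := fun h => hjb (by rw [← h, hinv])
  refine rank_two_swaps hm (hinv a) (hinv j) hja hjb ha hjne ?_ ?_ ?_ ?_ hβ _ _ hconj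
  · rw [show T a = 1 by simp [hT, Ne.symm hjb', Ne.symm ha], show T (π a) = k a by simp [hT, Ne.symm hja'],
      Matrix.one_mul, Matrix.mul_nonsing_inv _ (hu a)]
  · obtain ⟨s, hs⟩ := hkk a
    refine ⟨s, ?_⟩
    rw [hinv, show T a = 1 by simp [hT, Ne.symm hjb', Ne.symm ha], show T (π a) = k a by simp [hT, Ne.symm hja'],
      inv_one, Matrix.mul_one]
    exact hs
  · rw [show T j = 1 by simp [hT, Ne.symm hjne, hjb], show T (π j) = k j by simp [hT],
      Matrix.one_mul, Matrix.mul_nonsing_inv _ (hu j)]
  · obtain ⟨s, hs⟩ := hkk j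
    refine ⟨s, ?_⟩
    rw [hinv, show T j = 1 by simp [hT, Ne.symm hjne, hjb], show T (π j) = k j by simp [hT],
      inv_one, Matrix.mul_one]
    exact hs

end Cfsg.Agent.H5.C7
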