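import Cfsg.Agent.H5.C7.Three

/-!
Over the field with two elements: the invariant of a pair of conjugate root groups is nilpotent.
-/

set_option autoImplicit false
set_option linter.unusedSectionVars false

namespace Cfsg.Agent.H5.C7

open Matrix Cfsg.Agent.H99.Tensor
open scoped Kronecker

variable {F : Type*} [Field F] {α : Type} [Fintype α] [DecidableEq α] {b : ℕ}

local notation "Mat" => Matrix (α × Fin b) (α × Fin b) F

/-- The field has two elements. -/
def IsF2 (F : Type*) [Field F] : Prop := ∀ c : F, c ≠ 0 → c = 1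

theorem IsF2.two (hq : IsF2 F) : (2 : F) = 0 := by
  by_contra h
  have := hq 2 h
  exact one_ne_zero (show (1 : F) = 0 by linear_combination this)

theorem IsF2.charP (hq : IsF2 F) : CharP F 2 :=
  CharTwo.of_one_ne_zero_of_two_eq_zero one_ne_zero hq.two

theorem IsF2.cases (hq : IsF2 F) (c : F) : c = 0 ∨ c = 1 := (em (c = 0)).imp id (hq c)

theorem IsF2.smul_self {V : Type*} [AddCommGroup V] [Module F V] (hq : IsF2 F) (x : V) : x + x = 0 := by
  rw [← two_smul F x, hq.two, zero_smul]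

theorem IsF2.kron_one [Nonempty α] [NeZero b] (hq : IsF2 F) {g : Matrix α α F} {h : Matrix (Fin b) (Fin b) F}
    (e : g ⊗ₖ h = (1 : Mat)) : g = 1 ∧ h = 1 := by
  obtain ⟨i0⟩ := ‹Nonempty α›
  let l0 : Fin b := ⟨0, Nat.pos_of_ne_zero (NeZero.ne b)⟩
  have h0 := congrFun (congrFun e (i0, l0)) (i0, l0)
  rw [Matrix.kronecker_apply, Matrix.one_apply_eq] at h0
  have hg := hq _ (left_ne_zero_of_mul_eq_one h0)
  have hh := hq _ (right_ne_zero_of_mul_eq_one h0)
  constructor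
  · ext i j
    have := congrFun (congrFun e (i, l0)) (j, l0)
    rw [Matrix.kronecker_apply, hh, mul_one] at this
    rw [this]; simp [Matrix.one_apply]
  · ext i j
    have := congrFun (congrFun e (i0, i)) (i0, j)
    rw [Matrix.kronecker_apply, hg, one_mul] at this
    rw [this]; simp [Matrix.one_apply]

theorem eq_one_of_odd {G : Type*} [Monoid G] {g : G} {k n : ℕ} (hn : Odd n) (h1 : g ^ n = 1)
    (h2 : g ^ 2 ^ k = 1) : g = 1 := by
  have := pow_gcd_eq_one.2 ⟨h1, h2⟩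
  rwa [Nat.Coprime.gcd_eq_one (Nat.Coprime.pow_right k (Nat.coprime_two_right.2 hn)), pow_one] at this

theorem mem_normal_complement {K : Type*} [Group K] {p : ℕ} (O U : Subgroup K) [O.Normal] (hU : IsPGroup p U)
    (hd : ∀ x ∈ O, x ∈ U → x = 1) (hs : ∀ y : K, ∃ o ∈ O, ∃ u ∈ U, y = o * u) {y : K}
    (hy : (orderOf y).Coprime p) : y ∈ O := by
  obtain ⟨o, ho, u, hu, e⟩ := hs y
  have h1 : QuotientGroup.mk (s := O) y = QuotientGroup.mk u := by
    rw [e, QuotientGroup.mk_mul, (QuotientGroup.eq_one_iff o).2 ho, one_mul]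
  have h2 : u ^ orderOf y ∈ O := by
    rw [← QuotientGroup.eq_one_iff, QuotientGroup.mk_pow, ← h1, ← QuotientGroup.mk_pow,
      QuotientGroup.eq_one_iff, pow_orderOf_eq_one]
    exact O.one_mem
  obtain ⟨k, hk⟩ := hU ⟨u, hu⟩
  have hk' : u ^ p ^ k = 1 := congrArg Subtype.val hk
  have := pow_gcd_eq_one.2 ⟨hd _ h2 (pow_mem hu _), hk'⟩
  rw [Nat.Coprime.gcd_eq_one (Nat.Coprime.pow_right k hy), pow_one] at this
  rw [e, this, mul_one]; exact ho

theorem IsPure.of_right {ψ v : Fin b → F} : IsPure (1 + lft α v * rgt α ψ : Mat) :=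
  ⟨1, 1 + vecMulVec v ψ, one_add_kron v ψ⟩

variable {M : Subgroup (GL (α × Fin b) F)}

namespace Pair

variable (S : Pair M)

/-- An element of `M` moving everything into the sum of the two layers. -/
def V : Subgroup (GL (α × Fin b) F) where
  carrier := {y | y ∈ M ∧ ∃ K1 K2 : Matrix α (α × Fin b) F, (y : Mat) - 1 = lft α S.v * K1 + S.P * K2}
  one_mem' := ⟨M.one_mem, 0, 0, by simp⟩
  mul_mem' {x y} := by
    rintro ⟨hx, K1, K2, e⟩ ⟨hy, L1, L2, e'⟩
    refine ⟨M.mul_mem hx hy, K1 * (y : Mat) + L1, K2 * (y : Mat) + L2, ?_⟩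
    rw [Units.val_mul, show (x : Mat) * (y : Mat) - 1 = ((x : Mat) - 1) * (y : Mat) + ((y : Mat) - 1) by
      rw [sub_mul, one_mul]; abel, e, e']
    simp only [Matrix.add_mul, Matrix.mul_add, Matrix.mul_assoc]
    abel
  inv_mem' {y} := by
    rintro ⟨hy, K1, K2, e⟩
    refine ⟨M.inv_mem hy, -(K1 * ((y⁻¹ : GL (α × Fin b) F) : Mat)), -(K2 * ((y⁻¹ : GL (α × Fin b) F) : Mat)), ?_⟩
    rw [show ((y⁻¹ : GL (α × Fin b) F) : Mat) - 1 = -(((y : Mat) - 1) * ((y⁻¹ : GL (α × Fin b) F) : Mat)) by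
      rw [sub_mul, one_mul, Units.mul_inv, neg_sub], e]
    simp only [Matrix.add_mul, Matrix.mul_neg, Matrix.mul_assoc, neg_add]

/-- The kernel of the contraction `C` maps into the first layer. -/
def Hyp : Prop := ∀ K2 : Matrix α α F, S.C * K2 = 0 → ∃ K3 : Matrix α α F, S.P * K2 = lft α S.v * K3

/-- The elements of the root group at `v`. -/
def IsTv (y : Mat) : Prop := ∃ ψ : Fin b → F, ψ ⬝ᵥ S.v = 0 ∧ y = 1 + lft α S.v * rgt α ψ

variable [Nonempty α]

/-- Elements of the span centralising the root are in the root group at `v`. -/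
theorem V_centralizer (hq : IsF2 F) (H : RF M) (hgood : Good M) (hH : S.Hyp) {y : GL (α × Fin b) F}
    (hy : y ∈ S.V) (hA : (y : Mat) * S.A = S.A * (y : Mat)) : S.IsTv (y : Mat) := by
  obtain ⟨hyM, L1, L2, he⟩ := hy
  obtain ⟨k, h, μ, ν, -, -, hμ, hν, hye, hmv, hφh⟩ :=
    H.pure_of_comm hgood S.v_ne S.φ_ne ⟨y, hyM, rfl⟩ (Units.mul_inv y) (c := 1) one_ne_zero (by rw [one_smul]; exact hA)
  rw [hq μ hμ, one_smul] at hmv
  rw [hq ν hν, one_smul] at hφh
  -- the contraction with a functional at `v`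
  have key : ∀ u : Fin b → F, ∀ ψ : Fin b → F, ψ ⬝ᵥ S.v = 0 → (S.φ ⬝ᵥ u) • (k - 1) = 0 →
      (ψ ⬝ᵥ (h *ᵥ u)) • k = (ψ ⬝ᵥ u) • (1 : Matrix α α F) := by
    intro u ψ hψ hk
    have hu : ((y : Mat) - 1) * lft α u = lft α (h *ᵥ u) * k - lft α u := by
      rw [Matrix.sub_mul, hye, kron_lft, Matrix.one_mul]
    rw [he, Matrix.add_mul, Matrix.mul_assoc, Matrix.mul_assoc] at hu
    have hC : S.C * (L2 * lft α u) = 0 := by
      have h1 := congrArg (rgt α S.φ * ·) hu
      simp only [Matrix.mul_add, Matrix.mul_sub, ← Matrix.mul_assoc, rgt_mul_lft, S.φv, zero_smul, Matrix.zero_mul,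
        zero_add, Matrix.smul_mul, Matrix.one_mul] at h1
      rw [dotProduct_mulVec, hφh, ← smul_sub, hk] at h1
      rw [C, ← Matrix.mul_assoc]; exact h1
    obtain ⟨K3, hK3⟩ := hH _ hC
    rw [hK3] at hu
    have h1 := congrArg (rgt α ψ * ·) hu
    simp only [Matrix.mul_add, Matrix.mul_sub, ← Matrix.mul_assoc, rgt_mul_lft, hψ, zero_smul, Matrix.zero_mul,
      add_zero, Matrix.smul_mul, Matrix.one_mul] at h1
    exact sub_eq_zero.1 h1.symm
  have hb : 3 ≤ Fintype.card (Fin b) := by rw [Fintype.card_fin]; exact H.three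
  obtain ⟨z, hz⟩ := exists_dual' S.φ_ne
  have hk1 : k = 1 := by
    obtain ⟨ψ, hψ, hψv, hψz⟩ := exists_annihilator (F := F) hb S.v z
    have hne : ψ - (ψ ⬝ᵥ z) • S.φ ≠ 0 := by rw [hψz, zero_smul, sub_zero]; exact hψ
    obtain ⟨u', hu'⟩ := exists_dual' hne
    set u := u' - (S.φ ⬝ᵥ u') • z with hu
    have hu1 : S.φ ⬝ᵥ u = 0 := by rw [hu, dotProduct_sub, dotProduct_smul, hz, smul_eq_mul, mul_one, sub_self]
    have hu2 : ψ ⬝ᵥ u = 1 := by
      rw [hψz, zero_smul, sub_zero] at hu'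
      rw [hu, dotProduct_sub, dotProduct_smul, hψz, smul_zero, sub_zero, hu']
    have h1 := key u ψ hψv (by rw [hu1, zero_smul])
    rw [hu2, one_smul] at h1
    have h2 : ψ ⬝ᵥ (h *ᵥ u) ≠ 0 := fun h0 => by rw [h0, zero_smul] at h1; exact zero_ne_one h1
    rwa [hq _ h2, one_smul] at h1
  obtain ⟨η0, hη0⟩ := exists_dual S.v_ne
  refine ⟨η0 ᵥ* h - η0, ?_, ?_⟩
  · rw [sub_dotProduct, ← dotProduct_mulVec, hmv, sub_self]
  · rw [hye, hk1, one_add_kron]
    congr 1
    refine Matrix.ext_iff_mulVec.2 fun u => ?_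
    rw [Matrix.add_mulVec, Matrix.one_mulVec, Matrix.vecMulVec_mulVec, sub_dotProduct, ← dotProduct_mulVec]
    refine dotProduct_eq _ _ fun w => ?_
    rw [dotProduct_comm, dotProduct_comm _ w]
    have h1 := key u (w - (w ⬝ᵥ S.v) • η0)
      (by rw [sub_dotProduct, smul_dotProduct, hη0, smul_eq_mul, mul_one, sub_self])
      (by rw [hk1, sub_self, smul_zero])
    rw [hk1] at h1
    have := smul_left_injective F (one_ne_zero (α := Matrix α α F)) h1
    rw [sub_dotProduct, sub_dotProduct, smul_dotProduct, smul_dotProduct, smul_eq_mul, smul_eq_mul] at this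
    simp only [dotProduct_add, op_smul_eq_smul, dotProduct_smul, smul_eq_mul]
    linear_combination this

variable [Finite F]

/-- The pair generates with a product of odd order. -/
structure Odd2 (E : GL (α × Fin b) F) : Prop where
  hyp : S.Hyp
  val : (E : Mat) = (1 + S.B) * (1 + S.A)
  ne : E ≠ 1
  odd : Odd (orderOf E)

theorem odd2_units (hq : IsF2 F) (hodd : b = 3 → Odd (Fintype.card α)) (H : RF M) (hgood : Good M)
    {y0 : GL (α × Fin b) F} (hS : S.Odd2 y0) :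
    IsUnit S.C.det ∧ ∃ ψ : Fin b → F, ψ ≠ 0 ∧ ψ ⬝ᵥ S.v = 0 ∧ ¬ IsUnit (rgt α ψ * S.P).det := by
  classical
  have : Fintype F := Fintype.ofFinite F
  have := H.neZero
  have := hq.charP
  have : Fact (Nat.Prime 2) := ⟨Nat.prime_two⟩
  have hb : 3 ≤ Fintype.card (Fin b) := by rw [Fintype.card_fin]; exact H.three
  have hBnp : ¬ IsPure (1 + S.B) := by
    intro hp
    obtain ⟨K, hK⟩ := H.pure_root hgood S.w_ne S.η_ne S.ηw S.mem S.inv S.np hp
    change S.B = _ at hK
    have hc : S.B * S.A = S.A * S.B := by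
      rw [hK, A, lft_mul_rgt, ← Matrix.mul_kronecker_mul, ← Matrix.mul_kronecker_mul, Matrix.one_mul, Matrix.one_mul,
        Matrix.mul_one, Matrix.mul_one]
    refine hS.ne (eq_one_of_odd (k := 1) hS.odd (pow_orderOf_eq_one _) (Units.ext ?_))
    rw [Units.val_pow_eq_pow_val, hS.val, pow_one, pow_two, Units.val_one]
    have e : (1 + S.B) * (1 + S.A) * ((1 + S.B) * (1 + S.A)) = ((1 + S.B) * (1 + S.B)) * ((1 + S.A) * (1 + S.A)) := by
      have hc' : Commute (1 + S.A) (1 + S.B) :=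
        ((Commute.one_right _).add_right ((Commute.one_left _).add_left hc.symm))
      rw [mul_assoc, ← mul_assoc (1 + S.A), hc'.eq, mul_assoc (1 + S.B) (1 + S.A), ← mul_assoc, ← mul_assoc]
    rw [e]
    simp only [mul_add, add_mul, one_mul, mul_one, S.A_sq, S.B_sq, add_zero, add_assoc, hq.smul_self]
  -- the root group at `v`
  let tv : (ψ : Fin b → F) → ψ ⬝ᵥ S.v = 0 → GL (α × Fin b) F := fun ψ h =>
    ⟨1 + lft α S.v * rgt α ψ, 1 + lft α S.v * rgt α ψ, by
      rw [mul_add, mul_one, add_mul, one_mul, Matrix.mul_assoc, ← Matrix.mul_assoc (rgt α ψ), rgt_mul_lft, h, zero_smul,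
        Matrix.zero_mul, Matrix.mul_zero, add_zero, add_assoc, hq.smul_self, add_zero], by
      rw [mul_add, mul_one, add_mul, one_mul, Matrix.mul_assoc, ← Matrix.mul_assoc (rgt α ψ), rgt_mul_lft, h, zero_smul,
        Matrix.zero_mul, Matrix.mul_zero, add_zero, add_assoc, hq.smul_self, add_zero]⟩
  have htvV : ∀ ψ h, tv ψ h ∈ S.V := fun ψ h =>
    ⟨mem_of_inM (H.root h), rgt α ψ, 0, by simp [tv]⟩
  have htvmul : ∀ ψ ψ' h h', tv ψ h * tv ψ' h' = tv (ψ + ψ') (by rw [add_dotProduct, h, h', add_zero]) := by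
    intro ψ ψ' h h'
    refine Units.ext ?_
    simp only [tv, Units.val_mul]
    rw [mul_add, mul_one, add_mul, one_mul, Matrix.mul_assoc, ← Matrix.mul_assoc (rgt α ψ), rgt_mul_lft, h, zero_smul,
      Matrix.zero_mul, Matrix.mul_zero, add_zero, rgt_add, Matrix.mul_add, add_assoc]
  let T0 : Subgroup (GL (α × Fin b) F) :=
    { carrier := {y | ∃ ψ h, tv ψ h = y}
      one_mem' := ⟨0, zero_dotProduct _, Units.ext (by simp [tv, rgt_zero])⟩
      mul_mem' := by rintro _ _ ⟨ψ, h, rfl⟩ ⟨ψ', h', rfl⟩; exact ⟨ψ + ψ', by rw [add_dotProduct, h, h', add_zero], (htvmul ψ ψ' h h').symm⟩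
      inv_mem' := by rintro _ ⟨ψ, h, rfl⟩; exact ⟨ψ, h, Units.ext rfl⟩ }
  have hT0V : T0 ≤ S.V := by rintro _ ⟨ψ, h, rfl⟩; exact htvV ψ h
  set R := tv S.φ S.φv with hR
  have hTvmem : ∀ y : GL (α × Fin b) F, S.IsTv (y : Mat) → y ∈ T0 := by
    rintro y ⟨ψ, h, e⟩; exact ⟨ψ, h, Units.ext e.symm⟩
  have hcent : ∀ y ∈ S.V, y * R = R * y → y ∈ T0 := by
    intro y hy e
    refine hTvmem y (S.V_centralizer hq H hgood hS.hyp hy ?_)
    have := congrArg (fun z : GL (α × Fin b) F => (z : Mat)) e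
    simpa [hR, tv, A, mul_add, add_mul] using this
  -- suppose the root group is its own normaliser
  by_cases hN : ∀ y ∈ S.V, (∀ u ∈ T0, y * u * y⁻¹ ∈ T0) → y ∈ T0
  · exfalso
    have hUp : IsPGroup 2 (T0.subgroupOf S.V) := by
      rintro ⟨⟨u, hu⟩, hu'⟩
      obtain ⟨ψ, h, rfl⟩ := Subgroup.mem_subgroupOf.1 hu'
      refine ⟨1, Subtype.ext (Subtype.ext ?_)⟩
      simp only [pow_one, SubmonoidClass.coe_pow, Subgroup.coe_one]
      rw [pow_two]
      exact Units.ext (tv ψ h).val_inv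
    have hTc : ∀ a ∈ T0, ∀ c ∈ T0, a * c = c * a := by
      rintro _ ⟨ψ, h, rfl⟩ _ ⟨ψ', h', rfl⟩
      rw [htvmul ψ ψ' h h', htvmul ψ' ψ h' h]; exact Units.ext (by simp [tv, add_comm])
    obtain ⟨O, hOn, hOp, hOU, hOdisj, -⟩ := selfnormalizing_complement (p := 2) (T0.subgroupOf S.V) hUp
      (fun a ha c hc => Subtype.ext (hTc _ (Subgroup.mem_subgroupOf.1 ha) _ (Subgroup.mem_subgroupOf.1 hc)))
      (fun y hy => Subgroup.mem_subgroupOf.2 (hN y y.2 fun u hu => by
        have := Subgroup.mem_subgroupOf.1 (hy ⟨u, hT0V hu⟩ (Subgroup.mem_subgroupOf.2 hu))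
        simpa using this))
    have hOodd : ∀ o ∈ O, Odd (orderOf (o : GL (α × Fin b) F)) := by
      intro o ho
      rw [Subgroup.orderOf_coe, Nat.odd_iff]
      by_contra hne
      refine hOp ((Nat.dvd_of_mod_eq_zero (by omega) : 2 ∣ orderOf o).trans ?_)
      rw [← Subgroup.orderOf_mk o ho]
      exact orderOf_dvd_natCard _
    set r : S.V := ⟨R, htvV S.φ S.φv⟩ with hr
    have hrr : r * r = 1 := Subtype.ext (Units.ext R.val_inv)
    have hrinv : r⁻¹ = r := inv_eq_of_mul_eq_one_right hrr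
    have hfix : ∀ o ∈ O, o * r = r * o → o = 1 := fun o ho e =>
      hOdisj o ho (Subgroup.mem_subgroupOf.2 (hcent _ o.2 (congrArg Subtype.val e)))
    have hconjr : ∀ o ∈ O, r * o * r ∈ O := fun o ho => by
      have := hOn.conj_mem o ho r; rwa [hrinv] at this
    have hinvert : ∀ o ∈ O, r * o * r = o⁻¹ := by
      intro o ho
      let f : O → O := fun z => ⟨(z : S.V)⁻¹ * (r * z * r), mul_mem (inv_mem z.2) (hconjr z z.2)⟩
      have hf : Function.Injective f := by
        intro z z' h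
        have h' : (z : S.V)⁻¹ * (r * z * r) = (z' : S.V)⁻¹ * (r * z' * r) := congrArg Subtype.val h
        have h'' : ((z' : S.V) * (z : S.V)⁻¹) * r = r * ((z' : S.V) * (z : S.V)⁻¹) := by
          have := congrArg (fun t => (z' : S.V) * t * r * (z : S.V)⁻¹) h'
          simpa [mul_assoc, hrr] using this
        have := hfix _ (mul_mem z'.2 (inv_mem z.2)) h''
        exact Subtype.ext (mul_inv_eq_one.1 this).symm
      obtain ⟨z, hz⟩ := (Finite.injective_iff_surjective.1 hf) ⟨o, ho⟩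
      have hz' : (z : S.V)⁻¹ * (r * z * r) = o := congrArg Subtype.val hz
      rw [← hz']
      simp [mul_assoc, hrr, hrinv]
    have hy0V : y0 ∈ S.V := by
      refine ⟨mem_of_inM ?_, rgt α S.φ, S.Q * (1 + S.A), ?_⟩
      · rw [hS.val]
        exact InM.mul (by simpa using S.inM_B H 1) (by simpa using S.inM_A H 1)
      · rw [hS.val, ← Matrix.mul_assoc, ← B]
        change _ = S.A + _
        rw [add_mul, one_mul]; abel
    have hy0O : (⟨y0, hy0V⟩ : S.V) ∈ O := by
      have := hOn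
      refine mem_normal_complement O _ hUp hOdisj hOU ?_
      rw [Subgroup.orderOf_mk]
      exact Nat.coprime_two_right.2 hS.odd
    obtain ⟨ψ, hψ0, hψv, hψz⟩ :=
      exists_annihilator (F := F) hb S.v (exists_dual' S.φ_ne).choose
    have hψφ : ψ ≠ S.φ := by
      intro h; rw [h, (exists_dual' S.φ_ne).choose_spec] at hψz; exact one_ne_zero hψz
    set r2 : S.V := ⟨tv ψ hψv, htvV ψ hψv⟩ with hr2
    have hr22 : r2 * r2 = 1 := Subtype.ext (Units.ext (tv ψ hψv).val_inv)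
    have hrc : r * r2 = r2 * r := Subtype.ext (hTc (tv S.φ S.φv) ⟨_, S.φv, rfl⟩ (tv ψ hψv) ⟨_, hψv, rfl⟩)
    set y : S.V := ⟨y0, hy0V⟩
    by_cases hyc : y * r2 = r2 * y
    · refine hBnp ?_
      have e1 : (1 + S.B) * (lft α S.v * rgt α ψ) = lft α S.v * rgt α ψ * (1 + S.B) := by
        have e2 := congrArg (fun t => t * r) hyc
        simp only [mul_assoc, ← hrc] at e2
        simp only [← mul_assoc] at e2
        have e3 := congrArg (fun t : S.V => ((t : GL (α × Fin b) F) : Mat)) e2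
        simp only [Subgroup.coe_mul, Units.val_mul, y, hr, hr2, hS.val, hR, tv] at e3
        change (1 + S.B) * (1 + S.A) * (1 + S.A) * _ = _ * ((1 + S.B) * (1 + S.A)) * (1 + S.A) at e3
        have hAA : (1 + S.A) * (1 + S.A) = 1 := by
          rw [mul_add, mul_one, add_mul, one_mul, S.A_sq, add_zero, add_assoc, hq.smul_self, add_zero]
        simp only [mul_assoc] at e3
        rw [← mul_assoc (1 + S.A) (1 + S.A), hAA, one_mul, mul_one, mul_add, mul_one,
          add_mul (1 : Mat) (lft α S.v * rgt α ψ), one_mul] at e3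
        exact add_left_cancel e3
      obtain ⟨k, hm, _, _, -, -, -, -, e, -, -⟩ :=
        H.pure_of_comm hgood S.v_ne hψ0 (by simpa using S.inM_B H 1) (X' := 1 - S.B)
          (by rw [mul_sub, mul_one, add_mul, one_mul, S.B_sq]; simp) (c := 1) one_ne_zero
          (by rw [one_smul]; exact e1)
      exact ⟨k, hm, e⟩
    set ω := y⁻¹ * r2 * y * r2 with hω
    have hωO : ω ∈ O := by
      have := hOn.conj_mem y hy0O r2
      rw [inv_eq_of_mul_eq_one_right hr22] at this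
      have := mul_mem (inv_mem hy0O) this
      simpa [hω, mul_assoc] using this
    have hω1 : ω ≠ 1 := by
      intro h
      refine hyc ?_
      have := congrArg (fun t => y * t * r2) h
      simp only [hω, mul_assoc, hr22, mul_one, mul_inv_cancel_left] at this
      exact this.symm
    have h2ω : r2 * ω * r2 = ω⁻¹ := by
      rw [hω]; simp [mul_assoc, hr22, inv_eq_of_mul_eq_one_right hr22]
    have hω3 : ω * (r * r2) = (r * r2) * ω := by
      have h3 : r * (r2 * ω * r2) * r = ω := by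
        rw [h2ω, hinvert _ (inv_mem hωO), inv_inv]
      calc ω * (r * r2) = r * (r2 * ω * r2) * r * (r * r2) := by rw [h3]
        _ = r * r2 * ω * (r2 * (r * r) * r2) := by simp only [mul_assoc]
        _ = _ := by rw [hrr, mul_one, hr22, mul_one]
    have hsum : (S.φ + ψ) ≠ 0 := by
      intro h
      refine hψφ ?_
      rw [eq_neg_of_add_eq_zero_right h, ← neg_one_smul F S.φ, hq _ (neg_ne_zero.2 one_ne_zero), one_smul]
    obtain ⟨k, h, μ, ν, -, -, hμ, -, hωe, hmv, -⟩ :=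
      H.pure_of_comm hgood S.v_ne hsum ⟨(ω : GL (α × Fin b) F), ω.2.1, rfl⟩ (Units.mul_inv _) (c := 1) one_ne_zero (by
        have := congrArg (fun t : S.V => ((t : GL (α × Fin b) F) : Mat)) hω3
        simp only [Subgroup.coe_mul] at this
        rw [show (r : GL (α × Fin b) F) * (r2 : GL (α × Fin b) F) = tv (S.φ + ψ) (by rw [add_dotProduct, S.φv, hψv, add_zero]) from htvmul S.φ ψ S.φv hψv] at this
        simp only [Units.val_mul, tv, mul_add, mul_one, add_mul, one_mul, add_right_inj] at this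
        rw [one_smul]; exact this)
    rw [hq μ hμ, one_smul] at hmv
    set t := (1 : Matrix (Fin b) (Fin b) F) + vecMulVec S.v S.φ with ht
    have hri : ω * (r * ω * r) = 1 := by rw [hinvert ω hωO, mul_inv_cancel]
    have hm := congrArg (fun t : S.V => ((t : GL (α × Fin b) F) : Mat)) hri
    simp only [Subgroup.coe_mul, Units.val_mul, hωe, hr, hR, tv, one_add_kron, ← ht, Subgroup.coe_one, Units.val_one,
      ← Matrix.mul_kronecker_mul, Matrix.one_mul, Matrix.mul_one] at hm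
    obtain ⟨hk2, hh2⟩ := hq.kron_one hm
    set n := orderOf (ω : GL (α × Fin b) F) with hn
    have hnodd : Odd n := hOodd ω hωO
    have hkn : k ^ n = 1 ∧ h ^ n = 1 := by
      refine hq.kron_one ?_
      have : ∀ j, (k ⊗ₖ h : Mat) ^ j = (k ^ j) ⊗ₖ (h ^ j) := by
        intro j
        induction j with
        | zero => simp
        | succ j ih => rw [pow_succ, ih, pow_succ, pow_succ, Matrix.mul_kronecker_mul]
      rw [← this, ← hωe, ← Units.val_pow_eq_pow_val, hn, pow_orderOf_eq_one, Units.val_one]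
    have hk1 : k = 1 := eq_one_of_odd (k := 1) hnodd hkn.1 (by rw [pow_one, pow_two]; exact hk2)
    have hh4 : h ^ 4 = 1 := by
      have hsp : ∀ u, ∃ c : F, (h * h) *ᵥ u = u + c • S.v := by
        intro u
        refine ⟨S.φ ⬝ᵥ (h *ᵥ u) + S.φ ⬝ᵥ u, ?_⟩
        have e := congrArg (· *ᵥ u) hh2
        simp only [← Matrix.mulVec_mulVec, Matrix.one_mulVec, ht, Matrix.add_mulVec, Matrix.vecMulVec_mulVec,
          op_smul_eq_smul, Matrix.mulVec_add, Matrix.mulVec_smul, hmv, dotProduct_add, dotProduct_smul, S.φv,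
          smul_zero, zero_smul, add_zero] at e
        rw [← Matrix.mulVec_mulVec]
        rw [add_assoc, ← add_smul] at e
        calc h *ᵥ (h *ᵥ u)
            = h *ᵥ (h *ᵥ u) + (S.φ ⬝ᵥ (h *ᵥ u) + S.φ ⬝ᵥ u) • S.v + (S.φ ⬝ᵥ (h *ᵥ u) + S.φ ⬝ᵥ u) • S.v := by
              rw [add_assoc, hq.smul_self, add_zero]
          _ = _ := by rw [e]
      refine Matrix.ext_iff_mulVec.2 fun u => ?_
      obtain ⟨c, hc⟩ := hsp u
      rw [show h ^ 4 = (h * h) * (h * h) by simp [pow_succ, mul_assoc], ← Matrix.mulVec_mulVec, hc, Matrix.mulVec_add,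
        Matrix.mulVec_smul, hc, ← Matrix.mulVec_mulVec S.v h h, hmv, hmv, Matrix.one_mulVec, add_assoc, hq.smul_self,
        add_zero]
    have hh1 : h = 1 := eq_one_of_odd (k := 2) hnodd hkn.2 hh4
    refine hω1 (Subtype.ext (Units.ext ?_))
    rw [hωe, hk1, hh1, Matrix.one_kronecker_one]; rfl
  push Not at hN
  obtain ⟨y, hyV, hyN, hyT⟩ := hN
  obtain ⟨hyM, L1, L2, he⟩ := id hyV
  -- it is a pure tensor fixing `v` but moving `φ`
  obtain ⟨ψ1, h1, e1⟩ := hyN R ⟨S.φ, S.φv, rfl⟩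
  have eA : (y : Mat) * S.A = lft α S.v * rgt α ψ1 * (y : Mat) := by
    have e2 : y * R = tv ψ1 h1 * y := by rw [e1]; group
    have := congrArg (fun z : GL (α × Fin b) F => (z : Mat)) e2
    simpa [hR, tv, A, mul_add, add_mul] using this
  obtain ⟨u0, hu0⟩ := exists_dual' S.φ_ne
  set h0 := rgt α ψ1 * (y : Mat) * lft α u0 with hh0
  have hyv : (y : Mat) * lft α S.v = lft α S.v * h0 := by
    have := congrArg (· * lft α u0) eA
    simp only [A, Matrix.mul_assoc, rgt_mul_lft, hu0, one_smul, Matrix.mul_one] at this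
    rw [this, hh0]; simp only [Matrix.mul_assoc]
  have h0u : ∃ h0', h0 * h0' = 1 := by
    obtain ⟨η, hη⟩ := exists_dual S.v_ne
    refine ⟨rgt α η * ((y⁻¹ : GL (α × Fin b) F) : Mat) * lft α S.v, mul_eq_one_comm.1 ?_⟩
    rw [Matrix.mul_assoc, ← hyv, Matrix.mul_assoc (rgt α η), ← Matrix.mul_assoc _ (y : Mat), Units.inv_mul,
      Matrix.one_mul, rgt_mul_lft, hη, one_smul]
  obtain ⟨h0', h0h⟩ := h0u
  obtain ⟨k, h, hye⟩ := H.pure_of_fix hgood S.v_ne ⟨y, hyM, rfl⟩ (Units.mul_inv y) hyv h0h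
  obtain ⟨hk, hh⟩ := kron_factors_ne (Units.mul_inv y) hye
  have hk0 : k ≠ 0 := fun h0 => by simp [h0] at hk
  have hmv : h *ᵥ S.v = S.v := by
    obtain ⟨μ, hμ⟩ := exists_eq_smul_of_lft_mul (α := α) (u := h *ᵥ S.v) (v := S.v) (h := h0) hk0
      (by rw [← kron_lft, ← hye, hyv])
    rcases hq.cases μ with rfl | rfl
    · rw [zero_smul] at hμ
      exact absurd (by simpa [Matrix.nonsing_inv_mul h hh] using congrArg (h⁻¹ *ᵥ ·) hμ) S.v_ne
    · rwa [one_smul] at hμ
  set φ' := S.φ ᵥ* h with hφ'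
  have hφ'v : φ' ⬝ᵥ S.v = 0 := by rw [hφ', ← dotProduct_mulVec, hmv, S.φv]
  have hφ'0 : φ' ≠ 0 := by
    intro h0
    exact S.φ_ne (by simpa [hφ', Matrix.mul_nonsing_inv h hh] using congrArg (· ᵥ* h⁻¹) h0)
  have hφφ' : φ' ≠ S.φ := by
    intro hφh
    refine hyT (hcent y hyV ?_)
    refine Units.ext ?_
    simp only [Units.val_mul, hR, tv, one_add_kron, hye, ← Matrix.mul_kronecker_mul, Matrix.one_mul, Matrix.mul_one]
    congr 1
    rw [Matrix.mul_add, Matrix.add_mul, Matrix.mul_one, Matrix.one_mul, Matrix.mul_vecMulVec, Matrix.vecMulVec_mul,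
      hmv, ← hφ', hφh]
  obtain ⟨u2, hu2, hu2'⟩ : ∃ u2, S.φ ⬝ᵥ u2 = 0 ∧ φ' ⬝ᵥ u2 = 1 := by
    have hne : φ' - (φ' ⬝ᵥ u0) • S.φ ≠ 0 := by
      rcases hq.cases (φ' ⬝ᵥ u0) with e | e <;> rw [e]
      · rwa [zero_smul, sub_zero]
      · rw [one_smul]; exact sub_ne_zero.2 hφφ'
    obtain ⟨u', hu'⟩ := exists_dual' hne
    refine ⟨u' - (S.φ ⬝ᵥ u') • u0, by rw [dotProduct_sub, dotProduct_smul, hu0, smul_eq_mul, mul_one, sub_self], ?_⟩
    rw [sub_dotProduct, smul_dotProduct, smul_eq_mul] at hu'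
    rw [dotProduct_sub, dotProduct_smul, smul_eq_mul]
    linear_combination hu'
  have hM : ∀ u, (φ' ⬝ᵥ u) • k - (S.φ ⬝ᵥ u) • (1 : Matrix α α F) = S.C * (L2 * lft α u) ∧
      ∀ ψ, ψ ⬝ᵥ S.v = 0 → (ψ ⬝ᵥ (h *ᵥ u)) • k - (ψ ⬝ᵥ u) • (1 : Matrix α α F) = rgt α ψ * S.P * (L2 * lft α u) := by
    intro u
    have hu : ((y : Mat) - 1) * lft α u = lft α (h *ᵥ u) * k - lft α u := by
      rw [Matrix.sub_mul, hye, kron_lft, Matrix.one_mul]
    rw [he, Matrix.add_mul, Matrix.mul_assoc, Matrix.mul_assoc] at hu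
    have hg : ∀ ψ, ψ ⬝ᵥ S.v = 0 →
        (ψ ⬝ᵥ (h *ᵥ u)) • k - (ψ ⬝ᵥ u) • (1 : Matrix α α F) = rgt α ψ * S.P * (L2 * lft α u) := by
      intro ψ hψ
      have e := congrArg (rgt α ψ * ·) hu
      simp only [Matrix.mul_add, Matrix.mul_sub, ← Matrix.mul_assoc, rgt_mul_lft, hψ, zero_smul, Matrix.zero_mul,
        zero_add, Matrix.smul_mul, Matrix.one_mul] at e
      rw [← e, Matrix.mul_assoc]
    refine ⟨?_, hg⟩
    rw [C, ← hg S.φ S.φv, hφ', ← dotProduct_mulVec]
  have hC : IsUnit S.C.det := by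
    have e := (hM u2).1
    rw [hu2, hu2', one_smul, zero_smul, sub_zero] at e
    have e' := congrArg Matrix.det e
    rw [Matrix.det_mul] at e'
    exact isUnit_of_mul_isUnit_left (e' ▸ hk)
  refine ⟨hC, ?_⟩
  -- the contraction with a second functional is determined
  have hG : ∀ ψ, ψ ⬝ᵥ S.v = 0 → ∀ u, (ψ ⬝ᵥ (h *ᵥ u)) • k - (ψ ⬝ᵥ u) • (1 : Matrix α α F) =
      rgt α ψ * S.P * S.C⁻¹ * ((φ' ⬝ᵥ u) • k - (S.φ ⬝ᵥ u) • (1 : Matrix α α F)) := by
    intro ψ hψ u
    rw [(hM u).1, Matrix.mul_assoc _ S.C⁻¹, ← Matrix.mul_assoc S.C⁻¹, Matrix.nonsing_inv_mul _ hC, Matrix.one_mul]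
    exact (hM u).2 ψ hψ
  by_cases hk1 : k = 1
  · exfalso
    have hexψ : ∃ ψ, ψ ≠ 0 ∧ ψ ⬝ᵥ S.v = 0 ∧ ψ ⬝ᵥ (h *ᵥ u2 - u2) = 0 := exists_annihilator hb _ _
    obtain ⟨ψ, hψ, hψv, hψu⟩ := hexψ
    refine S.P_ne H hgood hψ ?_
    have e := hG ψ hψv u2
    rw [hu2, hu2', hk1, ← sub_smul, one_smul, zero_smul, sub_zero, Matrix.mul_one, ← dotProduct_sub, hψu,
      zero_smul] at e
    have := congrArg (· * S.C) e
    simpa [Matrix.mul_assoc, Matrix.nonsing_inv_mul _ hC] using this.symm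
  -- the common kernel of the two functionals is the line of `v`
  have hspan : ∀ z, S.φ ⬝ᵥ z = 0 → φ' ⬝ᵥ z = 0 → ∃ c : F, z = c • S.v := by
    intro z hz1 hz2
    by_contra hc
    push Not at hc
    obtain ⟨ψ, hψv, hψz⟩ : ∃ ψ, ψ ⬝ᵥ S.v = 0 ∧ ψ ⬝ᵥ z = 1 := by
      obtain ⟨η0, hη0⟩ := exists_dual S.v_ne
      have hne : z - (η0 ⬝ᵥ z) • S.v ≠ 0 := sub_ne_zero.2 (hc _)
      obtain ⟨η1, hη1⟩ := exists_dual hne
      refine ⟨η1 - (η1 ⬝ᵥ S.v) • η0, by rw [sub_dotProduct, smul_dotProduct, hη0, smul_eq_mul, mul_one, sub_self], ?_⟩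
      rw [dotProduct_sub, dotProduct_smul, smul_eq_mul] at hη1
      rw [sub_dotProduct, smul_dotProduct, smul_eq_mul]
      linear_combination hη1
    have e := hG ψ hψv z
    rw [hz1, hz2, hψz, zero_smul, zero_smul, sub_zero, Matrix.mul_zero, one_smul, sub_eq_zero] at e
    rcases hq.cases (ψ ⬝ᵥ (h *ᵥ z)) with e' | e' <;> rw [e'] at e
    · rw [zero_smul] at e; exact zero_ne_one e
    · rw [one_smul] at e; exact hk1 e
  have hb3 : b = 3 := by
    by_contra hne
    have : 4 ≤ b := by have := H.three; omega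
    obtain ⟨η0, hη0⟩ := exists_dual S.v_ne
    let f : (Fin b → F) →ₗ[F] F × F × F :=
      { toFun := fun z => (S.φ ⬝ᵥ z, φ' ⬝ᵥ z, η0 ⬝ᵥ z)
        map_add' := fun a c => by simp [dotProduct_add]
        map_smul' := fun c a => by simp [dotProduct_smul] }
    have hker : LinearMap.ker f ≠ ⊥ := LinearMap.ker_ne_bot_of_finrank_lt (by simp; omega)
    obtain ⟨z, hz, hz0⟩ := Submodule.exists_mem_ne_zero_of_ne_bot hker
    obtain ⟨c, rfl⟩ := hspan z (congrArg Prod.fst hz) (congrArg (fun p => p.2.1) hz)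
    have h3 : η0 ⬝ᵥ (c • S.v) = 0 := congrArg (fun p => p.2.2) hz
    rw [dotProduct_smul, hη0, smul_eq_mul, mul_one] at h3
    exact hz0 (by rw [h3, zero_smul])
  obtain ⟨u1, hu1, hu1'⟩ : ∃ u1, S.φ ⬝ᵥ u1 = 1 ∧ φ' ⬝ᵥ u1 = 0 :=
    ⟨u0 - (φ' ⬝ᵥ u0) • u2, by rw [dotProduct_sub, dotProduct_smul, hu2, hu0, smul_zero, sub_zero],
      by rw [dotProduct_sub, dotProduct_smul, hu2', smul_eq_mul, mul_one, sub_self]⟩
  set ε := φ' ⬝ᵥ (h *ᵥ u1) with hε
  set δ := φ' ⬝ᵥ (h *ᵥ u2) with hδ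
  set Γ := rgt α φ' * S.P * S.C⁻¹ with hΓ
  have g2 : δ • k - 1 = Γ * k := by
    have e := hG φ' hφ'v u2
    rw [hu2, hu2', one_smul, one_smul, zero_smul, sub_zero, ← hΓ, ← hδ] at e
    exact e
  have g1 : ε • k = -Γ := by
    have e := hG φ' hφ'v u1
    rw [hu1, hu1', one_smul, zero_smul, zero_smul, zero_sub, sub_zero, ← hΓ, Matrix.mul_neg, Matrix.mul_one,
      ← hε] at e
    exact e
  have hneg : ∀ X : Matrix α α F, -X = X := fun X => neg_eq_of_add_eq_zero_left (hq.smul_self X)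
  rw [hneg] at g1
  rw [← g1] at g2
  rcases hq.cases ε with e | e <;> rw [e] at g1 g2
  · rw [zero_smul, Matrix.zero_mul, sub_eq_zero] at g2
    rcases hq.cases δ with d | d <;> rw [d] at g2
    · rw [zero_smul] at g2; exact absurd g2 zero_ne_one
    · rw [one_smul] at g2; exact absurd g2 hk1
  rw [one_smul] at g1 g2
  rcases hq.cases δ with d | d <;> rw [d] at g2
  · rw [zero_smul, zero_sub, hneg] at g2
    refine ⟨S.φ + φ', ?_, by rw [add_dotProduct, S.φv, hφ'v, add_zero], ?_⟩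
    · intro h0
      refine hφφ' ?_
      rw [eq_neg_of_add_eq_zero_right h0, ← neg_one_smul F S.φ, hq _ (neg_ne_zero.2 one_ne_zero), one_smul]
    intro hu
    have hC0 : rgt α φ' * S.P = k * S.C := by
      rw [g1, hΓ, Matrix.mul_assoc, Matrix.nonsing_inv_mul _ hC, Matrix.mul_one]
    have e' : rgt α (S.φ + φ') * S.P = (1 + k) * S.C := by
      rw [rgt_add, Matrix.add_mul, hC0, Matrix.add_mul, Matrix.one_mul, C]
    rw [e', Matrix.det_mul] at hu
    have h1k : (1 + k) * (1 + k) = 0 := by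
      rw [mul_add, mul_one, add_mul, one_mul, ← g2]
      abel_nf
      have h2 : (2 : Matrix α α F) = 0 := one_add_one_eq_two.symm.trans (hq.smul_self 1)
      simp [h2]
    have := congrArg Matrix.det h1k
    rw [Matrix.det_mul, Matrix.det_zero] at this
    exact (isUnit_of_mul_isUnit_left hu).ne_zero (mul_self_eq_zero.1 this)
  · exfalso
    rw [one_smul] at g2
    have htr := congrArg Matrix.trace g2
    rw [Matrix.trace_sub, Matrix.trace_one, ← pow_two] at htr
    have hcard : Fintype.card F = 2 := by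
      rw [Fintype.card, show (Finset.univ : Finset F) = {0, 1} by
        ext c; rcases hq.cases c with rfl | rfl <;> simp, Finset.card_pair zero_ne_one]
    have hfr := FiniteField.trace_pow_card k
    rw [hcard] at hfr
    rw [hfr] at htr
    have ha : (Fintype.card α : F) = 0 := by
      rcases hq.cases k.trace with t0 | t0 <;> rw [t0] at htr <;> linear_combination -htr
    rw [CharP.cast_eq_zero_iff F 2] at ha
    exact Nat.not_even_iff_odd.2 (hodd hb3) (even_iff_two_dvd.2 ha)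

/-- A pair obtained from an element of odd order. -/
def ofConj (o : GL (α × Fin b) F) (hoM : o ∈ M) (ho : ¬ IsPure (o : Mat)) : Pair M where
  v := S.v
  φ := S.φ
  w := S.v
  η := S.φ
  X := o
  X' := ((o⁻¹ : GL (α × Fin b) F) : Mat)
  v_ne := S.v_ne
  φ_ne := S.φ_ne
  φv := S.φv
  w_ne := S.v_ne
  η_ne := S.φ_ne
  ηw := S.φv
  mem := ⟨o, hoM, rfl⟩
  inv := Units.mul_inv o
  np := ho

theorem ofConj_B (o : GL (α × Fin b) F) (hoM : o ∈ M) (ho : ¬ IsPure (o : Mat)) :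
    (S.ofConj o hoM ho).B = (o : Mat) * S.A * ((o⁻¹ : GL (α × Fin b) F) : Mat) := by
  show (o : Mat) * lft α S.v * (rgt α S.φ * ((o⁻¹ : GL (α × Fin b) F) : Mat)) = _
  rw [A]; simp only [Matrix.mul_assoc]

theorem exists_odd (hq : IsF2 F) (H : RF M) (hgood : Good M) (hx : ¬ IsNilpotent S.x) :
    ∃ (N : ℕ) (o : GL (α × Fin b) F) (hoM : o ∈ M) (ho : ¬ IsPure (o : Mat)) (hoi : ¬ IsPure ((o⁻¹ : GL (α × Fin b) F) : Mat)),
      0 < N ∧ ((o : Mat) * S.A * ((o⁻¹ : GL (α × Fin b) F) : Mat) - S.A) * (1 - S.T ^ N) = 0 ∧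
      (∃ y1, (S.ofConj o hoM ho).Odd2 y1) ∧ ∃ y2, (S.ofConj o⁻¹ (M.inv_mem hoM) hoi).Odd2 y2 := by
  classical
  have := H.neZero
  have := hq.charP
  have : Fact (Nat.Prime 2) := ⟨Nat.prime_two⟩
  obtain ⟨N, hN, hid⟩ := exists_pow_idem S.T
  obtain ⟨O, hO1, hOcop, hOconj, hOfix, hOall, -⟩ := S.complement 2 H hgood hN hid
  obtain ⟨o, ho, ho1⟩ : ∃ o ∈ O, o ≠ 1 := by
    by_contra hc; push Not at hc
    exact hx (S.nilpotent_of_trivial 2 H fun y hy hcop => hc y (hOall y hy hcop))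
  set R := S.Ru 1 with hR
  have hRR : R * R = 1 := by
    rw [hR, S.Ru_mul, show (1 : F) + 1 = 0 by rw [← hq.two]; norm_num, S.Ru_zero]
  have hRi : R⁻¹ = R := inv_eq_of_mul_eq_one_right hRR
  have hconjr : ∀ z ∈ O, R * z * R ∈ O := fun z hz => by have := hOconj z hz 1; rwa [← hR, hRi] at this
  have hinvert : ∀ z ∈ O, R * z * R = z⁻¹ := by
    intro z hz
    let f : O → O := fun w => ⟨(w : GL (α × Fin b) F)⁻¹ * (R * w * R), mul_mem (inv_mem w.2) (hconjr w w.2)⟩
    have hf : Function.Injective f := by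
      intro w w' h
      have h' : (w : GL (α × Fin b) F)⁻¹ * (R * w * R) = (w' : GL (α × Fin b) F)⁻¹ * (R * w' * R) :=
        congrArg Subtype.val h
      have h'' : ((w' : GL (α × Fin b) F) * (w : GL (α × Fin b) F)⁻¹) * R =
          R * ((w' : GL (α × Fin b) F) * (w : GL (α × Fin b) F)⁻¹) := by
        have := congrArg (fun t => (w' : GL (α × Fin b) F) * t * R * (w : GL (α × Fin b) F)⁻¹) h'
        simpa [mul_assoc, hRR] using this
      exact Subtype.ext (mul_inv_eq_one.1 (hOfix _ (mul_mem w'.2 (inv_mem w.2)) 1 one_ne_zero h'')).symm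
    obtain ⟨w, hw⟩ := (Finite.injective_iff_surjective.1 hf) ⟨z, hz⟩
    rw [← show (w : GL (α × Fin b) F)⁻¹ * (R * w * R) = z from congrArg Subtype.val hw]
    simp [mul_assoc, hRR, hRi]
  have hsq : ∀ z ∈ O, z * R * z⁻¹ * R = z * z := by
    intro z hz
    have : R * z⁻¹ * R = z := by rw [hinvert _ (inv_mem hz), inv_inv]
    calc z * R * z⁻¹ * R = z * (R * z⁻¹ * R) := by group
      _ = _ := by rw [this]
  have hoddord : ∀ z ∈ O, Odd (orderOf z) := fun z hz => Nat.coprime_two_right.1 (hOcop z hz)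
  have hzz : ∀ z ∈ O, z ≠ 1 → z * z ≠ 1 := fun z hz hz1 h =>
    hz1 (eq_one_of_odd (k := 1) (hoddord z hz) (pow_orderOf_eq_one _) (by rw [pow_one, pow_two, h]))
  -- such elements are not pure
  have hnp : ∀ z ∈ O, z ≠ 1 → ¬ IsPure (z : Mat) := by
    intro z hz hz1 hp
    obtain ⟨g, h, e⟩ := hp
    obtain ⟨hg, hh⟩ := kron_factors_ne (Units.mul_inv z) e
    have ezi : ((z⁻¹ : GL (α × Fin b) F) : Mat) = g⁻¹ ⊗ₖ h⁻¹ := by
      refine left_inv_eq_right_inv (Units.inv_mul z) ?_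
      rw [e, ← Matrix.mul_kronecker_mul, Matrix.mul_nonsing_inv g hg, Matrix.mul_nonsing_inv h hh,
        Matrix.one_kronecker_one]
    set t := (1 : Matrix (Fin b) (Fin b) F) + vecMulVec S.v S.φ
    have hRv : (R : Mat) = (1 : Matrix α α F) ⊗ₖ t := by
      rw [hR, S.Ru_val, one_smul, A, one_add_kron]
    set h' := h * t * h⁻¹ * t with hh'
    have hy : ((z * z : GL (α × Fin b) F) : Mat) = (1 : Matrix α α F) ⊗ₖ h' := by
      rw [← hsq z hz, Units.val_mul, Units.val_mul, Units.val_mul, hRv, e, ezi, ← Matrix.mul_kronecker_mul,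
        ← Matrix.mul_kronecker_mul, ← Matrix.mul_kronecker_mul, Matrix.mul_one, Matrix.mul_one,
        Matrix.mul_nonsing_inv g hg]
    have hzz1 := hO1 (mul_mem hz hz)
    have hspan := S.single hN hid H hgood (h := h') (hy ▸ hzz1.2) (hy ▸ S.commE hzz1.1 N)
    obtain ⟨η0, hη0⟩ := exists_dual S.v_ne
    have hN' : h' = 1 + vecMulVec S.v (η0 ᵥ* (h' - 1)) := by
      refine Matrix.ext_iff_mulVec.2 fun u => ?_
      obtain ⟨d, hd⟩ := hspan u
      rw [Matrix.add_mulVec, Matrix.one_mulVec, Matrix.vecMulVec_mulVec, ← dotProduct_mulVec, Matrix.sub_mulVec,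
        Matrix.one_mulVec, hd, dotProduct_smul, hη0, smul_eq_mul, mul_one, op_smul_eq_smul, ← hd]
      abel
    have hsq' : h' * h' = 1 := by
      obtain ⟨-, hu'⟩ := kron_factors_ne (Units.mul_inv (z * z)) hy
      set ψ := η0 ᵥ* (h' - 1)
      rcases hq.cases (ψ ⬝ᵥ S.v) with e0 | e0
      · rw [hN', mul_add, mul_one, add_mul, one_mul, vecMulVec_mul_vecMulVec, e0, zero_smul, vecMulVec_zero,
          add_zero, add_assoc, hq.smul_self, add_zero]
      · have h2 : h' * h' = h' := by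
          conv_lhs => rw [hN', mul_add, mul_one, add_mul, one_mul, vecMulVec_mul_vecMulVec, e0, one_smul]
          rw [hq.smul_self, add_zero, ← hN']
        have : h' = 1 := by
          have := congrArg (h'⁻¹ * ·) h2
          simpa [← Matrix.mul_assoc, Matrix.nonsing_inv_mul h' hu'] using this
        rw [this, one_mul]
    refine hzz z hz hz1 (eq_one_of_odd (k := 1) (hoddord _ (mul_mem hz hz)) (pow_orderOf_eq_one _) ?_)
    refine Units.ext ?_
    rw [pow_one, pow_two, Units.val_mul, hy, ← Matrix.mul_kronecker_mul, Matrix.one_mul, hsq',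
      Matrix.one_kronecker_one, Units.val_one]
  have hoi1 : o⁻¹ ≠ 1 := by simpa using ho1
  have hmake : ∀ z (hz : z ∈ O) (hz1 : z ≠ 1),
      (S.ofConj z (hO1 hz).1.1 (hnp z hz hz1)).Odd2 (z * z) := by
    intro z hz hz1
    set S' := S.ofConj z (hO1 hz).1.1 (hnp z hz hz1) with hS'
    have hB : S'.B = (z : Mat) * S.A * ((z⁻¹ : GL (α × Fin b) F) : Mat) := S.ofConj_B _ _ _
    have hA' : S'.A = S.A := rfl
    have hval : ((z * z : GL (α × Fin b) F) : Mat) = (1 + S'.B) * (1 + S'.A) := by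
      rw [← hsq z hz, Units.val_mul, Units.val_mul, Units.val_mul, hR, S.Ru_val, one_smul, hB, hA', mul_add (z : Mat),
        mul_one, add_mul, Units.mul_inv]
    refine ⟨?_, hval, hzz z hz hz1, hoddord _ (mul_mem hz hz)⟩
    obtain ⟨N', hN', hid'⟩ := exists_pow_idem S'.T
    have htriv : (((z * z : GL (α × Fin b) F) : Mat) - 1) * (1 - S'.T ^ N') = 0 := by
      refine Sh.triv_of_pow (F := F) S'.A_sq S'.B_sq 2 hN' hid' ?_
        (n := orderOf (z * z)) (by rw [← Units.val_pow_eq_pow_val, pow_orderOf_eq_one, Units.val_one])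
        (hOcop _ (mul_mem hz hz))
      rw [hval]
      exact Sh.mul S'.A_sq S'.B_sq (by simpa using (Sh.right (A := S'.A) (B := S'.B) (1 : F)))
        (by simpa using (Sh.left (A := S'.A) (B := S'.B) (1 : F)))
    set e' := 1 - S'.T ^ N'
    have hexp : ((z * z : GL (α × Fin b) F) : Mat) - 1 = S'.B + S'.A + S'.B * S'.A := by
      rw [hval]; noncomm_ring
    rw [hexp] at htriv
    have t1 : (S'.B * S'.A) * e' = 0 := by
      have h1 := congrArg (S'.B * ·) htriv
      simp only [← mul_assoc, mul_add, S'.B_sq, zero_mul, zero_add, add_zero, mul_zero] at h1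
      exact h1
    have t2 : S'.B * e' = S'.A * e' := by
      rw [add_mul, t1, add_zero, add_mul] at htriv
      rw [eq_neg_of_add_eq_zero_left htriv, ← neg_one_smul F, hq _ (neg_ne_zero.2 one_ne_zero), one_smul]
    intro K2 hK2
    obtain ⟨u0, hu0⟩ := exists_dual' S.φ_ne
    have hP : S'.P = S'.B * ((z : Mat) * lft α u0) := by
      rw [hB, Matrix.mul_assoc, ← Matrix.mul_assoc _ (z : Mat), Units.inv_mul, Matrix.one_mul, A, Matrix.mul_assoc,
        Matrix.mul_assoc, rgt_mul_lft, hu0, one_smul, Matrix.mul_one]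
      rfl
    have hc : Commute e' S'.B := (Commute.one_left _).sub_left ((Th_comm_right S'.B_sq).pow_left N')
    have h1 : e' * (S'.P * K2) = lft α S'.v * (rgt α S'.φ * (e' * ((z : Mat) * lft α u0 * K2))) := by
      rw [hP, Matrix.mul_assoc S'.B, ← Matrix.mul_assoc e', hc.eq, t2, A]
      simp only [Matrix.mul_assoc]
    have h2 : S'.A * (S'.T ^ (N' - 1) * (S'.P * K2)) = 0 := by
      have hc' : Commute (S'.T ^ (N' - 1)) S'.A := (Th_comm_left S'.A_sq).pow_left _
      rw [← Matrix.mul_assoc, ← hc'.eq, Matrix.mul_assoc, A,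
        Matrix.mul_assoc (lft α S'.v), ← Matrix.mul_assoc (rgt α S'.φ), ← C, hK2, Matrix.mul_zero, Matrix.mul_zero]
    refine ⟨rgt α S'.φ * (e' * ((z : Mat) * lft α u0 * K2)) +
      rgt α S'.φ * S'.B * (S'.T ^ (N' - 1) * (S'.P * K2)), ?_⟩
    rw [Matrix.mul_add, ← h1]
    have h3 := S'.e_split hN' hid' (S'.P * K2)
    rw [Matrix.mul_assoc S'.Q, h2, Matrix.mul_zero, Matrix.mul_zero, add_zero] at h3
    rw [← h3, Matrix.sub_mul, Matrix.one_mul, sub_add_cancel]
  refine ⟨N, o, (hO1 ho).1.1, hnp o ho ho1, hnp _ (inv_mem ho) hoi1, hN, ?_, ⟨_, hmake o ho ho1⟩,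
    ⟨_, hmake o⁻¹ (inv_mem ho) hoi1⟩⟩
  have hz := hO1 (mul_mem ho ho)
  have hRG : R ∈ S.G := S.Ru_mem_G H 1
  have e1 : o * R * o⁻¹ = o * o * R := by
    rw [← hsq o ho]; simp [mul_assoc, hRR]
  have e2 : (o : Mat) * S.A * ((o⁻¹ : GL (α × Fin b) F) : Mat) - S.A = (((o * o : GL (α × Fin b) F) : Mat) - 1) * (R : Mat) := by
    rw [sub_mul, one_mul, ← Units.val_mul, ← e1, Units.val_mul, Units.val_mul, hR, S.Ru_val, one_smul, mul_add (o : Mat),
      mul_one, add_mul, Units.mul_inv]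
    abel
  have hcR : Commute (R : Mat) (1 - S.T ^ N) := (Commute.one_right _).sub_right (S.commE hRG N).symm
  rw [e2, mul_assoc, hcR.eq, ← mul_assoc, hz.2, zero_mul]

/-- An invariant that is not invertible is nilpotent. -/
theorem nilpotent_of_singular (hq : IsF2 F) (hodd : b = 3 → Odd (Fintype.card α)) (H : RF M) (hgood : Good M)
    (hx : ¬ IsUnit S.x.det) : IsNilpotent S.x := by
  by_contra hnil
  obtain ⟨N, o, hoM, ho, hoi, hN, hd, -, y2, h2⟩ := S.exists_odd hq H hgood hnil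
  obtain ⟨hC, -⟩ := (S.ofConj o⁻¹ (M.inv_mem hoM) hoi).odd2_units hq hodd H hgood h2
  change IsUnit (rgt α S.φ * (((o⁻¹ : GL (α × Fin b) F) : Mat) * lft α S.v)).det at hC
  set D' := rgt α S.φ * (((o⁻¹ : GL (α × Fin b) F) : Mat) * lft α S.v) with hD'
  set W := (1 : Matrix α α F) - S.x ^ N with hW
  have h1 : (1 - S.T ^ N) * lft α S.v = lft α S.v * W := by
    rw [Matrix.sub_mul, Matrix.one_mul, S.Tpow_v, hW, Matrix.mul_sub, Matrix.mul_one]
  have h3 : ((o : Mat) * lft α S.v) * (D' * W) = 0 := by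
    have := congrArg (· * lft α S.v) hd
    simp only [Matrix.mul_assoc, h1, Matrix.sub_mul, Matrix.zero_mul] at this
    rw [← Matrix.mul_assoc S.A (lft α S.v), S.A_v, Matrix.zero_mul, sub_zero] at this
    rw [hD']
    simpa only [A, Matrix.mul_assoc] using this
  have h4 : D' * W = 0 := by
    refine lft_injective S.v_ne ?_
    have := congrArg (((o⁻¹ : GL (α × Fin b) F) : Mat) * ·) h3
    simpa [← Matrix.mul_assoc] using this
  have h5 : W = 0 := by
    have := congrArg (D'⁻¹ * ·) h4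
    simpa [← Matrix.mul_assoc, Matrix.nonsing_inv_mul _ hC] using this
  refine hx ?_
  have h6 := congrArg Matrix.det (sub_eq_zero.1 h5)
  rw [Matrix.det_one, Matrix.det_pow] at h6
  exact IsUnit.of_pow_eq_one h6.symm (by omega)

/-- Over the field with two elements the invariant is nilpotent. -/
theorem nilpotent_of_two (hq : IsF2 F) (hodd : b = 3 → Odd (Fintype.card α)) (H : RF M) (hgood : Good M) :
    IsNilpotent S.x := by
  classical
  by_contra hnil
  have := H.neZero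
  have := hq.charP
  have : Fact (Nat.Prime 2) := ⟨Nat.prime_two⟩
  obtain ⟨N, o, hoM, ho, hoi, -, -, ⟨y1, h1⟩, y2, h2⟩ := S.exists_odd hq H hgood hnil
  set S1 := S.ofConj o hoM ho with hS1
  obtain ⟨hC1, ψ0, hψ0, hψ0v, hC0⟩ := S1.odd2_units hq hodd H hgood h1
  obtain ⟨hC2, -⟩ := (S.ofConj o⁻¹ (M.inv_mem hoM) hoi).odd2_units hq hodd H hgood h2
  have hD1 : IsUnit S1.D.det := by
    convert hC2 using 2
    show rgt α S.φ * ((o⁻¹ : GL (α × Fin b) F) : Mat) * lft α S.v = _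
    rw [Matrix.mul_assoc]; rfl
  have hneg : ∀ X : Mat, -X = X := fun X => neg_eq_of_add_eq_zero_left (hq.smul_self X)
  have hBi : (1 + S1.B) * (1 + S1.B) = 1 := by
    rw [mul_add, mul_one, add_mul, one_mul, S1.B_sq, add_zero, add_assoc, hq.smul_self, add_zero]
  have hBnp : ¬ IsPure (1 + S1.B) := by
    intro hp
    obtain ⟨K, hK⟩ := H.pure_root hgood S1.w_ne S1.η_ne S1.ηw S1.mem S1.inv S1.np hp
    change S1.B = _ at hK
    obtain ⟨z, hz, hz1, -⟩ := exists_common_zero (F := F) (by rw [Fintype.card_fin]; exact H.three) S1.φ S1.φ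
    refine S1.Q_ne H hgood hz ?_
    have e : S1.C * (S1.Q * lft α z) = 0 := by
      rw [C, Matrix.mul_assoc, ← Matrix.mul_assoc S1.P, ← B, hK, kron_lft, Matrix.one_mulVec, ← Matrix.mul_assoc,
        rgt_mul_lft, hz1, zero_smul, Matrix.zero_mul]
    have := congrArg (S1.C⁻¹ * ·) e
    simpa [← Matrix.mul_assoc, Matrix.nonsing_inv_mul _ hC1] using this
  let S3 : Pair M :=
    { v := S.v, φ := S.φ, w := S.v, η := ψ0, X := 1 + S1.B, X' := 1 + S1.B
      v_ne := S.v_ne, φ_ne := S.φ_ne, φv := S.φv, w_ne := S.v_ne, η_ne := hψ0, ηw := hψ0v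
      mem := by simpa using S1.inM_B H 1
      inv := hBi, np := hBnp }
  have eC3 : S3.C = S1.C * S1.D := by
    show rgt α S.φ * ((1 + S1.B) * lft α S.v) = _
    rw [Matrix.add_mul, Matrix.one_mul, Matrix.mul_add, rgt_mul_lft, S.φv, zero_smul, zero_add, C, D, B]
    simp only [Matrix.mul_assoc]; rfl
  have eD3 : S3.D = rgt α ψ0 * S1.P * S1.D := by
    show rgt α ψ0 * (1 + S1.B) * lft α S.v = _
    rw [Matrix.mul_add, Matrix.mul_one, Matrix.add_mul, rgt_mul_lft, (show ψ0 ⬝ᵥ S.v = 0 from hψ0v), zero_smul, zero_add, D, B]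
    simp only [Matrix.mul_assoc]; rfl
  have hC3 : IsUnit S3.C.det := by rw [eC3, Matrix.det_mul]; exact hC1.mul hD1
  have hx3 : ¬ IsUnit S3.x.det := by
    rw [x, Matrix.det_mul, eD3, Matrix.det_mul]
    intro h
    exact hC0 (isUnit_of_mul_isUnit_left (isUnit_of_mul_isUnit_right h))
  obtain ⟨k, hk⟩ := S3.nilpotent_of_singular hq hodd H hgood hx3
  have hT3 : IsNilpotent S3.T := by
    refine ⟨k + 1, ?_⟩
    rw [pow_succ]
    conv_lhs => arg 2; rw [T, Th]
    rw [mul_add, ← mul_assoc, ← mul_assoc (S3.T ^ k), (show Commute (S3.T ^ k) S3.B from (Th_comm_right S3.B_sq).pow_left k).eq,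
      mul_assoc S3.B]
    have e : S3.T ^ k * S3.A = 0 := by
      rw [A, ← Matrix.mul_assoc, S3.Tpow_v, hk, Matrix.mul_zero, Matrix.zero_mul]
    rw [e, zero_mul, mul_zero, add_zero]
  set E3 : GL (α × Fin b) F := ⟨1 + S3.B, 1 - S3.B,
    by rw [mul_sub, mul_one, add_mul, one_mul, S3.B_sq]; simp,
    by rw [sub_mul, one_mul, mul_add, mul_one, S3.B_sq]; simp⟩ with hE3
  set R := S3.Ru 1
  set L := Subgroup.closure ({R, E3} : Set (GL (α × Fin b) F))
  have hLV : L ≤ S3.V := by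
    refine (Subgroup.closure_le _).2 ?_
    rintro _ (rfl | rfl)
    · exact ⟨(S3.Ru_mem_G H 1).1, rgt α S3.φ, 0, by simp [R, Pair.Ru, A]⟩
    · exact ⟨mem_of_inM (by simpa using S3.inM_B H 1), 0, S3.Q, by simp [E3, B]⟩
  have hLsh : L ≤ shSub S3.A S3.B S3.A_sq S3.B_sq := by
    refine (Subgroup.closure_le _).2 ?_
    rintro _ (rfl | rfl)
    · exact Sh.left 1
    · show Sh F S3.A S3.B (1 + S3.B)
      simpa using (Sh.right (A := S3.A) (B := S3.B) (1 : F))
  have hLp : IsPGroup 2 L := by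
    rintro ⟨l, hl⟩
    obtain ⟨ff, hff, hsq⟩ := Sh.sq S3.A_sq S3.B_sq (hLsh hl)
    obtain ⟨m, hm⟩ := hT3
    have : IsNilpotent ((l : Mat) - 1) :=
      ⟨2 * m, by rw [pow_mul, pow_two, hsq, hff.symm.mul_pow, show Th S3.A S3.B ^ m = 0 from hm, zero_mul]⟩
    obtain ⟨r, hr⟩ := one_pow_of_nilpotent 2 this
    exact ⟨r, Subtype.ext (Units.ext (by simpa using hr))⟩
  have hR1 : R ≠ 1 := by
    rw [← S3.Ru_zero]; exact fun h => one_ne_zero (S3.Ru_inj h)
  have : Nontrivial L := ⟨⟨⟨R, Subgroup.subset_closure (by simp)⟩, 1, fun h => hR1 (congrArg Subtype.val h)⟩⟩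
  obtain ⟨⟨⟨z, hzL⟩, hzc⟩, hz1⟩ := @exists_ne (Subgroup.center L) hLp.center_nontrivial 1
  have hcomm : ∀ g ∈ L, z * g = g * z := fun g hg =>
    congrArg Subtype.val ((Subgroup.mem_center_iff.1 hzc ⟨g, hg⟩).symm)
  have hH3 : S3.Hyp := fun K2 h => ⟨0, by
    have := congrArg (S3.C⁻¹ * ·) h
    simp only [← Matrix.mul_assoc, Matrix.nonsing_inv_mul _ hC3, Matrix.one_mul, Matrix.mul_zero] at this
    rw [this, Matrix.mul_zero, Matrix.mul_zero]⟩
  obtain ⟨ψ, hψv, hze⟩ := S3.V_centralizer hq H hgood hH3 (hLV hzL) (by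
    have := congrArg (fun g : GL (α × Fin b) F => (g : Mat)) (hcomm R (Subgroup.subset_closure (by simp)))
    simpa [R, Pair.Ru, mul_add, add_mul] using this)
  have hψ : ψ ≠ 0 := by
    intro h0
    refine hz1 (Subtype.ext (Subtype.ext (Units.ext ?_)))
    rw [hze, h0, rgt_zero, Matrix.mul_zero, add_zero]; rfl
  have hpure : IsPure (1 + S3.B) := by
    have e := congrArg (fun g : GL (α × Fin b) F => (g : Mat)) (hcomm E3 (Subgroup.subset_closure (by simp)))
    simp only [Units.val_mul, hze, E3] at e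
    obtain ⟨k, hm, _, _, -, -, -, -, ee, -, -⟩ :=
      H.pure_of_comm hgood S3.v_ne hψ (by simpa using S3.inM_B H 1) (X' := 1 - S3.B)
        (by rw [mul_sub, mul_one, add_mul, one_mul, S3.B_sq]; simp) (c := 1) one_ne_zero (by
          rw [one_smul]
          rw [add_mul, one_mul, mul_add (1 + S3.B) 1, mul_one] at e
          exact (add_left_cancel e).symm)
    exact ⟨k, hm, ee⟩
  obtain ⟨K, hK⟩ := H.pure_root hgood S3.w_ne S3.η_ne S3.ηw S3.mem S3.inv S3.np hpure
  change S3.B = _ at hK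
  obtain ⟨u, hu, hu1, -⟩ := exists_common_zero (F := F) (by rw [Fintype.card_fin]; exact H.three) S3.φ S3.φ
  refine S3.Q_ne H hgood hu ?_
  have e : S3.C * (S3.Q * lft α u) = 0 := by
    rw [C, Matrix.mul_assoc, ← Matrix.mul_assoc S3.P, ← B, hK, kron_lft, Matrix.one_mulVec, ← Matrix.mul_assoc,
      rgt_mul_lft, hu1, zero_smul, Matrix.zero_mul]
  have := congrArg (S3.C⁻¹ * ·) e
  simpa [← Matrix.mul_assoc, Matrix.nonsing_inv_mul _ hC3] using this

end Pair

end Cfsg.Agent.H5.C7
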