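import Cfsg.Agent.H5.C7.Split
import Cfsg.Agent.H5.C7.Span
import Cfsg.Agent.H5.C7.Swap
import Cfsg.Agent.H5.C7.Two

/-!
A group containing the factor groups and the factor permutations of a tensor power either contains all
transvections or consists of monomial tensors.
-/

set_option autoImplicit false
set_option linter.unusedSectionVars false

namespace Cfsg.Agent.H5.C7

open Matrix Cfsg.Agent.H99.Tensor
open scoped Kronecker

variable {F : Type*} [Field F] {ι : Type} [Fintype ι] [DecidableEq ι] {m : ℕ}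

local notation "MM" => Matrix (ι → Fin m) (ι → Fin m) F
local notation "mm" => Matrix (Fin m) (Fin m) F

/-- A matrix of an element of the group. -/
def Mem (M : Subgroup (GL (ι → Fin m) F)) (X : Matrix (ι → Fin m) (ι → Fin m) F) : Prop := ∃ y ∈ M, (y : MM) = X

variable {M : Subgroup (GL (ι → Fin m) F)}

theorem Mem.mul {X Y : MM} (hX : Mem M X) (hY : Mem M Y) : Mem M (X * Y) := by
  obtain ⟨x, hx, rfl⟩ := hX
  obtain ⟨y, hy, rfl⟩ := hY
  exact ⟨x * y, M.mul_mem hx hy, Units.val_mul x y⟩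

theorem Mem.one : Mem M (1 : MM) := ⟨1, M.one_mem, Units.val_one⟩

theorem Mem.inv {X Y : MM} (hX : Mem M X) (h : X * Y = 1) : Mem M Y := by
  obtain ⟨x, hx, rfl⟩ := hX
  exact ⟨x⁻¹, M.inv_mem hx, Units.inv_eq_of_mul_eq_one_right h⟩

theorem Mem.exists_inv {X : MM} (hX : Mem M X) : ∃ Y, X * Y = 1 := by
  obtain ⟨x, -, rfl⟩ := hX
  exact ⟨_, Units.mul_inv x⟩

theorem inM_rI {i : ι} {X : MM} : InM (slotM i M) (rI i X) ↔ Mem M X := by
  rw [inM_slotM]
  exact ⟨fun ⟨y, hy, e⟩ => ⟨y, hy, (rI i).injective e⟩, fun ⟨y, hy, e⟩ => ⟨y, hy, by rw [e]⟩⟩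

/-- The group contains the factor groups and covers the permutations of the factors. -/
structure OV (M : Subgroup (GL (ι → Fin m) F)) : Prop where
  three : 3 ≤ m
  slot : ∀ (i : ι) (h : mm), h.det = 1 → Mem M (sl i h)
  perm : (3 ≤ Fintype.card ι ∨ (2 : F) = 0) → ∀ σ : Equiv.Perm ι, ∃ k : ι → mm, Mem M (wm σ k)

/-- All transvections belong to the group. -/
def Full (M : Subgroup (GL (ι → Fin m) F)) : Prop :=
  ∀ (f g : ι → Fin m) (c : F), f ≠ g → Mem M (1 + Matrix.single f g c)

theorem OV.rf (hM : OV M) (i : ι) : RF (slotM i M) where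
  right h hd := by rw [← rI_sl_self]; exact inM_rI.2 (hM.slot i h hd)
  three := hM.three

theorem OV.perm' (hM : OV M) (hp : 3 ≤ Fintype.card ι ∨ (2 : F) = 0) (σ : Equiv.Perm ι) :
    ∃ k k' : ι → mm, (∀ j, k j * k' j = 1) ∧ Mem M (wm σ k) ∧ Mem M (wm σ⁻¹ fun i => k' (σ⁻¹ i)) := by
  obtain ⟨k, hk⟩ := hM.perm hp σ
  obtain ⟨Y, hY⟩ := hk.exists_inv
  have hu := fun j => wm_factor_unit hY (by have := hM.three; omega) j
  refine ⟨k, fun j => (k j)⁻¹, fun j => Matrix.mul_nonsing_inv _ (hu j), hk, hk.inv ?_⟩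
  exact wm_mul_inv σ k (fun j => (k j)⁻¹) fun j => Matrix.mul_nonsing_inv _ (hu j)

theorem nonempty_others (hM : OV M) (i : ι) : Nonempty ({j : ι // j ≠ i} → Fin m) :=
  ⟨fun _ => ⟨0, by have := hM.three; omega⟩⟩

/-- The transport of a permutation of the other factors. -/
theorem OV.perm_others (hM : OV M) (i : ι) (σ : Equiv.Perm {j : ι // j ≠ i}) :
    ∃ (k k' : {j : ι // j ≠ i} → mm) (h h' : mm), (∀ j, k j * k' j = 1) ∧ h * h' = 1 ∧
      InM (slotM i M) ((wm σ k) ⊗ₖ h) := by
  by_cases hp : 3 ≤ Fintype.card ι ∨ (2 : F) = 0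
  swap
  · -- at most one other factor
    have : Subsingleton {j : ι // j ≠ i} := by
      rw [← Fintype.card_le_one_iff_subsingleton]
      simp only [not_or] at hp
      simp
      omega
    obtain rfl : σ = 1 := Equiv.ext fun j => Subsingleton.elim _ _
    exact ⟨fun _ => 1, fun _ => 1, 1, 1, fun _ => one_mul 1, one_mul 1,
      by rw [wm_one, Matrix.one_kronecker_one]; exact InM.one⟩
  obtain ⟨k, k', hkk, hk, -⟩ := hM.perm' hp (Equiv.Perm.ofSubtype σ)
  have hfix : Equiv.Perm.ofSubtype σ i = i := Equiv.Perm.ofSubtype_apply_of_not_mem σ (fun h => h rfl)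
  refine ⟨fun j => k j.1, fun j => k' j.1, k i, k' i, fun j => hkk _, hkk i, ?_⟩
  have := (inM_rI (i := i)).2 hk
  rw [rI_wm i _ hfix (perm_ne_iff hfix)] at this
  convert this using 3
  exact Equiv.ext fun j => Subtype.ext (Equiv.Perm.ofSubtype_apply_coe σ j).symm

theorem vec_ne_of_unit {v : Fin m → F} (hv : v ≠ 0) {h h' : mm} (hh : h * h' = 1) : h *ᵥ v ≠ 0 := by
  intro h0
  have := congrArg (h' *ᵥ ·) h0
  simp only [Matrix.mulVec_mulVec, mul_eq_one_comm.1 hh, Matrix.one_mulVec, Matrix.mulVec_zero] at this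
  exact hv this

theorem covec_ne_of_unit {v : Fin m → F} (hv : v ≠ 0) {h h' : mm} (hh : h * h' = 1) : v ᵥ* h' ≠ 0 := by
  intro h0
  have := congrArg (· ᵥ* h) h0
  simp only [Matrix.vecMul_vecMul, mul_eq_one_comm.1 hh, Matrix.vecMul_one, Matrix.zero_vecMul] at this
  exact hv this

theorem dot_of_unit {v φ : Fin m → F} (hd : φ ⬝ᵥ v = 0) {h h' : mm} (hh : h * h' = 1) :
    (φ ᵥ* h') ⬝ᵥ (h *ᵥ v) = 0 := by
  rw [← dotProduct_mulVec, Matrix.mulVec_mulVec, mul_eq_one_comm.1 hh, Matrix.one_mulVec, hd]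

/-- The layer of a factor is an invariant algebra of matrices on the other factors. -/
theorem OV.layer_algInv (hM : OV M) (i : ι) : AlgInv (layer (slotM i M)) := by
  have hm := hM.three
  let x0 : Fin m := ⟨0, by omega⟩
  let x1 : Fin m := ⟨1, by omega⟩
  let x2 : Fin m := ⟨2, by omega⟩
  have h01 : x0 ≠ x1 := by simp [x0, x1, Fin.ext_iff]
  have h02 : x0 ≠ x2 := by simp [x0, x2, Fin.ext_iff]
  have h12 : x1 ≠ x2 := by simp [x1, x2, Fin.ext_iff]
  have hne : ∀ x : Fin m, (Pi.single x (1 : F) : Fin m → F) ≠ 0 := fun x => by simp [Pi.single_eq_zero_iff]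
  have hd : ∀ x y : Fin m, x ≠ y → (Pi.single x (1 : F) : Fin m → F) ⬝ᵥ Pi.single y 1 = 0 := fun x y h => by
    rw [single_dotProduct, Pi.single_eq_of_ne h, mul_zero]
  refine ⟨hm, ?_, ?_, ?_, ?_⟩
  · intro v φ h
    rw [← lft_mul_rgt]
    exact (hM.rf i).root h
  · intro G hG G' hG'
    refine (hM.rf i).mem_layer (hne x0) (hne x2) (hd x2 x0 h02.symm) ?_
    have hA := hG (Pi.single x0 1) (Pi.single x1 1) (hd x1 x0 h01.symm)
    have hB := hG' (Pi.single x1 1) (Pi.single x2 1) (hd x2 x1 h12.symm)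
    have z : ∀ (P Q : Matrix ({j : ι // j ≠ i} → Fin m) ({j : ι // j ≠ i} → Fin m) F) (a b c d : Fin m), b ≠ c →
        (P ⊗ₖ vecMulVec (Pi.single a (1 : F)) (Pi.single b 1)) * (Q ⊗ₖ vecMulVec (Pi.single c (1 : F)) (Pi.single d 1)) = 0 := by
      intro P Q a b c d h
      rw [← Matrix.mul_kronecker_mul, vecMulVec_mul_vecMulVec, hd b c h, zero_smul, vecMulVec_zero, Matrix.kronecker_zero]
    have := hA.comm hB (z G G _ _ _ _ h01.symm) (z G' G' _ _ _ _ h12.symm) (z G' G _ _ _ _ h02.symm)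
    rwa [← Matrix.mul_kronecker_mul, vecMulVec_mul_vecMulVec, single_dotProduct, Pi.single_eq_same, mul_one,
      one_smul] at this
  · intro l h h' hdet hh G hG v φ hvφ
    have hP : InM (slotM i M) ((sl l h : Matrix ({j : ι // j ≠ i} → Fin m) ({j : ι // j ≠ i} → Fin m) F) ⊗ₖ (1 : mm)) := by
      rw [← rI_sl_ne]; exact inM_rI.2 (hM.slot l.1 h hdet)
    have := (hG v φ hvφ).conj hP (Q := sl l h' ⊗ₖ (1 : mm))
      (by rw [← Matrix.mul_kronecker_mul, sl_mul, hh, sl_one, Matrix.one_mul, Matrix.one_kronecker_one])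
    rwa [← Matrix.mul_kronecker_mul, ← Matrix.mul_kronecker_mul, Matrix.one_mul, Matrix.mul_one] at this
  · intro σ
    obtain ⟨k, k', h, h', hkk, hhh, hP⟩ := hM.perm_others i σ
    refine ⟨k, k', hkk, fun G hG => ?_⟩
    refine (hM.rf i).mem_layer (vec_ne_of_unit (hne x0) hhh) (covec_ne_of_unit (hne x1) hhh)
      (dot_of_unit (hd x1 x0 h01.symm) hhh) ?_
    have := (hG (Pi.single x0 1) (Pi.single x1 1) (hd x1 x0 h01.symm)).conj hP
      (Q := (wm σ⁻¹ fun j => k' (σ⁻¹ j)) ⊗ₖ h')
      (by rw [← Matrix.mul_kronecker_mul, wm_mul_inv σ k k' hkk, hhh, Matrix.one_kronecker_one])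
    rwa [← Matrix.mul_kronecker_mul, ← Matrix.mul_kronecker_mul, Matrix.mul_vecMulVec, Matrix.vecMulVec_mul] at this

theorem rI_symm_single (i : ι) (f g : ι → Fin m) (c : F) :
    rI i (Matrix.single f g c : MM) = (c • Matrix.single (eI i f).1 (eI i g).1 (1 : F)) ⊗ₖ
      (vecMulVec (Pi.single (f i) 1) (Pi.single (g i) 1) : mm) := by
  ext p q
  rw [rI_apply, Matrix.kronecker_apply, Matrix.smul_apply, Matrix.single_apply, Matrix.single_apply,
    Matrix.vecMulVec_apply, smul_eq_mul]
  by_cases h : f = (eI i).symm p ∧ g = (eI i).symm q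
  · obtain ⟨rfl, rfl⟩ := h
    simp [eI_symm_self]
  · rw [if_neg h]
    by_cases h1 : (eI i f).1 = p.1 ∧ (eI i g).1 = q.1
    · rw [if_pos h1]
      have h2 : ¬ (f i = p.2 ∧ g i = q.2) := fun h2 => h
        ⟨(eI i).injective (by rw [Equiv.apply_symm_apply]; exact Prod.ext h1.1 h2.1),
         (eI i).injective (by rw [Equiv.apply_symm_apply]; exact Prod.ext h1.2 h2.2)⟩
      rcases not_and_or.1 h2 with h3 | h3 <;> simp [Pi.single_apply, Ne.symm h3]
    · rw [if_neg h1]; simp

/-- A layer which is not made of scalars gives all transvections. -/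
theorem OV.full_of_bad (hM : OV M) (i : ι) (hbad : ¬ Good (slotM i M)) : Full M := by
  have hm := hM.three
  simp only [Good, not_forall] at hbad
  obtain ⟨v, φ, G, hv, hφ, hφv, hG, hns⟩ := hbad
  have hlayer := (hM.rf i).mem_layer hv hφ hφv hG
  have hall := (hM.layer_algInv i).all_single hlayer hns
  have hne' : ∀ (f g : ι → Fin m) (c : F), f i ≠ g i → Mem M (1 + Matrix.single f g c) := by
    intro f g c hfg
    rw [← inM_rI (i := i), map_add, map_one, rI_symm_single]
    exact Submodule.smul_mem _ c (hall (eI i f).1 (eI i g).1) _ _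
      (by rw [single_dotProduct, Pi.single_eq_of_ne (Ne.symm hfg), mul_zero])
  intro f g c hfg
  by_cases hi : f i = g i
  · obtain ⟨x, hx⟩ : ∃ x : Fin m, x ≠ f i := by
      by_cases h : f i = ⟨0, by omega⟩
      · exact ⟨⟨1, by omega⟩, by rw [h]; simp [Fin.ext_iff]⟩
      · exact ⟨⟨0, by omega⟩, Ne.symm h⟩
    set h := Function.update f i x with hh
    have e1 := hne' f h c (by rw [hh, Function.update_self]; exact hx.symm)
    have e2 := hne' h g 1 (by rw [hh, Function.update_self, ← hi]; exact hx)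
    have hfh : f ≠ h := fun e => hx (by rw [congrFun e i, hh, Function.update_self])
    have hhg : h ≠ g := fun e => hx (by rw [hi, ← congrFun e i, hh, Function.update_self])
    have := InM.comm (α := {j : ι // j ≠ i} → Fin m) (M := slotM i M) (A := rI i (Matrix.single f h c : MM))
      (B := rI i (Matrix.single h g (1 : F) : MM))
      (by rw [← map_one (rI i), ← map_add]; exact inM_rI.2 e1)
      (by rw [← map_one (rI i), ← map_add]; exact inM_rI.2 e2)
      (by rw [← map_mul, Matrix.single_mul_single_of_ne (h := Ne.symm hfh), map_zero])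
      (by rw [← map_mul, Matrix.single_mul_single_of_ne (h := Ne.symm hhg), map_zero])
      (by rw [← map_mul, Matrix.single_mul_single_of_ne (h := Ne.symm hfg), map_zero])
    rw [← map_mul, Matrix.single_mul_single_same, mul_one, ← map_one (rI i), ← map_add] at this
    exact inM_rI.1 this
  · exact hne' f g c hi

/-- The group induced on the other factors. -/
def others (i : ι) (M : Subgroup (GL (ι → Fin m) F)) (hm : 0 < m) : Subgroup (GL ({j : ι // j ≠ i} → Fin m) F) where
  carrier := {y | ∃ h : mm, InM (slotM i M) ((y : Matrix ({j : ι // j ≠ i} → Fin m) ({j : ι // j ≠ i} → Fin m) F) ⊗ₖ h)}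
  one_mem' := ⟨1, by rw [Units.val_one, Matrix.one_kronecker_one]; exact InM.one⟩
  mul_mem' {x y} := by
    rintro ⟨h, hx⟩ ⟨h', hy⟩
    exact ⟨h * h', by rw [Units.val_mul, Matrix.mul_kronecker_mul]; exact hx.mul hy⟩
  inv_mem' {y} := by
    rintro ⟨h, hy⟩
    have : Nonempty ({j : ι // j ≠ i} → Fin m) := ⟨fun _ => ⟨0, hm⟩⟩
    have : NeZero m := ⟨by omega⟩
    obtain ⟨z, hz, e⟩ := hy
    have hu := kron_factors_ne (Units.mul_inv z) e
    refine ⟨h⁻¹, InM.inv ⟨z, hz, e⟩ ?_⟩
    rw [← Matrix.mul_kronecker_mul, Units.mul_inv, Matrix.mul_nonsing_inv h hu.2, Matrix.one_kronecker_one]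

theorem OV.others_ov (hM : OV M) (i : ι) : OV (others i M (by have := hM.three; omega)) where
  three := hM.three
  slot l h hd := by
    have hh : h * h⁻¹ = 1 := Matrix.mul_nonsing_inv h (by rw [hd]; exact isUnit_one)
    let y : GL ({j : ι // j ≠ i} → Fin m) F := ⟨sl l h, sl l h⁻¹, by rw [sl_mul, hh, sl_one],
      by rw [sl_mul, mul_eq_one_comm.1 hh, sl_one]⟩
    refine ⟨y, ⟨1, ?_⟩, rfl⟩
    show InM (slotM i M) ((sl l h) ⊗ₖ (1 : mm))
    rw [← rI_sl_ne]; exact inM_rI.2 (hM.slot l.1 h hd)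
  perm _ σ := by
    obtain ⟨k, k', h, h', hkk, -, hP⟩ := hM.perm_others i σ
    refine ⟨k, ⟨wm σ k, wm σ⁻¹ fun j => k' (σ⁻¹ j), wm_mul_inv σ k k' hkk,
      mul_eq_one_comm.1 (wm_mul_inv σ k k' hkk)⟩, ⟨h, hP⟩, rfl⟩

/-- Scalar layers prevent the other factors from generating a special linear group. -/
theorem OV.not_full_others (hM : OV M) (hgood : ∀ i, Good (slotM i M)) (i : ι)
    (hcard : 2 ≤ Fintype.card {j : ι // j ≠ i}) : ¬ Full (others i M (by have := hM.three; omega)) := by
  intro hfull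
  have hm := hM.three
  obtain ⟨l1, l2, hl12⟩ := Fintype.exists_pair_of_one_lt_card (show 1 < Fintype.card {j : ι // j ≠ i} by omega)
  have h01 : (⟨0, by omega⟩ : Fin m) ≠ ⟨1, by omega⟩ := by simp [Fin.ext_iff]
  set f : {j : ι // j ≠ i} → Fin m := fun _ => ⟨0, by omega⟩ with hf
  set g : {j : ι // j ≠ i} → Fin m := fun _ => ⟨1, by omega⟩ with hg
  set d : Fin m := ⟨2, by omega⟩ with hd
  have hfg : f ≠ g := fun e => h01 (congrFun e l1)
  obtain ⟨y, ⟨k, hk⟩, hy⟩ := hfull f g 1 hfg
  rw [hy] at hk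
  set E : Matrix ({j : ι // j ≠ i} → Fin m) ({j : ι // j ≠ i} → Fin m) F := Matrix.single f g 1 with hE
  set X : Matrix ({j : ι // j ≠ i} → Fin m) ({j : ι // j ≠ i} → Fin m) F :=
    sl l1 (Matrix.single (⟨1, by omega⟩ : Fin m) d 1) with hX
  have hEE : E * E = 0 := by rw [hE, Matrix.single_mul_single_of_ne (h := Ne.symm hfg)]
  have hXX : X * X = 0 := by
    rw [hX, sl_mul, Matrix.single_mul_single_of_ne (h := by simp [hd, Fin.ext_iff]), sl_zero]
  have hsd : ((1 : mm) + Matrix.single (⟨1, by omega⟩ : Fin m) d 1).det = 1 :=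
    Matrix.det_transvection_of_ne _ _ (by simp [hd, Fin.ext_iff]) 1
  have hXm : InM (slotM i M) ((1 + X) ⊗ₖ (1 : mm)) := by
    have e : (1 + X) = sl l1 ((1 : mm) + Matrix.single (⟨1, by omega⟩ : Fin m) d 1) := by rw [sl_add, sl_one]
    rw [e, ← rI_sl_ne]; exact inM_rI.2 (hM.slot l1.1 _ hsd)
  have hXE : X * E = 0 := by
    ext p q
    rw [Matrix.mul_apply, Matrix.zero_apply, Finset.sum_eq_zero]
    intro r _
    by_cases hr : f = r
    · subst hr
      rw [hX, sl_apply]
      split_ifs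
      · rw [Matrix.single_apply, if_neg (by simp [hf, hd, Fin.ext_iff]), zero_mul]
      · rw [zero_mul]
    · rw [hE, Matrix.single_apply, if_neg (fun h => hr h.1), mul_zero]
  have : Nonempty ({j : ι // j ≠ i} → Fin m) := ⟨f⟩
  have : NeZero m := ⟨by omega⟩
  obtain ⟨z, hz, ez⟩ := id hk
  have hu := kron_factors_ne (Units.mul_inv z) ez
  have hcomm : InM (slotM i M) ((1 + E * X) ⊗ₖ (1 : mm)) := by
    have h1 : InM (slotM i M) ((1 - E) ⊗ₖ k⁻¹) := hk.inv (by
      rw [← Matrix.mul_kronecker_mul, Matrix.mul_nonsing_inv k hu.2, mul_sub, mul_one, add_mul, one_mul, hEE, add_zero,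
        add_sub_cancel_right, Matrix.one_kronecker_one])
    have h2 : InM (slotM i M) ((1 - X) ⊗ₖ (1 : mm)) := hXm.inv (by
      rw [← Matrix.mul_kronecker_mul, Matrix.one_mul, mul_sub, mul_one, add_mul, one_mul, hXX, add_zero,
        add_sub_cancel_right, Matrix.one_kronecker_one])
    have h3 := ((hk.mul hXm).mul h1).mul h2
    rw [← Matrix.mul_kronecker_mul, ← Matrix.mul_kronecker_mul, ← Matrix.mul_kronecker_mul, Matrix.mul_one,
      Matrix.mul_one, Matrix.mul_nonsing_inv k hu.2] at h3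
    convert h3 using 3
    have z1 : ∀ y, E * (E * y) = 0 := fun y => by rw [← mul_assoc, hEE, zero_mul]
    have z2 : ∀ y, X * (E * y) = 0 := fun y => by rw [← mul_assoc, hXE, zero_mul]
    simp only [add_mul, mul_add, mul_sub, sub_mul, one_mul, mul_one, mul_assoc, hEE, hXX, hXE, z1, z2,
      mul_zero, sub_zero, add_zero]
    abel
  set g' := Function.update g l1 d with hg'
  have hEX : E * X = Matrix.single f g' 1 := by
    ext p q
    rw [Matrix.mul_apply, Finset.sum_eq_single g]
    · rw [hE, Matrix.single_apply, Matrix.single_apply, hX, sl_apply, Matrix.single_apply]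
      by_cases hp : f = p
      · by_cases hq : g' = q
        · subst hq
          rw [if_pos ⟨hp, rfl⟩, if_pos (fun j hj => by rw [hg', Function.update_of_ne hj]),
            if_pos ⟨by simp [hg], by rw [hg', Function.update_self]⟩, if_pos ⟨hp, rfl⟩, one_mul]
        · rw [if_neg (fun h : f = p ∧ g' = q => hq h.2)]
          simp only [mul_ite, mul_one, mul_zero]
          split_ifs with h1 h2 h3 <;> first | rfl | exfalso
          refine hq (funext fun j => ?_)
          by_cases hj : j = l1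
          · subst hj; rw [hg', Function.update_self]; exact h2.2
          · rw [hg', Function.update_of_ne hj]; exact h1 j hj
      · rw [if_neg (fun h => hp h.1), if_neg (fun h : f = p ∧ g' = q => hp h.1), zero_mul]
    · intro r _ hr; rw [hE, Matrix.single_apply, if_neg (fun h => hr h.2.symm), zero_mul]
    · intro h; exact absurd (Finset.mem_univ _) h
  set A : ι → mm := fun j => if hj : j = i then 1 else
    Matrix.single (f ⟨j, hj⟩) (g' ⟨j, hj⟩) 1 with hA
  have hTval : rI i (1 + wm 1 A : MM) = (1 + E * X) ⊗ₖ (1 : mm) := by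
    rw [map_add, map_one, rI_tens, Matrix.add_kronecker, Matrix.one_kronecker_one, hEX]
    simp only [hA, dite_true]
    congr 2
    ext p q
    rw [wm_apply, Matrix.single_apply]
    simp only [Equiv.Perm.one_apply, Subtype.coe_eta]
    by_cases h : f = p ∧ g' = q
    · obtain ⟨rfl, rfl⟩ := h
      rw [if_pos ⟨rfl, rfl⟩]
      exact Finset.prod_eq_one fun j _ => by rw [dif_neg j.2]; simp
    · rw [if_neg h, Finset.prod_eq_zero_iff]
      rcases not_and_or.1 h with h' | h'
      · obtain ⟨j, hj⟩ := Function.ne_iff.1 h'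
        exact ⟨j, Finset.mem_univ j, by rw [dif_neg j.2, Matrix.single_apply, if_neg (fun e => hj e.1)]⟩
      · obtain ⟨j, hj⟩ := Function.ne_iff.1 h'
        exact ⟨j, Finset.mem_univ j, by rw [dif_neg j.2, Matrix.single_apply, if_neg (fun e => hj e.2)]⟩
  have hT : Mem M (1 + wm 1 A : MM) := inM_rI.1 (hTval ▸ hcomm)
  obtain ⟨s, s', hss, hs, hs'⟩ := hM.perm' (Or.inl (by simp at hcard; omega)) (Equiv.swap i l1.1)
  set σ := Equiv.swap i l1.1 with hσ
  have hT' : Mem M (1 + wm 1 (fun j => s j * A (σ j) * s' j) : MM) := by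
    have := (hs.mul hT).mul hs'
    convert this using 1
    rw [mul_add, mul_one, add_mul, wm_mul_inv σ s s' hss, wm_mul, wm_mul]
    congr 2
    · simp
    · funext j; simp [mul_assoc]
  set B : ι → mm := fun j => s j * A (σ j) * s' j with hB
  have hgl : ∀ j : {j : ι // j ≠ i}, f j ≠ g' j := by
    intro j
    by_cases hj : j = l1
    · rw [hj, hg', Function.update_self]; simp [hf, hd, Fin.ext_iff]
    · rw [hg', Function.update_of_ne hj]; exact h01
  have hBi : B i = vecMulVec (s i *ᵥ Pi.single (f l1) 1) (Pi.single (g' l1) 1 ᵥ* s' i) := by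
    rw [← Matrix.vecMulVec_mul, ← Matrix.mul_vecMulVec]
    simp only [hB, hσ, Equiv.swap_apply_left, hA, dif_neg l1.2, Subtype.coe_eta]
    congr 2
    ext p q
    rw [Matrix.single_apply, Matrix.vecMulVec_apply]
    by_cases h1 : f l1 = p <;> by_cases h2 : g' l1 = q <;> simp [h1, h2, Pi.single_apply, eq_comm]
  have hl2 : B l2.1 * B l2.1 = 0 := by
    have e : σ l2.1 = l2.1 := Equiv.swap_apply_of_ne_of_ne l2.2 (fun h => hl12 (Subtype.ext h).symm)
    rw [hB]
    simp only [e, hA, dif_neg l2.2, Subtype.coe_eta]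
    rw [mul_assoc, ← mul_assoc (s' l2.1), ← mul_assoc (s' l2.1), mul_eq_one_comm.1 (hss l2.1), one_mul, mul_assoc (s l2.1),
      ← mul_assoc (Matrix.single _ _ _) (Matrix.single _ _ _),
      Matrix.single_mul_single_of_ne (h := Ne.symm (hgl l2)), zero_mul, mul_zero]
  have hG := (inM_rI (i := i)).2 hT'
  rw [map_add, map_one, rI_tens, hBi] at hG
  set G : Matrix ({j : ι // j ≠ i} → Fin m) ({j : ι // j ≠ i} → Fin m) F := wm 1 fun j => B j.1 with hGdef
  have hne : ∀ x : Fin m, (Pi.single x (1 : F) : Fin m → F) ≠ 0 := fun x => by simp [Pi.single_eq_zero_iff]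
  obtain ⟨c, hc⟩ := hgood i _ _ G (vec_ne_of_unit (hne _) (hss i)) (covec_ne_of_unit (hne _) (hss i))
    (dot_of_unit (by rw [single_dotProduct, Pi.single_eq_of_ne (Ne.symm (hgl l1)), mul_zero]) (hss i)) hG
  have hGG : G * G = 0 := by
    rw [hGdef, wm_mul, mul_one]
    ext p q
    rw [wm_apply, Matrix.zero_apply, Finset.prod_eq_zero (Finset.mem_univ l2)]
    simp only [Equiv.Perm.one_apply]
    rw [hl2, Matrix.zero_apply]
  rw [hc, Matrix.smul_mul, Matrix.mul_smul, one_mul, smul_smul, smul_eq_zero] at hGG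
  have hc0 : c = 0 := mul_self_eq_zero.1 (hGG.resolve_right one_ne_zero)
  have hz : wm 1 B = (0 : MM) := by
    refine (rI i).injective ?_
    rw [rI_tens, ← hGdef, hc, hc0, zero_smul, Matrix.zero_kronecker, map_zero]
  have hz' : wm 1 A = (0 : MM) := by
    have e : wm 1 B = (wm σ s : MM) * wm 1 A * wm σ⁻¹ (fun j => s' (σ⁻¹ j)) := by
      rw [wm_mul, wm_mul]
      congr 1
      · simp
      · funext j; simp [hB, mul_assoc]
    rw [hz] at e
    have := congrArg (fun Z => wm σ⁻¹ (fun j => s' (σ⁻¹ j)) * Z * (wm σ s : MM)) e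
    simp only [mul_zero, zero_mul, ← mul_assoc, mul_eq_one_comm.1 (wm_mul_inv σ s s' hss), one_mul] at this
    rw [mul_assoc (wm 1 A), mul_eq_one_comm.1 (wm_mul_inv σ s s' hss), mul_one] at this
    exact this.symm
  rw [hz', add_zero, map_one, hEX, Matrix.add_kronecker, Matrix.one_kronecker_one, left_eq_add] at hTval
  have h0 := congrFun (congrFun hTval (f, ⟨0, by omega⟩)) (g', ⟨0, by omega⟩)
  simp at h0

theorem wreath_of_card_one (hι : Fintype.card ι = 1) (X : MM) : IsWreath X := by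
  obtain ⟨i, hi⟩ := Fintype.card_eq_one_iff.1 hι
  refine ⟨1, fun _ => Matrix.of fun x y => X (fun _ => x) (fun _ => y), ?_⟩
  ext f g
  rw [wm_apply, Finset.prod_eq_single i (fun j _ hj => absurd (hi j) hj) (fun h => absurd (Finset.mem_univ i) h)]
  simp only [Matrix.of_apply, Equiv.Perm.one_apply]
  congr 1 <;> funext j <;> rw [hi j]

/-- A map sending every layer into a layer is a pure tensor. -/
theorem isPure_of_layers {α : Type} [Fintype α] [DecidableEq α] [Nonempty α] {b : ℕ} (hb : 2 ≤ b)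
    {Z Z' : Matrix (α × Fin b) (α × Fin b) F} (hZ : Z * Z' = 1)
    (h : ∀ v : Fin b → F, v ≠ 0 → ∃ (u : Fin b → F) (k k' : Matrix α α F),
      u ≠ 0 ∧ Z * lft α v = lft α u * k ∧ k * k' = 1) : IsPure Z := by
  classical
  let e : Fin b → Fin b → F := fun j => Pi.single j 1
  have he : ∀ j, e j ≠ 0 := fun j => by simp [e, Pi.single_eq_zero_iff]
  choose u k k' hu hk hkk using fun j => h (e j) (he j)
  let j0 : Fin b := ⟨0, by omega⟩
  have hindep : ∀ j, j ≠ j0 → ∀ c : F, u j ≠ c • u j0 := by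
    intro j hj c hc
    have e1 : Z * lft α (e j) = Z * (lft α (e j0) * (c • (k' j0 * k j))) := by
      rw [← Matrix.mul_assoc, hk, hk, hc, lft_smul, Matrix.smul_mul, Matrix.mul_smul, Matrix.mul_assoc (lft α (u j0)),
        ← Matrix.mul_assoc (k j0), hkk, Matrix.one_mul]
    have e2 : lft α (e j) * (1 : Matrix α α F) = lft α (e j0) * (c • (k' j0 * k j)) := by
      have := congrArg (Z' * ·) e1
      simpa [← Matrix.mul_assoc, mul_eq_one_comm.1 hZ] using this
    obtain ⟨d, hd⟩ := exists_eq_smul_of_lft_mul one_ne_zero e2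
    have := congrFun hd j
    simp [e, hj] at this
  have hscal : ∀ j, ∃ s : F, k j = s • k j0 := by
    intro j
    by_cases hj : j = j0
    · exact ⟨1, by rw [hj, one_smul]⟩
    obtain ⟨w, kw, kw', -, hw, -⟩ := h (e j + e j0) (fun h0 => by
      have := congrFun h0 j; simp [e, hj] at this)
    rw [lft_add, Matrix.mul_add, hk, hk] at hw
    -- functionals separating the two images
    obtain ⟨η0, hη0⟩ := exists_dual (hu j0)
    obtain ⟨η1, hη1⟩ := exists_dual (sub_ne_zero.2 (hindep j hj (η0 ⬝ᵥ u j)))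
    set ξ := η1 - (η1 ⬝ᵥ u j0) • η0 with hξdef
    have hξ0 : ξ ⬝ᵥ u j0 = 0 := by
      rw [hξdef, sub_dotProduct, smul_dotProduct, hη0, smul_eq_mul, mul_one, sub_self]
    have hξ1 : ξ ⬝ᵥ u j = 1 := by
      rw [dotProduct_sub, dotProduct_smul, smul_eq_mul] at hη1
      rw [hξdef, sub_dotProduct, smul_dotProduct, smul_eq_mul]
      linear_combination hη1
    set ζ := η0 - (η0 ⬝ᵥ u j) • ξ with hζdef
    have hζ0 : ζ ⬝ᵥ u j0 = 1 := by
      rw [hζdef, sub_dotProduct, smul_dotProduct, hξ0, smul_zero, sub_zero, hη0]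
    have hζ1 : ζ ⬝ᵥ u j = 0 := by
      rw [hζdef, sub_dotProduct, smul_dotProduct, hξ1, smul_eq_mul, mul_one, sub_self]
    have a1 : k j = (ξ ⬝ᵥ w) • kw := by
      have := congrArg (rgt α ξ * ·) hw
      simpa only [Matrix.mul_add, ← Matrix.mul_assoc, rgt_mul_lft, hξ0, hξ1, one_smul, zero_smul, Matrix.one_mul,
        Matrix.zero_mul, add_zero, Matrix.smul_mul] using this
    have a0 : k j0 = (ζ ⬝ᵥ w) • kw := by
      have := congrArg (rgt α ζ * ·) hw
      simpa only [Matrix.mul_add, ← Matrix.mul_assoc, rgt_mul_lft, hζ0, hζ1, one_smul, zero_smul, Matrix.one_mul,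
        Matrix.zero_mul, zero_add, Matrix.smul_mul] using this
    have hne : ζ ⬝ᵥ w ≠ 0 := by
      intro h0
      rw [h0, zero_smul] at a0
      have := hkk j0
      rw [a0, Matrix.zero_mul] at this
      exact zero_ne_one this
    exact ⟨ξ ⬝ᵥ w / (ζ ⬝ᵥ w), by rw [a1, a0, smul_smul, div_mul_cancel₀ _ hne]⟩
  choose s hs using hscal
  refine ⟨k j0, Matrix.of fun a j => s j * u j a, ?_⟩
  ext ⟨x, a⟩ ⟨y, j⟩
  have h1 := congrFun (congrFun (hk j) (x, a)) y
  rw [mul_lft_single] at h1
  rw [h1, hs j, Matrix.mul_apply, Finset.sum_eq_single x (fun z _ hz => by simp [lft_apply, Ne.symm hz]) (by simp),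
    Matrix.kronecker_apply, Matrix.of_apply, lft_apply, if_pos rfl, Matrix.smul_apply, smul_eq_mul]
  ring

theorem wreath_root (i : ι) (t : mm) : IsWreath (sl i t : MM) := ⟨_, _, rfl⟩

theorem rI_conj_root (i : ι) {X X' : MM} (hXX : X * X' = 1) (w η : Fin m → F) :
    rI i (X * sl i (1 + vecMulVec w η) * X') =
      1 + rI i X * lft ({j : ι // j ≠ i} → Fin m) w * (rgt ({j : ι // j ≠ i} → Fin m) η * rI i X') := by
  rw [map_mul, map_mul, rI_sl_self, ← one_add_kron, mul_add, mul_one, add_mul, ← map_mul, hXX, map_one]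
  simp only [Matrix.mul_assoc]

variable [Finite F]

/-- An element moving a root of some factor to a tensor of all factors is monomial. -/
theorem OV.wreath_of_all_pure (hM : OV M) (hperm : 3 ≤ Fintype.card ι ∨ (2 : F) = 0) (hgood : ∀ i, Good (slotM i M))
    (hpw : ∀ i X, Mem M X → IsPure (rI i X) → IsWreath X) {X X' : MM} (hX : Mem M X) (hXX : X * X' = 1) (i : ι)
    {v φ : Fin m → F} (hv : v ≠ 0) (hφ : φ ≠ 0) (hd : φ ⬝ᵥ v = 0)
    (hpure : ∀ j, IsPure (rI j (X * sl i (1 + vecMulVec v φ) * X'))) : IsWreath X := by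
  by_contra hnw
  have hm := hM.three
  set Y := X * sl i (1 + vecMulVec v φ) * X' with hY
  have hsc : ∀ j, ScalarAt j (Y - 1) := by
    intro j
    have : Nonempty ({l : ι // l ≠ j} → Fin m) := nonempty_others hM j
    obtain ⟨k, k', hkk, hk, hk'⟩ := hM.perm' hperm (Equiv.swap i j)
    set σ := Equiv.swap i j with hσ
    set W : MM := wm σ k
    set W' : MM := wm σ⁻¹ fun l => k' (σ⁻¹ l)
    have hWW : W * W' = 1 := wm_mul_inv σ k k' hkk
    set w := k' i *ᵥ v
    set η := φ ᵥ* k i
    have hroot : sl i (1 + vecMulVec v φ) = W * sl j (1 + vecMulVec w η) * W' := by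
      have e : W * sl j (1 + vecMulVec w η) = sl i (1 + vecMulVec v φ) * W := by
        rw [sl, sl, wm_mul, wm_mul]
        simp only [mul_one, one_mul]
        congr 1
        funext l
        rw [Equiv.Perm.one_apply]
        by_cases hl : l = i
        · subst hl
          rw [Function.update_self, hσ, Equiv.swap_apply_left, Function.update_self]
          simp only [w, η]
          rw [← Matrix.vecMulVec_mul, ← Matrix.mul_vecMulVec, mul_add, mul_one, ← mul_assoc, ← mul_assoc, hkk l,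
            one_mul, add_mul, one_mul]
        · have : σ l ≠ j := fun h => hl (σ.injective (by rw [h, hσ, Equiv.swap_apply_left]))
          rw [Function.update_of_ne hl, Function.update_of_ne this, mul_one, one_mul]
      rw [e, Matrix.mul_assoc, hWW, Matrix.mul_one]
    have hXW : (X * W) * (W' * X') = 1 := by
      rw [Matrix.mul_assoc, ← Matrix.mul_assoc W, hWW, Matrix.one_mul, hXX]
    have hnp : ¬ IsPure (rI j (X * W)) := by
      intro hp
      refine hnw ?_
      have h1 := (hpw j _ (hX.mul hk) hp).mul (⟨_, _, rfl⟩ : IsWreath W')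
      rwa [Matrix.mul_assoc, hWW, Matrix.mul_one] at h1
    have hY' : Y = (X * W) * sl j (1 + vecMulVec w η) * (W' * X') := by
      rw [hY, hroot]; simp only [Matrix.mul_assoc]
    obtain ⟨K, hK⟩ := (hM.rf j).pure_root (hgood j) (vec_ne_of_unit hv (mul_eq_one_comm.1 (hkk i)))
      (covec_ne_of_unit hφ (mul_eq_one_comm.1 (hkk i))) (dot_of_unit hd (mul_eq_one_comm.1 (hkk i)))
      (inM_rI.2 (hX.mul hk)) (by rw [← map_mul, hXW, map_one]) hnp
      (by rw [← rI_conj_root j hXW, ← hY']; exact hpure j)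
    intro a b
    refine (rI j).injective ?_
    have e : rI j (Y - 1) = K ⊗ₖ (1 : mm) := by
      rw [map_sub, map_one, hY', rI_conj_root j hXW, add_sub_cancel_left]; exact hK
    rw [map_mul, map_mul, e, el, rI_sl_self, ← Matrix.mul_kronecker_mul, ← Matrix.mul_kronecker_mul,
      Matrix.one_mul, Matrix.mul_one, Matrix.one_mul, Matrix.mul_one]
  have hr : vecMulVec v φ ≠ (0 : mm) := vecMulVec_ne_zero hv hφ
  have hne : Y - 1 ≠ 0 := by
    intro h0
    rw [sub_eq_zero] at h0
    have h1 := congrArg (fun Z => X' * Z * X) h0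
    rw [hY] at h1
    simp only [← Matrix.mul_assoc, mul_eq_one_comm.1 hXX, Matrix.one_mul, Matrix.mul_one] at h1
    rw [Matrix.mul_assoc, mul_eq_one_comm.1 hXX, Matrix.mul_one] at h1
    have h2 := congrArg (rI i) h1
    rw [rI_sl_self, map_one, Matrix.kronecker_add, Matrix.one_kronecker_one, add_eq_left] at h2
    have : Nonempty ({l : ι // l ≠ i} → Fin m) := nonempty_others hM i
    obtain ⟨a⟩ := this
    refine hr (Matrix.ext fun p q => ?_)
    have := congrFun (congrFun h2 (a, p)) (a, q)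
    simpa using this
  obtain ⟨z, A, hz, e, hA⟩ := eq_wm_of_classified hne fun l => Or.inl (hsc l)
  have hA1 : A = fun _ => 1 := funext fun l => by
    rcases hA l with ⟨-, h⟩ | ⟨h, -⟩
    · exact h
    · exact absurd (hsc l) h
  rw [hA1, wm_one] at e
  have hsq : (Y - 1) * (Y - 1) = 0 := by
    have h1 : Y - 1 = X * sl i (vecMulVec v φ) * X' := by
      rw [hY, sl_add, sl_one, mul_add, mul_one, add_mul, hXX, add_sub_cancel_left]
    rw [h1]
    simp only [Matrix.mul_assoc]
    rw [← Matrix.mul_assoc X' X, mul_eq_one_comm.1 hXX, Matrix.one_mul, ← Matrix.mul_assoc (sl i _) (sl i _), sl_mul,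
      vecMulVec_mul_vecMulVec, hd, zero_smul, vecMulVec_zero, sl_zero, Matrix.zero_mul, Matrix.mul_zero]
  rw [e, Matrix.smul_mul, one_mul, smul_smul, smul_eq_zero] at hsq
  have : Nonempty (ι → Fin m) := ⟨fun _ => ⟨0, by omega⟩⟩
  exact hz (mul_self_eq_zero.1 (hsq.resolve_right one_ne_zero))

/-- With two factors an element moving every root of one factor to a tensor is monomial. -/
theorem OV.wreath_of_two (hM : OV M) (hgood : ∀ i, Good (slotM i M))
    (hpw : ∀ i X, Mem M X → IsPure (rI i X) → IsWreath X) (hι : Fintype.card ι ≤ 2) {X X' : MM} (hX : Mem M X)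
    (hXX : X * X' = 1) (i : ι) (hp : ∀ S : Pair (slotM i M), IsPure (1 + S.B)) : IsWreath X := by
  classical
  by_contra hnw
  have hm := hM.three
  obtain ⟨l, hl⟩ : ∃ l, l ≠ i := by
    by_contra hc
    push Not at hc
    have : Fintype.card ι = 1 := Fintype.card_eq_one_iff.2 ⟨i, hc⟩
    exact hnw (wreath_of_card_one this X)
  have hall : ∀ j, j = i ∨ j = l := by
    intro j
    by_contra hc
    rw [not_or] at hc
    have : ({i, l, j} : Finset ι).card ≤ 2 := (Finset.card_le_univ _).trans hι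
    rw [Finset.card_eq_three.2 ⟨i, l, j, Ne.symm hl, Ne.symm hc.1, Ne.symm hc.2, rfl⟩] at this
    omega
  have : Nonempty ({j : ι // j ≠ i} → Fin m) := nonempty_others hM i
  have : Nonempty ({j : ι // j ≠ l} → Fin m) := nonempty_others hM l
  have : NeZero m := ⟨by omega⟩
  set W0 : MM := wm (Equiv.swap i l) fun _ => 1
  have hW0 : W0 * W0 = 1 := by
    rw [wm_mul]; simp [wm_one]
  set Z := rI l (X * W0)
  set Z' := rI l (W0 * X')
  have hXW : (X * W0) * (W0 * X') = 1 := by
    rw [Matrix.mul_assoc, ← Matrix.mul_assoc W0, hW0, Matrix.one_mul, hXX]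
  have hZZ : Z * Z' = 1 := by rw [← map_mul, hXW, map_one]
  have hnp : ¬ IsPure (rI i X) := fun h => hnw (hpw i X hX h)
  have hlay : ∀ v : Fin m → F, v ≠ 0 → ∃ (u : Fin m → F) (h h' : Matrix ({j : ι // j ≠ l} → Fin m) ({j : ι // j ≠ l} → Fin m) F),
      u ≠ 0 ∧ Z * lft ({j : ι // j ≠ l} → Fin m) v = lft ({j : ι // j ≠ l} → Fin m) u * h ∧ h * h' = 1 := by
    intro v hv
    obtain ⟨φ, hφ, hφv, -⟩ := exists_annihilator (F := F) (by rw [Fintype.card_fin]; omega) v v
    let S : Pair (slotM i M) :=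
      { v := v, φ := φ, w := v, η := φ, X := rI i X, X' := rI i X'
        v_ne := hv, φ_ne := hφ, φv := hφv, w_ne := hv, η_ne := hφ, ηw := hφv
        mem := inM_rI.2 hX, inv := by rw [← map_mul, hXX, map_one], np := hnp }
    obtain ⟨K, hK⟩ := (hM.rf i).pure_root (hgood i) hv hφ hφv S.mem S.inv S.np (hp S)
    set Y := X * sl i (1 + vecMulVec v φ) * X' with hY
    set k : mm := Matrix.of fun x y => K (fun _ => x) (fun _ => y) with hk
    have hKY : Y - 1 = sl l k := by
      refine (rI i).injective ?_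
      rw [map_sub, map_one, hY, rI_conj_root i hXX, add_sub_cancel_left]
      refine hK.trans ?_
      rw [show rI i (sl l k : MM) = sl ⟨l, hl⟩ k ⊗ₖ (1 : mm) from rI_sl_ne i ⟨l, hl⟩ k]
      congr 1
      ext f g
      rw [sl_apply, if_pos (fun j hj => absurd (Subtype.ext ((hall j.1).resolve_left j.2)) hj), hk, Matrix.of_apply]
      congr 1 <;> funext j <;> exact congrArg _ (Subtype.ext ((hall j.1).resolve_left j.2))
    have hroot : sl i (1 + vecMulVec v φ) = W0 * sl l (1 + vecMulVec v φ) * W0 := by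
      rw [sl, sl, wm_mul, wm_mul]
      congr 1
      · simp
      · funext j
        rcases hall j with rfl | rfl
        · simp
        · simp [hl, Ne.symm hl]
    have hY' : Y = (X * W0) * sl l (1 + vecMulVec v φ) * (W0 * X') := by
      rw [hY, hroot]; simp only [Matrix.mul_assoc]
    have hprod : (Z * lft ({j : ι // j ≠ l} → Fin m) v) * (rgt ({j : ι // j ≠ l} → Fin m) φ * Z') =
        (1 : Matrix ({j : ι // j ≠ l} → Fin m) ({j : ι // j ≠ l} → Fin m) F) ⊗ₖ k := by
      rw [← rI_sl_self, ← hKY, map_sub, map_one, hY', rI_conj_root l hXW, add_sub_cancel_left]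
    refine factor_layer (fun h0 => ?_) hprod
    rw [h0, sl_zero, sub_eq_zero] at hKY
    have h1 := congrArg (fun T => X' * T * X) hKY
    rw [hY] at h1
    simp only [← Matrix.mul_assoc, mul_eq_one_comm.1 hXX, Matrix.one_mul, Matrix.mul_one] at h1
    rw [Matrix.mul_assoc, mul_eq_one_comm.1 hXX, Matrix.mul_one] at h1
    have h2 := congrArg (rI i) h1
    rw [rI_sl_self, map_one, Matrix.kronecker_add, Matrix.one_kronecker_one, add_eq_left] at h2
    obtain ⟨a⟩ := ‹Nonempty ({j : ι // j ≠ i} → Fin m)›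
    refine vecMulVec_ne_zero hv hφ (Matrix.ext fun p q => ?_)
    have := congrFun (congrFun h2 (a, p)) (a, q)
    simpa using this
  obtain ⟨h0, U, hZ⟩ := isPure_of_layers (by omega) hZZ hlay
  have hι' : Fintype.card {j : ι // j ≠ l} = 1 :=
    Fintype.card_eq_one_iff.2 ⟨⟨i, Ne.symm hl⟩, fun j => Subtype.ext ((hall j.1).resolve_right j.2)⟩
  have h1 := (isWreath_of_kron (wreath_of_card_one hι' h0) hZ).mul (⟨_, _, rfl⟩ : IsWreath W0)
  rw [Matrix.mul_assoc, hW0, Matrix.mul_one] at h1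
  exact hnw h1

theorem rank_sq_lt {n : Type} [Fintype n] [DecidableEq n] {x : Matrix n n F} (hx : IsNilpotent x) (h0 : x ≠ 0) :
    (x * x).rank < x.rank := by
  refine lt_of_le_of_ne (Matrix.rank_mul_le_left x x) fun he => h0 ?_
  have hle : LinearMap.range (x * x).mulVecLin ≤ LinearMap.range x.mulVecLin := by
    rw [Matrix.mulVecLin_mul]; exact LinearMap.range_comp_le_range _ _
  have heq := Submodule.eq_of_le_of_finrank_eq hle he
  have hall : ∀ k : ℕ, LinearMap.range (x ^ (k + 1)).mulVecLin = LinearMap.range x.mulVecLin := by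
    intro k
    induction k with
    | zero => rw [pow_one]
    | succ k ih =>
      rw [pow_succ' x (k + 1), Matrix.mulVecLin_mul, LinearMap.range_comp, ih, ← LinearMap.range_comp,
        ← Matrix.mulVecLin_mul, heq]
  obtain ⟨k, hk⟩ := hx
  have h1 := hall k
  rw [pow_succ, hk, zero_mul, Matrix.mulVecLin_zero, LinearMap.range_zero] at h1
  refine Matrix.ext_iff_mulVec.2 fun u => ?_
  rw [Matrix.zero_mulVec]
  have : x.mulVecLin u ∈ (⊥ : Submodule F (n → F)) := h1 ▸ LinearMap.mem_range_self _ u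
  simpa using this

theorem exists_pure_of_three_roots (hm : 3 ≤ m) (i : ι) {Z Z' : MM} (hZ : Z * Z' = 1) (e : Fin m → F)
    (ψ : Fin 3 → Fin m → F) (hψ : ∀ t, ψ t ⬝ᵥ e = 0) (hsum : ψ 2 = ψ 0 + ψ 1) (hF : IsF2 F)
    (hw : ∀ t, IsWreath (Z * sl i (1 + vecMulVec e (ψ t)) * Z')) :
    ∃ t, ∀ j, IsPure (rI j (Z * sl i (1 + vecMulVec e (ψ t)) * Z')) := by
  classical
  have hm2 : 2 ≤ m := by omega
  set Y := fun t => Z * sl i (1 + vecMulVec e (ψ t)) * Z' with hY
  choose π k hk using hw
  have hroot : ∀ s t, (1 + vecMulVec e (ψ s) : mm) * (1 + vecMulVec e (ψ t)) = 1 + vecMulVec e (ψ s + ψ t) := by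
    intro s t
    rw [mul_add, mul_one, add_mul, one_mul, vecMulVec_mul_vecMulVec, hψ, zero_smul, vecMulVec_zero, add_zero,
      vecMulVec_add, add_assoc]
  have hYY : ∀ s t, Y s * Y t = Z * sl i ((1 + vecMulVec e (ψ s)) * (1 + vecMulVec e (ψ t))) * Z' := by
    intro s t
    simp only [hY, Matrix.mul_assoc]
    rw [← Matrix.mul_assoc Z' Z, mul_eq_one_comm.1 hZ, Matrix.one_mul, ← Matrix.mul_assoc (sl i _) (sl i _), sl_mul]
  have h1 : ∀ t, Y t * Y t = 1 := by
    intro t
    rw [hYY, hroot, show ψ t + ψ t = 0 from funext fun x => by simp [hF.smul_self], vecMulVec_zero, add_zero,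
      sl_one, Matrix.mul_one, hZ]
  have hprod : Y 0 * Y 1 = Y 2 := by rw [hYY, hroot, ← hsum]
  have hnear : ∀ t, π t = 1 ∨ ∃ a b : ι, a ≠ b ∧ π t = Equiv.swap a b := by
    intro t
    refine swap_of_near_one hm (k := k t) (by rw [← hk t]; exact h1 t) (β := {j : ι // j ≠ i} → Fin m) ?_
      ((rI i Z * lft ({j : ι // j ≠ i} → Fin m) e).submatrix (eI i) id) ((rgt ({j : ι // j ≠ i} → Fin m) (ψ t) * rI i Z').submatrix id (eI i)) ?_
    · rw [Fintype.card_congr (eI (m := m) i), Fintype.card_prod, Fintype.card_fin]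
    · have h3 : rI i (Y t - 1) = rI i Z * lft ({j : ι // j ≠ i} → Fin m) e * (rgt ({j : ι // j ≠ i} → Fin m) (ψ t) * rI i Z') := by
        rw [map_sub, map_one, hY, rI_conj_root i hZ, add_sub_cancel_left]
      rw [← hk t, ← Matrix.submatrix_mul _ _ _ id _ Function.bijective_id, ← h3]
      ext f g
      rw [Matrix.submatrix_apply, rI_apply, Equiv.symm_apply_apply, Equiv.symm_apply_apply]
  have hperm : π 2 = π 1 * π 0 := by
    refine wm_perm_unique hm2 (k := k 2) (l := fun j => k 0 j * k 1 (π 0 j)) (Y := Y 2) ?_ ?_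
    · rw [← wm_mul, ← hk 0, ← hk 1, ← hk 2]; exact hprod.symm
    · rw [← hk 2]; exact h1 2
  obtain ⟨t, ht⟩ : ∃ t, π t = 1 := by
    by_contra hc
    push Not at hc
    have hs : ∀ t, Equiv.Perm.sign (π t) = -1 := fun t => by
      obtain ⟨a, b, hab, e⟩ := (hnear t).resolve_left (hc t)
      rw [e, Equiv.Perm.sign_swap hab]
    have := congrArg Equiv.Perm.sign hperm
    rw [map_mul, hs, hs, hs] at this
    exact absurd this (by decide)
  exact ⟨t, fun j => ⟨_, _, by rw [hk t, ht, rI_tens]⟩⟩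

/-- Over the field with two elements the conjugates of roots are monomial. -/
theorem OV.root_wreath_two (hM : OV M) (hgood : ∀ i, Good (slotM i M))
    (hpw : ∀ i X, Mem M X → IsPure (rI i X) → IsWreath X) (hF : IsF2 F) (i : ι) (e : Fin m → F) (he : e ≠ 0)
    (ψ : Fin 3 → Fin m → F) (hψ0 : ∀ t, ψ t ≠ 0) (hψ : ∀ t, ψ t ⬝ᵥ e = 0) (hsum : ψ 2 = ψ 0 + ψ 1) :
    ∀ S : Pair (slotM i M), IsWreath ((rI i).symm (1 + S.B)) := by
  classical
  have hm := hM.three
  have : Nonempty ({j : ι // j ≠ i} → Fin m) := nonempty_others hM i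
  have hodd : m = 3 → Odd (Fintype.card ({j : ι // j ≠ i} → Fin m)) := fun h => by
    rw [card_others, h]; exact Odd.pow (by decide)
  let μ : Pair (slotM i M) → ℕ := fun S =>
    ∑ t, ((rgt ({j : ι // j ≠ i} → Fin m) (ψ t) * S.P) * (S.Q * lft ({j : ι // j ≠ i} → Fin m) e)).rank
  suffices key : ∀ n, ∀ S : Pair (slotM i M), μ S = n → IsWreath ((rI i).symm (1 + S.B)) from fun S => key _ S rfl
  intro n
  induction n using Nat.strong_induction_on with
  | _ n ih =>
    intro S hS
    have hmem : Mem M ((rI i).symm (1 + S.B)) := by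
      rw [← inM_rI (i := i), AlgEquiv.apply_symm_apply]
      simpa using S.inM_B (hM.rf i) 1
    by_cases hp : IsPure (1 + S.B)
    · exact hpw i _ hmem (by rwa [AlgEquiv.apply_symm_apply])
    let St : Fin 3 → Pair (slotM i M) := fun t =>
      { S with v := e, φ := ψ t, v_ne := he, φ_ne := hψ0 t, φv := hψ t }
    have hBt : ∀ t, (St t).B = S.B := fun t => rfl
    have hneg : ∀ X : Matrix ({j : ι // j ≠ i} → Fin m) ({j : ι // j ≠ i} → Fin m) F, -X = X :=
      fun X => neg_eq_of_add_eq_zero_left (hF.smul_self X)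
    have hx0 : ∀ t, (St t).x ≠ 0 := fun t h0 => hp ((St t).pure_of_x_zero (hM.rf i) (hgood i) h0)
    have hxn : ∀ t, IsNilpotent (St t).x := fun t => (St t).nilpotent_of_two hF hodd (hM.rf i) (hgood i)
    let S' : Fin 3 → Pair (slotM i M) := fun t => (St t).shift (hM.rf i) (hgood i) hp 1 one_ne_zero
    have hx' : ∀ t s, (rgt ({j : ι // j ≠ i} → Fin m) (ψ s) * (S' t).P) * ((S' t).Q * lft ({j : ι // j ≠ i} → Fin m) e) = (St s).x * (St t).x := by
      intro t s
      have eC : rgt ({j : ι // j ≠ i} → Fin m) (ψ s) * (S' t).P = (St s).x := by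
        show rgt ({j : ι // j ≠ i} → Fin m) (ψ s) * ((1 + (1 : F) • S.B) * lft ({j : ι // j ≠ i} → Fin m) e) = _
        rw [one_smul, Matrix.add_mul, Matrix.one_mul, Matrix.mul_add, rgt_mul_lft, hψ, zero_smul, zero_add,
          Pair.x, Pair.C, Pair.D, Pair.B]
        simp only [Matrix.mul_assoc]; rfl
      have eD : (S' t).Q * lft ({j : ι // j ≠ i} → Fin m) e = (St t).x := by
        show rgt ({j : ι // j ≠ i} → Fin m) (ψ t) * (1 - (1 : F) • S.B) * lft ({j : ι // j ≠ i} → Fin m) e = _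
        rw [one_smul, Matrix.mul_sub, Matrix.mul_one, Matrix.sub_mul, rgt_mul_lft, hψ, zero_smul, zero_sub, hneg,
          Pair.x, Pair.C, Pair.D, Pair.B]
        simp only [Matrix.mul_assoc]; rfl
      rw [eC, eD]
    have hlt : ∀ t, μ (S' t) < n := by
      intro t
      rw [← hS]
      refine Finset.sum_lt_sum (fun s _ => ?_) ⟨t, Finset.mem_univ t, ?_⟩
      · rw [hx']; exact Matrix.rank_mul_le_left _ _
      · rw [hx']; exact rank_sq_lt (hxn t) (hx0 t)
    set Z := (rI i).symm (1 + S.B) with hZ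
    set Z' := (rI i).symm (1 - S.B) with hZ'
    have hZZ : Z * Z' = 1 := by
      rw [hZ, hZ', ← map_mul, mul_sub, mul_one, add_mul, one_mul, S.B_sq, add_zero, add_sub_cancel_right, map_one]
    have hY : ∀ t, IsWreath (Z * sl i (1 + vecMulVec e (ψ t)) * Z') := by
      intro t
      have h1 := ih _ (hlt t) (S' t) rfl
      convert h1 using 1
      refine (rI i).injective ?_
      rw [rI_conj_root i hZZ, hZ, hZ', AlgEquiv.apply_symm_apply, AlgEquiv.apply_symm_apply, AlgEquiv.apply_symm_apply]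
      show _ = 1 + (1 + (1 : F) • S.B) * lft ({j : ι // j ≠ i} → Fin m) e * (rgt ({j : ι // j ≠ i} → Fin m) (ψ t) * (1 - (1 : F) • S.B))
      rw [one_smul]
    obtain ⟨t, ht⟩ := exists_pure_of_three_roots hm i hZZ e ψ hψ hsum hF hY
    exact hM.wreath_of_all_pure (Or.inr hF.two) hgood hpw hmem hZZ i he (hψ0 t) (hψ t) ht

/-- When all layers are scalar the group consists of monomial tensors. -/
theorem OV.wreath_of_good [Nonempty ι] (hM : OV M) (hgood : ∀ i, Good (slotM i M))
    (hpw : ∀ i X, Mem M X → IsPure (rI i X) → IsWreath X) {X : MM} (hX : Mem M X) : IsWreath X := by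
  classical
  have hm := hM.three
  by_contra hnw
  obtain ⟨X', hXX⟩ := hX.exists_inv
  obtain ⟨i⟩ := ‹Nonempty ι›
  let x0 : Fin m := ⟨0, by omega⟩
  let x1 : Fin m := ⟨1, by omega⟩
  let x2 : Fin m := ⟨2, by omega⟩
  have h01 : x0 ≠ x1 := by simp [x0, x1, Fin.ext_iff]
  have h02 : x0 ≠ x2 := by simp [x0, x2, Fin.ext_iff]
  have h12 : x1 ≠ x2 := by simp [x1, x2, Fin.ext_iff]
  have hne : ∀ x : Fin m, (Pi.single x (1 : F) : Fin m → F) ≠ 0 := fun x => by simp [Pi.single_eq_zero_iff]
  set e : Fin m → F := Pi.single x0 1 with he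
  have : Nonempty ({j : ι // j ≠ i} → Fin m) := nonempty_others hM i
  by_cases hF : IsF2 F
  · let ψ : Fin 3 → Fin m → F := ![Pi.single x1 1, Pi.single x2 1, Pi.single x1 1 + Pi.single x2 1]
    have hψ : ∀ t, ψ t ⬝ᵥ e = 0 := by
      intro t
      fin_cases t <;> simp [ψ, he, add_dotProduct, h01, h02, h01.symm, h02.symm]
    have hψ0 : ∀ t, ψ t ≠ 0 := by
      intro t
      fin_cases t
      · exact hne x1
      · exact hne x2
      · intro h0
        have := congrFun h0 x1
        simp [ψ, h12] at this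
    have hnp : ¬ IsPure (rI i X) := fun hp => hnw (hpw i X hX hp)
    have hY : ∀ t, IsWreath (X * sl i (1 + vecMulVec e (ψ t)) * X') := by
      intro t
      have h1 := hM.root_wreath_two hgood hpw hF i e (hne x0) ψ hψ0 hψ rfl
        { v := e, φ := ψ t, w := e, η := ψ t, X := rI i X, X' := rI i X'
          v_ne := hne x0, φ_ne := hψ0 t, φv := hψ t, w_ne := hne x0, η_ne := hψ0 t, ηw := hψ t
          mem := inM_rI.2 hX, inv := by rw [← map_mul, hXX, map_one], np := hnp }
      convert h1 using 1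
      refine (rI i).injective ?_
      rw [rI_conj_root i hXX, AlgEquiv.apply_symm_apply]
      rfl
    obtain ⟨t, ht⟩ := exists_pure_of_three_roots hm i hXX e ψ hψ rfl hF hY
    exact hnw (hM.wreath_of_all_pure (Or.inr hF.two) hgood hpw hX hXX i (hne x0) (hψ0 t) (hψ t) ht)
  · simp only [IsF2, not_forall] at hF
    obtain ⟨c, hc0, hc1⟩ := hF
    have h3' : ∃ c : F, c ≠ 0 ∧ c + 1 ≠ 0 := by
      by_cases h2 : (2 : F) = 0
      · exact ⟨c, hc0, fun h => hc1 (by linear_combination h - h2)⟩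
      · exact ⟨1, one_ne_zero, by rwa [one_add_one_eq_two]⟩
    by_cases hperm : 3 ≤ Fintype.card ι ∨ (2 : F) = 0
    swap
    · simp only [not_or] at hperm
      refine hnw (hM.wreath_of_two hgood hpw ?_ hX hXX i fun S => ?_)
      · omega
      · exact (hM.rf i).root_pure_three (hgood i) ⟨c, hc0, hc1⟩ h3' S
    set η : Fin m → F := Pi.single x1 1 with hη
    have hd : η ⬝ᵥ e = 0 := by simp [hη, he, h01, h01.symm]
    refine hnw (hM.wreath_of_all_pure hperm hgood hpw hX hXX i (hne x0) (hne x1) hd fun j => ?_)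
    have : Nonempty ({l : ι // l ≠ j} → Fin m) := nonempty_others hM j
    obtain ⟨k, k', hkk, hk, hk'⟩ := hM.perm' hperm (Equiv.swap i j)
    set σ := Equiv.swap i j with hσ
    have hWW : (wm σ k : MM) * wm σ⁻¹ (fun l => k' (σ⁻¹ l)) = 1 := wm_mul_inv σ k k' hkk
    have hroot : sl i (1 + vecMulVec e η) =
        (wm σ k : MM) * sl j (1 + vecMulVec (k' i *ᵥ e) (η ᵥ* k i)) * wm σ⁻¹ (fun l => k' (σ⁻¹ l)) := by
      have e1 : (wm σ k : MM) * sl j (1 + vecMulVec (k' i *ᵥ e) (η ᵥ* k i)) = sl i (1 + vecMulVec e η) * wm σ k := by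
        rw [sl, sl, wm_mul, wm_mul]
        simp only [mul_one, one_mul]
        congr 1
        funext l
        rw [Equiv.Perm.one_apply]
        by_cases hl : l = i
        · subst hl
          rw [Function.update_self, hσ, Equiv.swap_apply_left, Function.update_self]
          rw [← Matrix.vecMulVec_mul, ← Matrix.mul_vecMulVec, mul_add, mul_one, ← mul_assoc, ← mul_assoc, hkk l,
            one_mul, add_mul, one_mul]
        · have : σ l ≠ j := fun h => hl (σ.injective (by rw [h, hσ, Equiv.swap_apply_left]))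
          rw [Function.update_of_ne hl, Function.update_of_ne this, mul_one, one_mul]
      rw [e1, Matrix.mul_assoc, hWW, Matrix.mul_one]
    set W : MM := wm σ k
    set W' : MM := wm σ⁻¹ fun l => k' (σ⁻¹ l)
    have hXW : (X * W) * (W' * X') = 1 := by
      rw [Matrix.mul_assoc, ← Matrix.mul_assoc W, hWW, Matrix.one_mul, hXX]
    have hnp : ¬ IsPure (rI j (X * W)) := by
      intro hp
      refine hnw ?_
      have h1 := (hpw j _ (hX.mul hk) hp).mul (⟨_, _, rfl⟩ : IsWreath W')
      rwa [Matrix.mul_assoc, hWW, Matrix.mul_one] at h1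
    have hkk' := mul_eq_one_comm.1 (hkk i)
    let S : Pair (slotM j M) :=
      { v := k' i *ᵥ e, φ := η ᵥ* k i, w := k' i *ᵥ e, η := η ᵥ* k i, X := rI j (X * W), X' := rI j (W' * X')
        v_ne := vec_ne_of_unit (hne x0) hkk', φ_ne := covec_ne_of_unit (hne x1) hkk', φv := dot_of_unit hd hkk'
        w_ne := vec_ne_of_unit (hne x0) hkk', η_ne := covec_ne_of_unit (hne x1) hkk', ηw := dot_of_unit hd hkk'
        mem := inM_rI.2 (hX.mul hk), inv := by rw [← map_mul, hXW, map_one], np := hnp }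
    have h1 := (hM.rf j).root_pure_three (hgood j) ⟨c, hc0, hc1⟩ h3' S
    have e2 : X * sl i (1 + vecMulVec e η) * X' =
        (X * W) * sl j (1 + vecMulVec (k' i *ᵥ e) (η ᵥ* k i)) * (W' * X') := by
      rw [hroot]; simp only [Matrix.mul_assoc]
    rw [e2, rI_conj_root j hXW]
    exact h1

/-- A group containing the factor groups and the permutations contains all transvections or is monomial. -/
theorem dichotomy : ∀ (n : ℕ) {ι : Type} [Fintype ι] [DecidableEq ι] {M : Subgroup (GL (ι → Fin m) F)},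
    Fintype.card ι = n + 1 → OV M → (2 ≤ Fintype.card ι ∧ Full M) ∨ ∀ X, Mem M X → IsWreath X := by
  intro n
  induction n with
  | zero => intro ι _ _ M hι _; exact Or.inr fun X _ => wreath_of_card_one hι X
  | succ n ih =>
    intro ι _ _ M hι hM
    by_cases hgood : ∀ i, Good (slotM i M)
    · right
      have : Nonempty ι := Fintype.card_pos_iff.1 (by omega)
      refine fun X hX => hM.wreath_of_good hgood (fun i Y hY hp => ?_) hX
      have hc : Fintype.card {j : ι // j ≠ i} = n + 1 := by simp; omega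
      have : Nonempty ({j : ι // j ≠ i} → Fin m) := nonempty_others hM i
      have : NeZero m := ⟨by have := hM.three; omega⟩
      rcases ih hc (hM.others_ov i) with ⟨h2, hfull⟩ | hall
      · exact absurd hfull (hM.not_full_others hgood i h2)
      obtain ⟨g, h, e⟩ := hp
      obtain ⟨Y', hYY⟩ := hY.exists_inv
      have hu := kron_factors_ne (X' := rI i Y') (by rw [← map_mul, hYY, map_one]) e
      let y : GL ({j : ι // j ≠ i} → Fin m) F :=
        ⟨g, g⁻¹, Matrix.mul_nonsing_inv g hu.1, Matrix.nonsing_inv_mul g hu.1⟩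
      exact isWreath_of_kron (hall g ⟨y, ⟨h, by show InM (slotM i M) (g ⊗ₖ h); rw [← e]; exact inM_rI.2 hY⟩, rfl⟩) e
    · push Not at hgood
      obtain ⟨i, hi⟩ := hgood
      exact Or.inl ⟨by omega, hM.full_of_bad i hi⟩

end Cfsg.Agent.H5.C7
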