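import Cfsg.Agent.H5.C7.Pure
import Cfsg.Agent.H5.C7.Algebra
import Cfsg.Agent.H5.C7.Group

/-!
A root group of the right factor and a conjugate of one, by an element which is not a pure tensor:
the elements of `M` of the shape generated by the two, and the Sylow structure of this group.
-/

set_option autoImplicit false
set_option linter.unusedSectionVars false

namespace Cfsg.Agent.H5.C7

open Matrix Cfsg.Agent.H99.Tensor
open scoped Kronecker

variable {F : Type*} [Field F] {α : Type} [Fintype α] [DecidableEq α] {b : ℕ}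

local notation "Ix" => α × Fin b
local notation "Mat" => Matrix (α × Fin b) (α × Fin b) F

/-- A root group at `(v, φ)` and the conjugate by `X` of the root group at `(w, η)`. -/
structure Pair (M : Subgroup (GL (α × Fin b) F)) where
  v : Fin b → F
  φ : Fin b → F
  w : Fin b → F
  η : Fin b → F
  X : Matrix (α × Fin b) (α × Fin b) F
  X' : Matrix (α × Fin b) (α × Fin b) F
  v_ne : v ≠ 0
  φ_ne : φ ≠ 0
  φv : φ ⬝ᵥ v = 0
  w_ne : w ≠ 0
  η_ne : η ≠ 0
  ηw : η ⬝ᵥ w = 0
  mem : InM M X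
  inv : X * X' = 1
  np : ¬ IsPure X

namespace Pair

variable {M : Subgroup (GL (α × Fin b) F)} (S : Pair M)

def A : Mat := lft α S.v * rgt α S.φ
def P : Matrix Ix α F := S.X * lft α S.w
def Q : Matrix α Ix F := rgt α S.η * S.X'
def B : Mat := S.P * S.Q
def C : Matrix α α F := rgt α S.φ * S.P
def D : Matrix α α F := S.Q * lft α S.v
def x : Matrix α α F := S.C * S.D
def T : Mat := Th S.A S.B

theorem inv' : S.X' * S.X = 1 := mul_eq_one_comm.1 S.inv

theorem QP : S.Q * S.P = 0 := by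
  rw [Q, P, Matrix.mul_assoc, ← Matrix.mul_assoc S.X', S.inv', Matrix.one_mul, rgt_mul_lft, S.ηw, zero_smul]

theorem A_sq : S.A * S.A = 0 := by
  rw [A, Matrix.mul_assoc, ← Matrix.mul_assoc (rgt α S.φ), rgt_mul_lft, S.φv, zero_smul,
    Matrix.zero_mul, Matrix.mul_zero]

theorem B_sq : S.B * S.B = 0 := by
  rw [B, Matrix.mul_assoc, ← Matrix.mul_assoc S.Q, S.QP, Matrix.zero_mul, Matrix.mul_zero]

theorem A_v : S.A * lft α S.v = 0 := by
  rw [A, Matrix.mul_assoc, rgt_mul_lft, S.φv, zero_smul, Matrix.mul_zero]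

theorem φ_A : rgt α S.φ * S.A = 0 := by
  rw [A, ← Matrix.mul_assoc, rgt_mul_lft, S.φv, zero_smul, Matrix.zero_mul]

theorem T_v : S.T * lft α S.v = lft α S.v * S.x := by
  rw [T, Th, Matrix.add_mul, Matrix.mul_assoc S.B, S.A_v, Matrix.mul_zero, add_zero, A, B, x, C, D]
  simp only [Matrix.mul_assoc]

theorem φ_T : rgt α S.φ * S.T = S.x * rgt α S.φ := by
  rw [T, Th, Matrix.mul_add, ← Matrix.mul_assoc _ S.A, S.φ_A, Matrix.zero_mul, zero_add, A, B, x, C, D]
  simp only [Matrix.mul_assoc]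

theorem Tpow_v (n : ℕ) : S.T ^ n * lft α S.v = lft α S.v * S.x ^ n := by
  induction n with
  | zero => rw [pow_zero, pow_zero, Matrix.one_mul, Matrix.mul_one]
  | succ n ih => rw [pow_succ, pow_succ, Matrix.mul_assoc, S.T_v, ← Matrix.mul_assoc, ih, Matrix.mul_assoc]

theorem φ_Tpow (n : ℕ) : rgt α S.φ * S.T ^ n = S.x ^ n * rgt α S.φ := by
  induction n with
  | zero => rw [pow_zero, pow_zero, Matrix.one_mul, Matrix.mul_one]
  | succ n ih => rw [pow_succ, pow_succ, ← Matrix.mul_assoc, ih, Matrix.mul_assoc, S.φ_T, ← Matrix.mul_assoc]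

theorem inM_A (H : RF M) (c : F) : InM M (1 + c • S.A) := by
  have := H.root (v := c • S.v) (ψ := S.φ) (by rw [dotProduct_smul, S.φv, smul_zero])
  rwa [lft_smul, Matrix.smul_mul] at this

theorem inM_B (H : RF M) (c : F) : InM M (1 + c • S.B) := by
  have := (H.root (v := c • S.w) (ψ := S.η) (by rw [dotProduct_smul, S.ηw, smul_zero])).conj S.mem S.inv
  convert this using 2
  rw [lft_smul, B, P, Q]
  simp [Matrix.mul_assoc]

theorem np' [Nonempty α] [NeZero b] : ¬ IsPure S.X' := fun h => S.np (IsPure.of_inv S.inv' h)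

theorem P_ne [Nonempty α] (H : RF M) (hgood : Good M) {ψ : Fin b → F} (hψ : ψ ≠ 0) : rgt α ψ * S.P ≠ 0 := by
  rw [P, ← Matrix.mul_assoc]
  exact H.contraction_ne hgood S.mem S.inv S.np hψ S.w_ne

theorem Q_ne [Nonempty α] (H : RF M) (hgood : Good M) {z : Fin b → F} (hz : z ≠ 0) : S.Q * lft α z ≠ 0 := by
  have := H.neZero
  rw [Q]
  exact H.contraction_ne hgood (S.mem.inv S.inv) S.inv' S.np' S.η_ne hz

theorem P_inj {n : Type} {K : Matrix α n F} (h : S.P * K = 0) : K = 0 := by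
  refine lft_injective S.w_ne ?_
  have := congrArg (S.X' * ·) h
  simpa [P, ← Matrix.mul_assoc, S.inv'] using this

theorem ABA : S.A * S.B * S.A = lft α S.v * S.x * rgt α S.φ := by
  rw [A, B, x, C, D]; simp only [Matrix.mul_assoc]

section Idem

variable {N : ℕ} (hN : 0 < N) (hid : S.T ^ N * S.T ^ N = S.T ^ N)
include hN hid

theorem commE_A : Commute (S.T ^ N) S.A := (Th_comm_left S.A_sq).pow_left N

theorem commE_B : Commute (S.T ^ N) S.B := (Th_comm_right S.B_sq).pow_left N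

/-- The image of the idempotent lies in the sum of the two layers. -/
theorem e_split {n : Type} (W : Matrix Ix n F) : S.T ^ N * W = lft α S.v * (rgt α S.φ * S.B * (S.T ^ (N - 1) * W)) +
    S.P * (S.Q * S.A * (S.T ^ (N - 1) * W)) := by
  have h := pow_eq_split (A := S.A) (B := S.B) hN
  change (Th S.A S.B) ^ N * W = _
  rw [h, Matrix.add_mul]
  congr 1
  · simp only [A, T, Matrix.mul_assoc]
  · simp only [B, T, Matrix.mul_assoc]

/-- The idempotent fixes the first layer exactly when `x` is invertible. -/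
theorem e_fix [Nonempty α] (hv : S.T ^ N * lft α S.v = lft α S.v) :
    IsUnit S.C.det ∧ IsUnit S.D.det ∧ S.T ^ N * S.P = S.P ∧ rgt α S.φ * S.T ^ N = rgt α S.φ := by
  have hx : S.x ^ N = 1 := lft_injective S.v_ne (by rw [← S.Tpow_v, hv, Matrix.mul_one])
  have hxd : IsUnit S.x.det := by
    have := congrArg Matrix.det hx
    rw [Matrix.det_pow, Matrix.det_one] at this
    exact IsUnit.of_pow_eq_one this (by omega)
  rw [x, Matrix.det_mul] at hxd
  obtain ⟨hC, hD⟩ := IsUnit.mul_iff.1 hxd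
  refine ⟨hC, hD, ?_, by rw [S.φ_Tpow, hx, Matrix.one_mul]⟩
  have h1 : S.T ^ N * S.P * S.D = S.P * S.D := by
    have h2 : S.B * lft α S.v = S.P * S.D := by rw [B, D, Matrix.mul_assoc]
    rw [Matrix.mul_assoc, ← h2, ← Matrix.mul_assoc, (S.commE_B hN hid).eq, Matrix.mul_assoc, hv]
  have := congrArg (· * S.D⁻¹) h1
  simpa [Matrix.mul_assoc, Matrix.mul_nonsing_inv _ hD] using this

/-- Pure elements of the right factor which are trivial off the idempotent move everything along `v`. -/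
theorem single [Nonempty α] (H : RF M) (hgood : Good M) {h : Matrix (Fin b) (Fin b) F}
    (htriv : (((1 : Matrix α α F) ⊗ₖ h : Mat) - 1) * (1 - S.T ^ N) = 0)
    (hcomm : Commute (S.T ^ N) ((1 : Matrix α α F) ⊗ₖ h)) (u1 : Fin b → F) :
    ∃ c : F, h *ᵥ u1 - u1 = c • S.v := by
  set u := h *ᵥ u1 - u1 with hu
  set y : Mat := (1 : Matrix α α F) ⊗ₖ h
  have hlu : lft α u = (y - 1) * lft α u1 := by
    rw [Matrix.sub_mul, kron_lft, Matrix.one_mul, Matrix.mul_one, hu, sub_eq_add_neg, lft_add, ← neg_one_smul F,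
      lft_smul, neg_one_smul, ← sub_eq_add_neg]
  have hye : (y - 1) * S.T ^ N = y - 1 := by
    rw [mul_sub, mul_one, sub_eq_zero] at htriv; exact htriv.symm
  have heu : S.T ^ N * lft α u = lft α u := by
    rw [hlu, ← Matrix.mul_assoc, (hcomm.sub_right (Commute.one_right _)).eq, hye]
  have hsp := S.e_split hN hid (lft α u)
  rw [heu] at hsp
  set K1 := rgt α S.φ * S.B * (S.T ^ (N - 1) * lft α u) with hK1
  set K2 := S.Q * S.A * (S.T ^ (N - 1) * lft α u) with hK2
  by_cases hφu : S.φ ⬝ᵥ u = 0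
  · have hK20 : K2 = 0 := by
      have hc : Commute S.A (S.T ^ (N - 1)) := ((Th_comm_left S.A_sq).pow_left _).symm
      rw [hK2, Matrix.mul_assoc, ← Matrix.mul_assoc S.A, hc.eq, Matrix.mul_assoc _ S.A, A,
        Matrix.mul_assoc (lft α S.v), rgt_mul_lft, hφu, zero_smul]
      simp
    rw [hK20, Matrix.mul_zero, add_zero] at hsp
    exact exists_eq_smul_of_lft_mul (one_ne_zero (α := Matrix α α F)) (by rw [Matrix.mul_one]; exact hsp)
  · exfalso
    have hAu : S.A * lft α u = (S.φ ⬝ᵥ u) • lft α S.v := by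
      rw [A, Matrix.mul_assoc, rgt_mul_lft, Matrix.mul_smul, Matrix.mul_one]
    have hv : S.T ^ N * lft α S.v = lft α S.v := by
      have : S.T ^ N * (S.A * lft α u) = S.A * lft α u := by
        rw [← Matrix.mul_assoc, (S.commE_A hN hid).eq, Matrix.mul_assoc, heu]
      rw [hAu, Matrix.mul_smul] at this
      exact smul_right_injective _ hφu this
    obtain ⟨hC, -, -, -⟩ := S.e_fix hN hid hv
    have h1 : (S.φ ⬝ᵥ u) • (1 : Matrix α α F) = S.C * K2 := by
      rw [← rgt_mul_lft, hsp, Matrix.mul_add, ← Matrix.mul_assoc, rgt_mul_lft, S.φv, zero_smul,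
        Matrix.zero_mul, zero_add, C, Matrix.mul_assoc]
    have hK2u : IsUnit K2.det := by
      have h2 := congrArg Matrix.det h1
      rw [Matrix.det_smul, Matrix.det_one, mul_one, Matrix.det_mul] at h2
      exact isUnit_of_mul_isUnit_right (h2 ▸ (isUnit_iff_ne_zero.2 hφu).pow _)
    obtain ⟨ψ, hψ, hψu, hψv⟩ :=
      exists_annihilator (F := F) (by rw [Fintype.card_fin]; exact H.three) u S.v
    refine S.P_ne H hgood hψ ?_
    have h3 : rgt α ψ * S.P * K2 = 0 := by
      have := congrArg (rgt α ψ * ·) hsp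
      simp only [Matrix.mul_add, ← Matrix.mul_assoc, rgt_mul_lft, hψu, hψv, zero_smul, Matrix.zero_mul,
        zero_add] at this
      exact this.symm
    have := congrArg (· * K2⁻¹) h3
    simpa [Matrix.mul_assoc, Matrix.mul_nonsing_inv _ hK2u] using this

/-- Elements trivial off the idempotent normalising the root group lie in it. -/
theorem lemL [Nonempty α] (H : RF M) (hgood : Good M) {y y' : Mat} (hy : InM M y) (hyy : y * y' = 1)
    (htriv : (y - 1) * (1 - S.T ^ N) = 0) (hcomm : Commute (S.T ^ N) y) {c : F} (hc : c ≠ 0)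
    (hA : y * S.A = c • (S.A * y)) : ∃ d : F, y = 1 + d • S.A := by
  obtain ⟨k, hm, μ, ν, hk, -, hμ, -, hye, hmv, -⟩ := H.pure_of_comm hgood S.v_ne S.φ_ne hy hyy hc hA
  have hye' : (y - 1) * S.T ^ N = y - 1 := by
    rw [mul_sub, mul_one, sub_eq_zero] at htriv; exact htriv.symm
  -- on the kernel of `φ` the idempotent maps into the first layer
  have hker : ∀ u : Fin b → F, S.φ ⬝ᵥ u = 0 → ∃ K : Matrix α α F, S.T ^ N * lft α u = lft α S.v * K := by
    intro u hu
    refine ⟨rgt α S.φ * S.B * (S.T ^ (N - 1) * lft α u), ?_⟩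
    rw [S.e_split hN hid]
    have hAu : S.A * lft α u = 0 := by rw [A, Matrix.mul_assoc, rgt_mul_lft, hu, zero_smul, Matrix.mul_zero]
    have hc : Commute S.A (S.T ^ (N - 1)) := ((Th_comm_left S.A_sq).pow_left _).symm
    rw [Matrix.mul_assoc S.Q, ← Matrix.mul_assoc S.A, hc.eq, Matrix.mul_assoc _ S.A, hAu, Matrix.mul_zero,
      Matrix.mul_zero, Matrix.mul_zero, add_zero]
  -- the left factor is scalar
  obtain ⟨t, ht⟩ : ∃ t : F, t • k = 1 := by
    obtain ⟨η0, hη0⟩ := exists_dual S.v_ne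
    have hb : 3 ≤ Fintype.card (Fin b) := by rw [Fintype.card_fin]; exact H.three
    obtain ⟨ψ, hψ, hψv, hψ'⟩ : ∃ ψ : Fin b → F, ψ ≠ 0 ∧ ψ ⬝ᵥ S.v = 0 ∧ ∀ c : F, ψ ≠ c • S.φ := by
      obtain ⟨z, hz⟩ := exists_dual' S.φ_ne
      obtain ⟨ψ, h1, h2, h3⟩ := exists_annihilator (F := F) hb S.v z
      refine ⟨ψ, h1, h2, fun c hc => h1 ?_⟩
      rw [hc, smul_dotProduct, hz, smul_eq_mul, mul_one] at h3
      rw [hc, h3, zero_smul]
    obtain ⟨u, hu1, hu2⟩ : ∃ u : Fin b → F, S.φ ⬝ᵥ u = 0 ∧ ψ ⬝ᵥ u = 1 := by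
      obtain ⟨z, hz⟩ := exists_dual' S.φ_ne
      have hne : ψ - (ψ ⬝ᵥ z) • S.φ ≠ 0 := sub_ne_zero.2 (hψ' _)
      obtain ⟨u', hu'⟩ := exists_dual' hne
      refine ⟨u' - (S.φ ⬝ᵥ u') • z, by rw [dotProduct_sub, dotProduct_smul, hz, smul_eq_mul, mul_one, sub_self], ?_⟩
      rw [sub_dotProduct, smul_dotProduct, smul_eq_mul] at hu'
      rw [dotProduct_sub, dotProduct_smul, smul_eq_mul]
      linear_combination hu'
    obtain ⟨K, hK⟩ := hker u hu1
    refine ⟨ψ ⬝ᵥ (hm *ᵥ u), ?_⟩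
    have h1 : rgt α ψ * ((y - 1) * lft α u) = 0 := by
      rw [← hye', Matrix.mul_assoc, hK, ← Matrix.mul_assoc (y - 1), Matrix.sub_mul, hye, kron_lft, hmv,
        Matrix.one_mul, ← Matrix.mul_assoc, Matrix.mul_sub, ← Matrix.mul_assoc, rgt_mul_lft, rgt_mul_lft,
        dotProduct_smul, hψv, smul_zero, zero_smul, Matrix.zero_mul, sub_zero, Matrix.zero_mul]
    rw [Matrix.sub_mul, hye, kron_lft, Matrix.one_mul, Matrix.mul_sub, ← Matrix.mul_assoc, rgt_mul_lft,
      rgt_mul_lft, hu2, one_smul, Matrix.smul_mul, Matrix.one_mul, sub_eq_zero] at h1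
    exact h1
  have ht0 : t ≠ 0 := by intro h0; rw [h0, zero_smul] at ht; exact zero_ne_one ht
  set h := t⁻¹ • hm with hh
  have hyh : y = (1 : Matrix α α F) ⊗ₖ h := by
    rw [hh, Matrix.kronecker_smul, ← Matrix.smul_kronecker, ← ht, smul_smul, inv_mul_cancel₀ ht0, one_smul, hye]
  have hspan := S.single hN hid H hgood (h := h) (hyh ▸ htriv) (hyh ▸ hcomm)
  obtain ⟨η0, hη0⟩ := exists_dual S.v_ne
  set ψ := η0 ᵥ* (h - 1) with hψdef
  have hh1 : h - 1 = vecMulVec S.v ψ := Matrix.ext_iff_mulVec.2 fun u => by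
    obtain ⟨d, hd⟩ := hspan u
    rw [Matrix.vecMulVec_mulVec, hψdef, ← dotProduct_mulVec, Matrix.sub_mulVec, Matrix.one_mulVec, hd,
      dotProduct_smul, hη0, smul_eq_mul, mul_one]
    ext i; simp [mul_comm]
  have hy1 : y - 1 = lft α S.v * rgt α ψ := by
    rw [lft_mul_rgt, ← hh1, hyh]
    conv_lhs => rw [← Matrix.one_kronecker_one (α := F) (m := α) (n := Fin b)]
    ext ⟨i, i'⟩ ⟨j, j'⟩
    by_cases h1 : i = j <;> by_cases h2 : i' = j' <;> simp [mul_sub, Matrix.one_apply, h1, h2]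
  have hψe : rgt α ψ * S.T ^ N = rgt α ψ := by
    rw [hy1, Matrix.mul_assoc] at hye'
    exact lft_injective S.v_ne hye'
  have hψv : ψ ⬝ᵥ S.v = 0 := by
    by_contra hne
    have hv : S.T ^ N * lft α S.v = lft α S.v := by
      have h1 : (y - 1) * lft α S.v = (ψ ⬝ᵥ S.v) • lft α S.v := by
        rw [hy1, Matrix.mul_assoc, rgt_mul_lft, Matrix.mul_smul, Matrix.mul_one]
      have h2 : S.T ^ N * ((y - 1) * lft α S.v) = (y - 1) * lft α S.v := by
        rw [← Matrix.mul_assoc, (hcomm.sub_right (Commute.one_right _)).eq, hye']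
      rw [h1, Matrix.mul_smul] at h2
      exact smul_right_injective _ hne h2
    obtain ⟨hC, -, heP, hφe⟩ := S.e_fix hN hid hv
    obtain ⟨z, hz, hz1, hz2⟩ := exists_common_zero (F := F) (by rw [Fintype.card_fin]; exact H.three) S.φ ψ
    refine S.Q_ne H hgood hz (S.P_inj ?_)
    have hez : S.T ^ N * lft α z = 0 := by
      obtain ⟨K, hK⟩ := hker z hz1
      have h1 := congrArg (rgt α ψ * ·) hK
      simp only [← Matrix.mul_assoc, hψe, rgt_mul_lft, hz2, zero_smul, Matrix.smul_mul, Matrix.one_mul] at h1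
      rw [hK, (smul_eq_zero.1 h1.symm).resolve_left hne, Matrix.mul_zero]
    calc S.P * (S.Q * lft α z) = S.T ^ N * S.P * (S.Q * lft α z) := by rw [heP]
      _ = S.T ^ N * S.B * lft α z := by rw [B]; simp only [Matrix.mul_assoc]
      _ = 0 := by rw [(S.commE_B hN hid).eq, Matrix.mul_assoc, hez, Matrix.mul_zero]
  obtain ⟨u0, hu0⟩ := exists_dual' S.φ_ne
  refine ⟨ψ ⬝ᵥ u0, ?_⟩
  have hψφ : ψ = (ψ ⬝ᵥ u0) • S.φ := by
    have hall : ∀ u, S.φ ⬝ᵥ u = 0 → ψ ⬝ᵥ u = 0 := by
      intro u hu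
      obtain ⟨K, hK⟩ := hker u hu
      have h1 : (ψ ⬝ᵥ u) • (1 : Matrix α α F) = 0 := by
        rw [← rgt_mul_lft, ← hψe, Matrix.mul_assoc, hK, ← Matrix.mul_assoc, rgt_mul_lft, hψv, zero_smul,
          Matrix.zero_mul]
      exact (smul_eq_zero.1 h1).resolve_right one_ne_zero
    refine dotProduct_eq _ _ fun u => ?_
    have := hall (u - (S.φ ⬝ᵥ u) • u0)
      (by rw [dotProduct_sub, dotProduct_smul, hu0, smul_eq_mul, mul_one, sub_self])
    rw [dotProduct_sub, dotProduct_smul, smul_eq_mul, sub_eq_zero] at this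
    rw [this, smul_dotProduct, smul_eq_mul]; ring
  rw [← sub_eq_iff_eq_add', hy1, A]
  conv_lhs => rw [hψφ, rgt_smul, Matrix.mul_smul]

end Idem

end Pair

end Cfsg.Agent.H5.C7
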