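import Cfsg.Agent.H5.C7.Pair

/-!
The group of elements of `M` of the shape given by a pair of conjugate root groups: its normal subgroup of
elements trivial off the idempotent has a normal complement to the root group, and over fields with more
than two elements the pair generates a unipotent group.
-/

set_option autoImplicit false
set_option linter.unusedSectionVars false

namespace Cfsg.Agent.H5.C7

open Matrix Cfsg.Agent.H99.Tensor
open scoped Kronecker

variable {F : Type*} [Field F] [Finite F] {α : Type} [Fintype α] [DecidableEq α] {b : ℕ}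

local notation "Mat" => Matrix (α × Fin b) (α × Fin b) F

section Unipotent

variable {R : Type*} [Ring R] (p : ℕ) [Fact p.Prime] [CharP R p]

theorem one_pow_of_nilpotent {g : R} (h : IsNilpotent (g - 1)) : ∃ r, g ^ p ^ r = 1 := by
  obtain ⟨k, hk⟩ := h
  refine ⟨k, ?_⟩
  have h1 : (1 + (g - 1)) ^ p ^ k = 1 ^ p ^ k + (g - 1) ^ p ^ k :=
    add_pow_char_pow_of_commute p k (Commute.one_left _)
  rw [add_sub_cancel, one_pow] at h1
  rw [h1, ← Nat.add_sub_cancel' (Nat.lt_pow_self (Fact.out : p.Prime).one_lt).le, pow_add, hk, zero_mul, add_zero]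

theorem nilpotent_of_one_pow {g : R} {r : ℕ} (h : g ^ p ^ r = 1) : (g - 1) ^ p ^ r = 0 := by
  have h1 : (1 + (g - 1)) ^ p ^ r = 1 ^ p ^ r + (g - 1) ^ p ^ r :=
    add_pow_char_pow_of_commute p r (Commute.one_left _)
  rw [add_sub_cancel, one_pow, h] at h1
  exact left_eq_add.1 h1

end Unipotent

/-- The elements of the shape given by `A` and `B`. -/
def shSub (A B : Mat) (hA : A * A = 0) (hB : B * B = 0) : Subgroup (GL (α × Fin b) F) where
  carrier := {y | Sh F A B (y : Mat)}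
  one_mem' := by simpa using (Sh.one : Sh F A B (1 : Mat))
  mul_mem' {x y} hx hy := by
    show Sh F A B ((x * y : GL (α × Fin b) F) : Mat)
    rw [Units.val_mul]; exact Sh.mul hA hB hx hy
  inv_mem' {y} hy := by
    have hall : ∀ n : ℕ, Sh F A B ((y ^ n : GL (α × Fin b) F) : Mat) := by
      intro n
      induction n with
      | zero => simpa using (Sh.one : Sh F A B (1 : Mat))
      | succ n ih => rw [pow_succ, Units.val_mul]; exact Sh.mul hA hB ih hy
    have : y⁻¹ = y ^ (orderOf y - 1) := by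
      refine inv_eq_of_mul_eq_one_right ?_
      rw [← pow_succ', Nat.sub_add_cancel (orderOf_pos y), pow_orderOf_eq_one]
    show Sh F A B ((y⁻¹ : GL (α × Fin b) F) : Mat)
    rw [this]; exact hall _

variable {M : Subgroup (GL (α × Fin b) F)}

theorem mem_of_inM {y : GL (α × Fin b) F} (h : InM M (y : Mat)) : y ∈ M := by
  obtain ⟨x, hx, e⟩ := h
  rwa [Units.ext e] at hx

namespace Pair

variable (S : Pair M)

/-- The elements of `M` of the shape of the pair. -/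
def G : Subgroup (GL (α × Fin b) F) := M ⊓ shSub S.A S.B S.A_sq S.B_sq

theorem mem_G {y : GL (α × Fin b) F} : y ∈ S.G ↔ y ∈ M ∧ Sh F S.A S.B (y : Mat) := Iff.rfl

theorem commE {y : GL (α × Fin b) F} (hy : y ∈ S.G) (N : ℕ) : Commute (S.T ^ N) (y : Mat) :=
  (Sh.comm S.A_sq S.B_sq hy.2).pow_left N

/-- The elements of the root group. -/
def Ru (c : F) : GL (α × Fin b) F where
  val := 1 + c • S.A
  inv := 1 - c • S.A
  val_inv := by
    rw [mul_sub, mul_one, add_mul, one_mul, Matrix.smul_mul, Matrix.mul_smul, S.A_sq]; simp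
  inv_val := by
    rw [sub_mul, one_mul, mul_add, mul_one, Matrix.smul_mul, Matrix.mul_smul, S.A_sq]; simp

theorem Ru_val (c : F) : (S.Ru c : Mat) = 1 + c • S.A := rfl

theorem Ru_mul (c d : F) : S.Ru c * S.Ru d = S.Ru (c + d) := by
  refine Units.ext ?_
  rw [Units.val_mul, S.Ru_val, S.Ru_val, S.Ru_val, mul_add, mul_one, add_mul, one_mul, Matrix.smul_mul,
    Matrix.mul_smul, S.A_sq, smul_zero, smul_zero, add_zero, add_smul, add_assoc]

theorem Ru_zero : S.Ru 0 = 1 := Units.ext (by rw [S.Ru_val, zero_smul, add_zero, Units.val_one])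

theorem Ru_inv (c : F) : (S.Ru c)⁻¹ = S.Ru (-c) :=
  inv_eq_of_mul_eq_one_right (by rw [S.Ru_mul, add_neg_cancel, S.Ru_zero])

theorem Ru_inj [Nonempty α] {c d : F} (h : S.Ru c = S.Ru d) : c = d := by
  have e := congrArg (fun y : GL (α × Fin b) F => (y : Mat)) h
  simp only [S.Ru_val, add_right_inj] at e
  by_contra hne
  have h1 : (c - d) • S.A = 0 := by rw [sub_smul, e, sub_self]
  have hA : S.A = 0 := (smul_eq_zero.1 h1).resolve_left (sub_ne_zero.2 hne)
  obtain ⟨u0, hu0⟩ := exists_dual' S.φ_ne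
  refine lft_ne_zero (α := α) S.v_ne ?_
  have := congrArg (· * lft α u0) hA
  simpa [A, Matrix.mul_assoc, rgt_mul_lft, hu0] using this

theorem Ru_mem_G (H : RF M) (c : F) : S.Ru c ∈ S.G :=
  ⟨mem_of_inM (S.inM_A H c), Sh.left c⟩

/-- The root group. -/
def U : Subgroup (GL (α × Fin b) F) where
  carrier := Set.range S.Ru
  one_mem' := ⟨0, S.Ru_zero⟩
  mul_mem' := by rintro _ _ ⟨c, rfl⟩ ⟨d, rfl⟩; exact ⟨c + d, (S.Ru_mul c d).symm⟩
  inv_mem' := by rintro _ ⟨c, rfl⟩; exact ⟨-c, (S.Ru_inv c).symm⟩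

theorem Ru_pow (c : F) (n : ℕ) : S.Ru c ^ n = S.Ru ((n : F) * c) := by
  induction n with
  | zero => rw [pow_zero, Nat.cast_zero, zero_mul, S.Ru_zero]
  | succ n ih => rw [pow_succ, ih, S.Ru_mul, Nat.cast_succ, add_mul, one_mul]

/-- The elements of `G` trivial off the idempotent. -/
def G1 (N : ℕ) : Subgroup (GL (α × Fin b) F) where
  carrier := {y | y ∈ S.G ∧ ((y : Mat) - 1) * (1 - S.T ^ N) = 0}
  one_mem' := ⟨S.G.one_mem, by simp⟩
  mul_mem' {x y} hx hy := by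
    refine ⟨S.G.mul_mem hx.1 hy.1, ?_⟩
    have hc : Commute (y : Mat) (1 - S.T ^ N) := (Commute.one_right _).sub_right (S.commE hy.1 N).symm
    have e : (x : Mat) * (y : Mat) - 1 = ((x : Mat) - 1) * (y : Mat) + ((y : Mat) - 1) := by
      rw [sub_mul, one_mul]; abel
    rw [Units.val_mul, e, add_mul, hy.2, add_zero, mul_assoc, hc.eq, ← mul_assoc, hx.2, zero_mul]
  inv_mem' {y} hy := by
    refine ⟨S.G.inv_mem hy.1, ?_⟩
    have e : ((y⁻¹ : GL (α × Fin b) F) : Mat) - 1 = -(((y⁻¹ : GL (α × Fin b) F) : Mat) * ((y : Mat) - 1)) := by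
      rw [mul_sub, mul_one, Units.inv_mul, neg_sub]
    rw [e, neg_mul, mul_assoc, hy.2, mul_zero, neg_zero]

theorem conj_mem_G1 {N : ℕ} {g y : GL (α × Fin b) F} (hg : g ∈ S.G) (hy : y ∈ S.G1 N) :
    g * y * g⁻¹ ∈ S.G1 N := by
  refine ⟨S.G.mul_mem (S.G.mul_mem hg hy.1) (S.G.inv_mem hg), ?_⟩
  have hc : Commute ((g⁻¹ : GL (α × Fin b) F) : Mat) (1 - S.T ^ N) :=
    (Commute.one_right _).sub_right (S.commE (S.G.inv_mem hg) N).symm
  have e : ((g * y * g⁻¹ : GL (α × Fin b) F) : Mat) - 1 =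
      (g : Mat) * ((y : Mat) - 1) * ((g⁻¹ : GL (α × Fin b) F) : Mat) := by
    rw [mul_sub, sub_mul, mul_one, Units.val_mul, Units.val_mul, Units.mul_inv]
  rw [e, mul_assoc _ ((g⁻¹ : GL (α × Fin b) F) : Mat), hc.eq, ← mul_assoc, mul_assoc (g : Mat), hy.2, mul_zero,
    zero_mul]

/-- The product of `G1` and the root group. -/
def K (H : RF M) (N : ℕ) : Subgroup (GL (α × Fin b) F) where
  carrier := {y | ∃ g ∈ S.G1 N, ∃ u ∈ S.U, y = g * u}
  one_mem' := ⟨1, one_mem _, 1, one_mem _, by simp⟩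
  mul_mem' := by
    rintro _ _ ⟨g, hg, u, hu, rfl⟩ ⟨g', hg', u', hu', rfl⟩
    refine ⟨g * (u * g' * u⁻¹), mul_mem hg (S.conj_mem_G1 ?_ hg'), u * u', mul_mem hu hu', by group⟩
    obtain ⟨c, rfl⟩ := hu
    exact S.Ru_mem_G H c
  inv_mem' := by
    rintro _ ⟨g, hg, u, hu, rfl⟩
    refine ⟨u⁻¹ * g⁻¹ * u⁻¹⁻¹, S.conj_mem_G1 ?_ (inv_mem hg), u⁻¹, inv_mem hu, by group⟩
    obtain ⟨c, rfl⟩ := hu
    exact S.G.inv_mem (S.Ru_mem_G H c)

variable (p : ℕ) [Fact p.Prime] [CharP F p] [Nonempty α]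

/-- The normal complement of the root group. -/
theorem complement (H : RF M) (hgood : Good M) {N : ℕ} (hN : 0 < N) (hid : S.T ^ N * S.T ^ N = S.T ^ N) :
    ∃ O : Subgroup (GL (α × Fin b) F), O ≤ S.G1 N ∧ (∀ o ∈ O, (orderOf o).Coprime p) ∧
      (∀ o ∈ O, ∀ c : F, S.Ru c * o * (S.Ru c)⁻¹ ∈ O) ∧
      (∀ o ∈ O, ∀ c : F, c ≠ 0 → o * S.Ru c = S.Ru c * o → o = 1) ∧
      (∀ y ∈ S.G, (orderOf y).Coprime p → y ∈ O) ∧
      ∀ Q ≤ S.K H N, IsPGroup p Q → ∀ a ∈ Q, ∀ b ∈ Q, a * b = b * a := by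
  classical
  have := H.neZero
  have hUK : S.U ≤ S.K H N := fun u hu => ⟨1, one_mem _, u, hu, (one_mul u).symm⟩
  have hKG : S.K H N ≤ S.G := by
    rintro _ ⟨g, hg, u, ⟨c, rfl⟩, rfl⟩
    exact S.G.mul_mem hg.1 (S.Ru_mem_G H c)
  have htriv : ∀ y ∈ S.G, (orderOf y).Coprime p → y ∈ S.G1 N := fun y hy hc =>
    ⟨hy, Sh.triv_of_pow S.A_sq S.B_sq p hN hid hy.2
      (by rw [← Units.val_pow_eq_pow_val, pow_orderOf_eq_one, Units.val_one]) hc⟩
  -- the root group is self-normalising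
  have hnorm : ∀ y ∈ S.K H N, (∀ u ∈ S.U, y * u * y⁻¹ ∈ S.U) → y ∈ S.U := by
    rintro _ ⟨g, hg, u, ⟨d, rfl⟩, rfl⟩ hn
    obtain ⟨c, hc⟩ := hn (S.Ru 1) ⟨1, rfl⟩
    have e : g * S.Ru 1 = S.Ru c * g := by
      have h1 : S.Ru d * S.Ru 1 * (S.Ru d)⁻¹ = S.Ru 1 := by
        rw [S.Ru_inv, S.Ru_mul, S.Ru_mul]; congr 1; ring
      have h2 : S.Ru c = g * (S.Ru d * S.Ru 1 * (S.Ru d)⁻¹) * g⁻¹ := by rw [hc]; group
      rw [h1] at h2
      rw [h2]; group
    have hc0 : c ≠ 0 := by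
      rintro rfl
      rw [S.Ru_zero, one_mul, mul_eq_left, ← S.Ru_zero] at e
      exact one_ne_zero (S.Ru_inj e)
    have eA : (g : Mat) * S.A = c • (S.A * (g : Mat)) := by
      have := congrArg (fun y : GL (α × Fin b) F => (y : Mat)) e
      simp only [Units.val_mul, S.Ru_val, one_smul, mul_add, mul_one, add_mul, one_mul, add_right_inj,
        Matrix.smul_mul] at this
      exact this
    obtain ⟨d', hd'⟩ := S.lemL hN hid H hgood (y' := ((g⁻¹ : GL (α × Fin b) F) : Mat)) ⟨g, hg.1.1, rfl⟩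
      (Units.mul_inv g) hg.2 (S.commE hg.1 N) hc0 eA
    exact mul_mem ⟨d', Units.ext hd'.symm⟩ ⟨d, rfl⟩
  have hUp : IsPGroup p (S.U.subgroupOf (S.K H N)) := by
    rintro ⟨⟨u, hu⟩, hu'⟩
    obtain ⟨c, rfl⟩ := Subgroup.mem_subgroupOf.1 hu'
    refine ⟨1, Subtype.ext (Subtype.ext ?_)⟩
    simp [S.Ru_pow, CharP.cast_eq_zero, S.Ru_zero]
  obtain ⟨O, hOn, hOp, hOU, hOdisj, hOQ⟩ := selfnormalizing_complement (p := p) (S.U.subgroupOf (S.K H N)) hUp
    (fun a ha b' hb' => by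
      obtain ⟨c, hc⟩ := Subgroup.mem_subgroupOf.1 ha
      obtain ⟨d, hd⟩ := Subgroup.mem_subgroupOf.1 hb'
      refine Subtype.ext ?_
      rw [Subgroup.coe_mul, Subgroup.coe_mul, ← hc, ← hd, S.Ru_mul, S.Ru_mul, add_comm])
    (fun y hy => Subgroup.mem_subgroupOf.2 (hnorm y y.2 fun u hu => by
      have := Subgroup.mem_subgroupOf.1 (hy ⟨u, hUK hu⟩ (Subgroup.mem_subgroupOf.2 hu))
      simpa using this))
  have hcop : ∀ o ∈ O, (orderOf o).Coprime p := by
    intro o ho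
    rw [Nat.coprime_comm, (Fact.out : p.Prime).coprime_iff_not_dvd]
    intro hd
    refine hOp (hd.trans ?_)
    rw [← Subgroup.orderOf_mk o ho]
    exact orderOf_dvd_natCard _
  refine ⟨O.map (S.K H N).subtype, ?_, ?_, ?_, ?_, ?_, ?_⟩
  · rintro _ ⟨o, ho, rfl⟩
    exact htriv _ (hKG o.2) (by rw [Subgroup.coe_subtype, Subgroup.orderOf_coe]; exact hcop o ho)
  · rintro _ ⟨o, ho, rfl⟩
    rw [Subgroup.coe_subtype, Subgroup.orderOf_coe]; exact hcop o ho
  · rintro _ ⟨o, ho, rfl⟩ c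
    exact ⟨_, hOn.conj_mem o ho ⟨S.Ru c, hUK ⟨c, rfl⟩⟩, rfl⟩
  · rintro _ ⟨o, ho, rfl⟩ c hc e
    have hoG1 : (o : GL (α × Fin b) F) ∈ S.G1 N :=
      htriv _ (hKG o.2) (by rw [Subgroup.orderOf_coe]; exact hcop o ho)
    have eA : ((o : GL (α × Fin b) F) : Mat) * S.A = (1 : F) • (S.A * ((o : GL (α × Fin b) F) : Mat)) := by
      have := congrArg (fun y : GL (α × Fin b) F => (y : Mat)) e
      simp only [Subgroup.coe_subtype, Units.val_mul, S.Ru_val, mul_add, mul_one, add_mul, one_mul,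
        add_right_inj, Matrix.smul_mul, Matrix.mul_smul] at this
      rw [one_smul]
      exact smul_right_injective _ hc this
    obtain ⟨d, hd⟩ := S.lemL hN hid H hgood
      (y' := (((o : GL (α × Fin b) F)⁻¹ : GL (α × Fin b) F) : Mat)) ⟨_, hoG1.1.1, rfl⟩
      (Units.mul_inv _) hoG1.2 (S.commE hoG1.1 N) one_ne_zero eA
    have := hOdisj o ho (Subgroup.mem_subgroupOf.2 ⟨d, Units.ext hd.symm⟩)
    rw [this, map_one]
  · intro y hy hc
    have hyK : y ∈ S.K H N := ⟨y, htriv y hy hc, 1, one_mem _, (mul_one y).symm⟩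
    refine ⟨⟨y, hyK⟩, ?_, rfl⟩
    obtain ⟨o, ho, u, hu, e⟩ := hOU ⟨y, hyK⟩
    have := hOn
    have h1 : QuotientGroup.mk (s := O) ⟨y, hyK⟩ = QuotientGroup.mk u := by
      rw [e, QuotientGroup.mk_mul, (QuotientGroup.eq_one_iff o).2 ho, one_mul]
    have h2 : u ^ orderOf y ∈ O := by
      rw [← QuotientGroup.eq_one_iff, QuotientGroup.mk_pow, ← h1, ← QuotientGroup.mk_pow,
        QuotientGroup.eq_one_iff]
      convert O.one_mem using 1
      exact Subtype.ext (pow_orderOf_eq_one y)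
    have h3 : u ^ orderOf y = 1 := hOdisj _ h2 (pow_mem hu _)
    obtain ⟨k, hk⟩ := hUp ⟨u, hu⟩
    have hk' : u ^ p ^ k = 1 := congrArg Subtype.val hk
    have := pow_gcd_eq_one.2 ⟨h3, hk'⟩
    rw [Nat.Coprime.gcd_eq_one (Nat.Coprime.pow_right k hc), pow_one] at this
    rw [e, this, mul_one]; exact ho
  · intro Q hQ hQp a ha b' hb'
    have := hOQ (Q.subgroupOf (S.K H N))
      (hQp.comap_of_injective (S.K H N).subtype (Subgroup.subtype_injective _))
      ⟨a, hQ ha⟩ (Subgroup.mem_subgroupOf.2 ha) ⟨b', hQ hb'⟩ (Subgroup.mem_subgroupOf.2 hb')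
    exact congrArg Subtype.val this

/-- A trivial complement makes the central element nilpotent. -/
theorem nilpotent_of_trivial (H : RF M) (hO : ∀ y ∈ S.G, (orderOf y).Coprime p → y = 1) : IsNilpotent S.x := by
  have := H.neZero
  set g : GL (α × Fin b) F :=
    S.Ru 1 * ⟨1 + S.B, 1 - S.B, by rw [mul_sub, mul_one, add_mul, one_mul, S.B_sq]; simp,
      by rw [sub_mul, one_mul, mul_add, mul_one, S.B_sq]; simp⟩ with hg
  have hgG : g ∈ S.G := by
    refine S.G.mul_mem (S.Ru_mem_G H 1) ⟨mem_of_inM ?_, ?_⟩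
    · simpa using S.inM_B H 1
    · show Sh F S.A S.B (1 + S.B)
      simpa using (Sh.right (A := S.A) (B := S.B) (1 : F))
  obtain ⟨r, m, hm, he⟩ := Nat.exists_eq_pow_mul_and_not_dvd (orderOf_pos g).ne' p (Fact.out : p.Prime).ne_one
  have h1 : g ^ p ^ r = 1 := by
    refine hO _ (S.G.pow_mem hgG _) ?_
    rw [orderOf_pow' g (pow_ne_zero r (Fact.out : p.Prime).ne_zero), he, Nat.gcd_mul_right_left,
      Nat.mul_div_cancel_left _ (pow_pos (Fact.out : p.Prime).pos r)]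
    exact ((Fact.out : p.Prime).coprime_iff_not_dvd.2 hm).symm
  have h2 : ((g : Mat) - 1) ^ p ^ r = 0 :=
    nilpotent_of_one_pow p (by rw [← Units.val_pow_eq_pow_val, h1, Units.val_one])
  obtain ⟨k, hk⟩ := nilpotent_of_pair S.A_sq S.B_sq (k := p ^ r) (by simpa [hg, S.Ru_val] using h2)
  refine ⟨k, lft_injective S.v_ne ?_⟩
  rw [← S.Tpow_v, show S.T ^ k = 0 from hk, Matrix.zero_mul, Matrix.mul_zero]

end Pair

end Cfsg.Agent.H5.C7
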