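import Cfsg.Agent.H5.C7.Basic

/-!
Pure tensors among the conjugates of transvections of the right factor, and elements commuting up to a
scalar with such a transvection.
-/

set_option autoImplicit false
set_option linter.unusedSectionVars false

namespace Cfsg.Agent.H5.C7

open Matrix Cfsg.Agent.H99.Tensor
open scoped Kronecker

variable {F : Type*} [Field F] {α : Type} [Fintype α] [DecidableEq α] {b : ℕ}

local notation "Ix" => α × Fin b

theorem exists_eq_smul_of_lft_mul [Nonempty α] {u v : Fin b → F} {k h : Matrix α α F} (hk : k ≠ 0)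
    (e : lft α u * k = lft α v * h) : ∃ c : F, u = c • v := by
  obtain ⟨i, j, hij⟩ : ∃ i j, k i j ≠ 0 := by
    by_contra hc; push Not at hc; exact hk (by ext i j; exact hc i j)
  refine ⟨h i j / k i j, funext fun l => ?_⟩
  have ee : ∀ (w : Fin b → F) (K : Matrix α α F), (lft α w * K) (i, l) j = w l * K i j := by
    intro w K
    simp only [Matrix.mul_apply, lft_apply]
    rw [Finset.sum_eq_single i (fun b _ hb => by simp [Ne.symm hb]) (by simp)]
    simp
  have := (ee u k).symm.trans ((congrFun (congrFun e (i, l)) j).trans (ee v h))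
  rw [Pi.smul_apply, smul_eq_mul, div_mul_eq_mul_div, eq_div_iff hij, this, mul_comm]

theorem exists_eq_smul_of_mul_rgt [Nonempty α] {u v : Fin b → F} {k h : Matrix α α F} (hk : k ≠ 0)
    (e : k * rgt α u = h * rgt α v) : ∃ c : F, u = c • v := by
  obtain ⟨i, j, hij⟩ : ∃ i j, k i j ≠ 0 := by
    by_contra hc; push Not at hc; exact hk (by ext i j; exact hc i j)
  refine ⟨h i j / k i j, funext fun l => ?_⟩
  have ee : ∀ (w : Fin b → F) (K : Matrix α α F), (K * rgt α w) i (j, l) = K i j * w l := by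
    intro w K
    simp only [Matrix.mul_apply, rgt_apply]
    rw [Finset.sum_eq_single j (fun b _ hb => by simp [Ne.symm hb]) (by simp)]
    simp
  have := (ee u k).symm.trans ((congrFun (congrFun e i) (j, l)).trans (ee v h))
  rw [Pi.smul_apply, smul_eq_mul, div_mul_eq_mul_div, eq_div_iff hij]
  linear_combination this

theorem kron_factors_ne [Nonempty α] [NeZero b] {X X' : Matrix Ix Ix F} (hXX : X * X' = 1)
    {g : Matrix α α F} {h : Matrix (Fin b) (Fin b) F} (e : X = g ⊗ₖ h) : IsUnit g.det ∧ IsUnit h.det := by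
  have h1 : X.det * X'.det = 1 := by rw [← Matrix.det_mul, hXX, Matrix.det_one]
  have h2 : X.det ≠ 0 := left_ne_zero_of_mul_eq_one h1
  rw [e, Matrix.det_kronecker, mul_ne_zero_iff, pow_ne_zero_iff (by simp [NeZero.ne]),
    pow_ne_zero_iff Fintype.card_ne_zero] at h2
  exact ⟨isUnit_iff_ne_zero.2 h2.1, isUnit_iff_ne_zero.2 h2.2⟩

theorem IsPure.of_inv [Nonempty α] [NeZero b] {X X' : Matrix Ix Ix F} (hXX : X * X' = 1) (hX : IsPure X) :
    IsPure X' := by
  obtain ⟨g, h, e⟩ := hX
  obtain ⟨hg, hh⟩ := kron_factors_ne hXX e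
  refine ⟨g⁻¹, h⁻¹, ?_⟩
  calc X' = (g⁻¹ ⊗ₖ h⁻¹) * (X * X') := by
        rw [← Matrix.mul_assoc, e, ← Matrix.mul_kronecker_mul, Matrix.nonsing_inv_mul g hg,
          Matrix.nonsing_inv_mul h hh, Matrix.one_kronecker_one, Matrix.one_mul]
    _ = _ := by rw [hXX, Matrix.mul_one]

/-- A map through `α` which is a map of the right factor maps into one layer. -/
theorem factor_layer {J : Matrix Ix α F} {K : Matrix α Ix F} {n : Matrix (Fin b) (Fin b) F} (hn : n ≠ 0)
    (e : J * K = (1 : Matrix α α F) ⊗ₖ n) :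
    ∃ (u : Fin b → F) (h h' : Matrix α α F), u ≠ 0 ∧ J = lft α u * h ∧ h * h' = 1 := by
  obtain ⟨z, hz⟩ : ∃ z, n *ᵥ z ≠ 0 := by
    by_contra hc; push Not at hc
    exact hn (Matrix.ext_iff_mulVec.2 fun x => by rw [hc x, Matrix.zero_mulVec])
  obtain ⟨η, hη⟩ := exists_dual hz
  have e1 : J * (K * lft α z) = lft α (n *ᵥ z) := by
    rw [← Matrix.mul_assoc, e, kron_lft, Matrix.mul_one]
  have e2 : (rgt α η * J) * (K * lft α z) = 1 := by
    rw [Matrix.mul_assoc, e1, rgt_mul_lft, hη, one_smul]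
  refine ⟨_, rgt α η * J, K * lft α z, hz, ?_, e2⟩
  rw [← e1, Matrix.mul_assoc J, mul_eq_one_comm.1 e2, Matrix.mul_one]

variable {M : Subgroup (GL (α × Fin b) F)}

theorem RF.neZero (H : RF M) : NeZero b := ⟨by have := H.three; omega⟩

/-- A conjugate of a transvection of the right factor which is a pure tensor comes from the left factor,
unless the conjugating element is itself a pure tensor. -/
theorem RF.pure_root [Nonempty α] (H : RF M) (hgood : Good M) {w η : Fin b → F} (hw : w ≠ 0) (hη : η ≠ 0)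
    (hηw : η ⬝ᵥ w = 0) {X X' : Matrix Ix Ix F} (hX : InM M X) (hXX : X * X' = 1) (hnp : ¬ IsPure X)
    (hp : IsPure (1 + X * lft α w * (rgt α η * X'))) :
    ∃ K : Matrix α α F, X * lft α w * (rgt α η * X') = K ⊗ₖ (1 : Matrix (Fin b) (Fin b) F) := by
  have := H.neZero
  obtain ⟨k, h, e⟩ := hp
  set J := X * lft α w with hJ
  set K0 := rgt α η * X' with hK0
  have hXX' : X' * X = 1 := mul_eq_one_comm.1 hXX
  have hB : J * K0 = k ⊗ₖ h - 1 := by rw [← e]; abel
  have hbad : ∀ n : Matrix (Fin b) (Fin b) F, J * K0 = (1 : Matrix α α F) ⊗ₖ n → False := by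
    intro n hn
    have hn0 : n ≠ 0 := by
      intro h0
      rw [h0, Matrix.kronecker_zero] at hn
      have h1 : rgt α η * X' * X = 0 := by
        obtain ⟨η0, hη0⟩ := exists_dual hw
        have := congrArg (fun T => rgt α η0 * (X' * T) * X) hn
        simpa [hJ, hK0, ← Matrix.mul_assoc, hXX', Matrix.mul_assoc (rgt α η0) X' X, rgt_mul_lft, hη0] using this
      rw [Matrix.mul_assoc, hXX', Matrix.mul_one] at h1
      exact hη (rgt_eq_iff (α := α) (by rw [h1, rgt_zero]))
    obtain ⟨u, h1, h2, hu, hJe, h12⟩ := factor_layer hn0 hn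
    exact hnp (H.pure_of_layer hgood hw hu hX hXX hJe h12)
  by_cases hsc : ∀ u : Fin b → F, ∃ c : F, h *ᵥ u = c • u
  · -- a scalar right factor
    obtain ⟨z, hz⟩ : ∃ c : F, h = c • (1 : Matrix (Fin b) (Fin b) F) := by
      choose c hc using hsc
      have hne : ∀ i : Fin b, (Pi.single i (1 : F) : Fin b → F) ≠ 0 := fun i => by
        simp [Pi.single_eq_zero_iff]
      refine ⟨c (Pi.single ⟨0, Nat.pos_of_ne_zero (NeZero.ne b)⟩ 1), Matrix.ext fun i j => ?_⟩
      set i0 : Fin b := ⟨0, Nat.pos_of_ne_zero (NeZero.ne b)⟩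
      have hcol : ∀ l m, h l m = c (Pi.single m 1) * (if l = m then 1 else 0) := by
        intro l m
        have := congrFun (hc (Pi.single m 1)) l
        simpa [Matrix.mulVec_single, Pi.single_apply] using this
      have hall : ∀ m, c (Pi.single m 1) = c (Pi.single i0 1) := by
        intro m
        by_cases hm : m = i0
        · rw [hm]
        have := hc (Pi.single m 1 + Pi.single i0 1)
        rw [Matrix.mulVec_add, hc, hc] at this
        have e1 := congrFun this m
        have e2 := congrFun this i0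
        simp [hm, Ne.symm hm] at e1 e2
        rw [e1, e2]
      rw [hcol, hall, Matrix.smul_apply, Matrix.one_apply, smul_eq_mul]
    refine ⟨z • k - 1, ?_⟩
    rw [hB, hz, Matrix.kronecker_smul, ← Matrix.smul_kronecker]
    conv_lhs => rw [← Matrix.one_kronecker_one (α := F) (m := α) (n := Fin b)]
    ext ⟨i, i'⟩ ⟨j, j'⟩
    by_cases h1 : i = j <;> by_cases h2 : i' = j' <;> simp [sub_mul, Matrix.one_apply, h1, h2]
  · exfalso
    push Not at hsc
    obtain ⟨u, hu⟩ := hsc
    have hu0 : u ≠ 0 := fun h0 => hu 0 (by simp [h0])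
    have hk : IsUnit k.det := by
      have hE : (1 + J * K0) * (1 - J * K0) = 1 := by
        have h0 : K0 * J = 0 := by
          rw [hK0, hJ, Matrix.mul_assoc, ← Matrix.mul_assoc X', hXX', Matrix.one_mul, rgt_mul_lft, hηw,
            zero_smul]
        have : J * K0 * (J * K0) = 0 := by
          rw [Matrix.mul_assoc, ← Matrix.mul_assoc K0, h0, Matrix.zero_mul, Matrix.mul_zero]
        rw [mul_sub, mul_one, add_mul, one_mul, this, add_zero, add_sub_cancel_right]
      exact (kron_factors_ne hE e).1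
    -- a functional dual to `h u` vanishing on `u`
    obtain ⟨χ, hχu, hχs⟩ : ∃ χ : Fin b → F, χ ⬝ᵥ u = 0 ∧ χ ⬝ᵥ (h *ᵥ u) = 1 := by
      obtain ⟨η0, hη0⟩ := exists_dual hu0
      have hne : h *ᵥ u - (η0 ⬝ᵥ (h *ᵥ u)) • u ≠ 0 := sub_ne_zero.2 (hu _)
      obtain ⟨η1, hη1⟩ := exists_dual hne
      refine ⟨η1 - (η1 ⬝ᵥ u) • η0, ?_, ?_⟩
      · rw [sub_dotProduct, smul_dotProduct, hη0, smul_eq_mul, mul_one, sub_self]
      · rw [dotProduct_sub, dotProduct_smul, smul_eq_mul] at hη1
        rw [sub_dotProduct, smul_dotProduct, smul_eq_mul]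
        linear_combination hη1
    have hW : ∀ z, J * (K0 * lft α z) = lft α (h *ᵥ z) * k - lft α z := by
      intro z
      rw [← Matrix.mul_assoc, hB, Matrix.sub_mul, kron_lft, Matrix.one_mul]
    have h1 : (rgt α χ * J) * (K0 * lft α u) = k := by
      rw [Matrix.mul_assoc, hW, Matrix.mul_sub, ← Matrix.mul_assoc, rgt_mul_lft, rgt_mul_lft, hχs, hχu,
        one_smul, zero_smul, Matrix.one_mul, sub_zero]
    have h2 : IsUnit (K0 * lft α u).det := by
      have := congrArg Matrix.det h1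
      rw [Matrix.det_mul] at this
      exact isUnit_of_mul_isUnit_right (this ▸ hk)
    obtain ⟨ψ, hψ, hψu, hψs⟩ := exists_annihilator (F := F) (by rw [Fintype.card_fin]; exact H.three) u (h *ᵥ u)
    obtain ⟨z, hz⟩ := exists_dual' hψ
    have h3 : rgt α ψ * J = 0 := by
      have : rgt α ψ * J * (K0 * lft α u) = 0 := by
        rw [Matrix.mul_assoc, hW, Matrix.mul_sub, ← Matrix.mul_assoc, rgt_mul_lft, rgt_mul_lft, hψs, hψu,
          zero_smul, Matrix.zero_mul, sub_zero]
      calc rgt α ψ * J = rgt α ψ * J * ((K0 * lft α u) * (K0 * lft α u)⁻¹) := by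
            rw [Matrix.mul_nonsing_inv _ h2, Matrix.mul_one]
        _ = 0 := by rw [← Matrix.mul_assoc, this, Matrix.zero_mul]
    have h4 : (ψ ⬝ᵥ (h *ᵥ z)) • k = 1 := by
      have := congrArg (rgt α ψ * ·) (hW z)
      simp only [← Matrix.mul_assoc, h3, Matrix.zero_mul, Matrix.mul_sub, rgt_mul_lft, hz, one_smul,
        Matrix.smul_mul, Matrix.one_mul] at this
      exact sub_eq_zero.1 this.symm
    set t := ψ ⬝ᵥ (h *ᵥ z) with ht
    have ht0 : t ≠ 0 := by intro h0; rw [h0, zero_smul] at h4; exact zero_ne_one h4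
    refine hbad (t⁻¹ • h - 1) ?_
    rw [hB, sub_eq_add_neg (t⁻¹ • h), Matrix.kronecker_add, ← neg_one_smul F (1 : Matrix (Fin b) (Fin b) F),
      Matrix.kronecker_smul, Matrix.kronecker_smul, Matrix.one_kronecker_one, neg_one_smul, ← sub_eq_add_neg,
      ← Matrix.smul_kronecker, ← h4, smul_smul, inv_mul_cancel₀ ht0, one_smul]

/-- An element commuting up to a scalar with a transvection of the right factor is a pure tensor fixing
its centre and axis. -/
theorem RF.pure_of_comm [Nonempty α] (H : RF M) (hgood : Good M) {v φ : Fin b → F} (hv : v ≠ 0) (hφ : φ ≠ 0)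
    {X X' : Matrix Ix Ix F} (hX : InM M X) (hXX : X * X' = 1) {c : F} (hc : c ≠ 0)
    (h : X * (lft α v * rgt α φ) = c • (lft α v * rgt α φ * X)) :
    ∃ (k : Matrix α α F) (hm : Matrix (Fin b) (Fin b) F) (μ ν : F), IsUnit k.det ∧ IsUnit hm.det ∧ μ ≠ 0 ∧
      ν ≠ 0 ∧ X = k ⊗ₖ hm ∧ hm *ᵥ v = μ • v ∧ φ ᵥ* hm = ν • φ := by
  have := H.neZero
  have hXX' : X' * X = 1 := mul_eq_one_comm.1 hXX
  obtain ⟨u0, hu0⟩ := exists_dual' hφ
  obtain ⟨η0, hη0⟩ := exists_dual hv
  set A := lft α v * rgt α φ with hA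
  have hAu : A * lft α u0 = lft α v := by
    rw [hA, Matrix.mul_assoc, rgt_mul_lft, hu0, one_smul, Matrix.mul_one]
  have hinv : X' * A = c⁻¹ • (A * X') := by
    have h1 := congrArg (fun T => X' * T * X') h
    simp only [Matrix.mul_smul, Matrix.smul_mul, ← Matrix.mul_assoc, hXX', Matrix.one_mul] at h1
    rw [Matrix.mul_assoc (X' * A), hXX, Matrix.mul_one] at h1
    rw [h1, smul_smul, inv_mul_cancel₀ hc, one_smul]
  set h0 := c • (rgt α φ * X * lft α u0) with hh0
  have hXv : X * lft α v = lft α v * h0 := by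
    have h1 := congrArg (· * lft α u0) h
    simp only [Matrix.smul_mul, Matrix.mul_assoc X, hAu] at h1
    rw [h1, hh0, Matrix.mul_smul, hA]
    simp only [Matrix.mul_assoc]
  set h1 := c⁻¹ • (rgt α φ * X' * lft α u0) with hh1
  have hX'v : X' * lft α v = lft α v * h1 := by
    have e1 := congrArg (· * lft α u0) hinv
    simp only [Matrix.smul_mul, Matrix.mul_assoc X', hAu] at e1
    rw [e1, hh1, Matrix.mul_smul, hA]
    simp only [Matrix.mul_assoc]
  have h01 : h0 * h1 = 1 := by
    refine lft_injective hv ?_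
    rw [← Matrix.mul_assoc, ← hXv, Matrix.mul_assoc, ← hX'v, ← Matrix.mul_assoc, hXX, Matrix.one_mul,
      Matrix.mul_one]
  obtain ⟨k, hm, e⟩ := H.pure_of_fix hgood hv hX hXX hXv h01
  obtain ⟨hk, hhm⟩ := kron_factors_ne hXX e
  have hk0 : k ≠ 0 := fun h0 => by simp [h0] at hk
  obtain ⟨μ, hμ⟩ := exists_eq_smul_of_lft_mul (α := α) (u := hm *ᵥ v) (v := v) hk0 (h := h0)
    (by rw [← kron_lft, ← e, hXv])
  have hφX : rgt α φ * X = (c⁻¹ • h0) * rgt α φ := by
    have e1 := congrArg (rgt α η0 * ·) h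
    rw [← Matrix.mul_assoc X, hXv] at e1
    simp only [Matrix.mul_smul, hA, ← Matrix.mul_assoc, rgt_mul_lft, hη0, one_smul, Matrix.one_mul] at e1
    rw [Matrix.smul_mul, e1, smul_smul, inv_mul_cancel₀ hc, one_smul]
  obtain ⟨ν, hν⟩ := exists_eq_smul_of_mul_rgt (α := α) (u := φ ᵥ* hm) (v := φ) hk0 (h := c⁻¹ • h0)
    (by rw [← rgt_kron, ← e, hφX])
  refine ⟨k, hm, μ, ν, hk, hhm, ?_, ?_, e, hμ, hν⟩
  · intro h0'
    rw [h0', zero_smul] at hμ
    exact hv (by simpa [Matrix.nonsing_inv_mul hm hhm] using congrArg (hm⁻¹ *ᵥ ·) hμ)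
  · intro h0'
    rw [h0', zero_smul] at hν
    exact hφ (by simpa [Matrix.mul_nonsing_inv hm hhm] using congrArg (· ᵥ* hm⁻¹) hν)

end Cfsg.Agent.H5.C7
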