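import Cfsg.Agent.H5.C7.Tens
import Cfsg.Agent.H5.C7.Basic

/-!
One factor of a tensor power against all the others.
-/

set_option autoImplicit false
set_option linter.unusedSectionVars false

namespace Cfsg.Agent.H5.C7

open Matrix Cfsg.Agent.H99.Tensor
open scoped Kronecker

variable {F : Type*} [Field F] {ι : Type} [Fintype ι] [DecidableEq ι] {m : ℕ}

local notation "MM" => Matrix (ι → Fin m) (ι → Fin m) F

/-- The factor `i` separated from the others. -/
def eI (i : ι) : (ι → Fin m) ≃ ({j : ι // j ≠ i} → Fin m) × Fin m :=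
  (Equiv.funSplitAt i (Fin m)).trans (Equiv.prodComm _ _)

theorem eI_apply (i : ι) (f : ι → Fin m) : eI i f = (fun j => f j.1, f i) := rfl

theorem eI_symm_self (i : ι) (p : ({j : ι // j ≠ i} → Fin m) × Fin m) : (eI i).symm p i = p.2 := by
  simp [eI, Equiv.funSplitAt]

theorem eI_symm_ne (i : ι) (p : ({j : ι // j ≠ i} → Fin m) × Fin m) (j : {j : ι // j ≠ i}) :
    (eI i).symm p j.1 = p.1 j := by
  simp [eI, Equiv.funSplitAt, j.2]

/-- Matrices in the coordinates separating the factor `i`. -/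
def rI (i : ι) : Matrix (ι → Fin m) (ι → Fin m) F ≃ₐ[F]
    Matrix (({j : ι // j ≠ i} → Fin m) × Fin m) (({j : ι // j ≠ i} → Fin m) × Fin m) F :=
  Matrix.reindexAlgEquiv F F (eI i)

theorem rI_apply (i : ι) (X : MM) (p q : ({j : ι // j ≠ i} → Fin m) × Fin m) :
    rI i X p q = X ((eI i).symm p) ((eI i).symm q) := rfl

/-- The subgroup in the coordinates separating the factor `i`. -/
def slotM (i : ι) (M : Subgroup (GL (ι → Fin m) F)) :
    Subgroup (GL (({j : ι // j ≠ i} → Fin m) × Fin m) F) :=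
  M.map (Units.mapEquiv (rI (F := F) (m := m) i).toMulEquiv).toMonoidHom

theorem inM_slotM {i : ι} {M : Subgroup (GL (ι → Fin m) F)} {Z : Matrix (({j : ι // j ≠ i} → Fin m) × Fin m)
    (({j : ι // j ≠ i} → Fin m) × Fin m) F} :
    InM (slotM i M) Z ↔ ∃ y ∈ M, rI i (y : MM) = Z := by
  constructor
  · rintro ⟨z, hz, rfl⟩
    obtain ⟨y, hy, rfl⟩ := Subgroup.mem_map.1 hz
    exact ⟨y, hy, rfl⟩
  · rintro ⟨y, hy, rfl⟩
    exact ⟨_, Subgroup.mem_map.2 ⟨y, hy, rfl⟩, rfl⟩

theorem rI_wm (i : ι) (π : Equiv.Perm ι) (hπ : π i = i) (hπ' : ∀ j, π j ≠ i ↔ j ≠ i)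
    (k : ι → Matrix (Fin m) (Fin m) F) :
    rI i (wm π k : MM) = (wm (π.subtypePerm hπ') fun j => k j.1) ⊗ₖ k i := by
  ext p q
  rw [rI_apply, wm_apply, Matrix.kronecker_apply, wm_apply, ← Finset.prod_erase_mul _ _ (Finset.mem_univ i),
    hπ, eI_symm_self, eI_symm_self]
  congr 1
  rw [Finset.prod_subtype (p := fun j => j ≠ i) (Finset.univ.erase i) (by simp)]
  refine Finset.prod_congr rfl fun j _ => ?_
  rw [eI_symm_ne i p j]
  congr 1
  exact eI_symm_ne i q (π.subtypePerm hπ' j)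

theorem perm_ne_iff {π : Equiv.Perm ι} {i : ι} (hπ : π i = i) (j : ι) : π j ≠ i ↔ j ≠ i := by
  conv_lhs => rw [← hπ]
  exact π.injective.ne_iff

theorem rI_tens (i : ι) (k : ι → Matrix (Fin m) (Fin m) F) :
    rI i (wm 1 k : MM) = (wm 1 fun j : {j : ι // j ≠ i} => k j.1) ⊗ₖ k i := by
  rw [rI_wm i 1 rfl (fun _ => Iff.rfl) k]
  congr 2

theorem rI_sl_self (i : ι) (A : Matrix (Fin m) (Fin m) F) :
    rI i (sl i A : MM) = (1 : Matrix ({j : ι // j ≠ i} → Fin m) ({j : ι // j ≠ i} → Fin m) F) ⊗ₖ A := by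
  rw [sl, rI_tens, Function.update_self, ← wm_one]
  congr 2
  funext j
  rw [Function.update_of_ne j.2]

theorem rI_sl_ne (i : ι) (l : {j : ι // j ≠ i}) (A : Matrix (Fin m) (Fin m) F) :
    rI i (sl l.1 A : MM) = (sl l A) ⊗ₖ (1 : Matrix (Fin m) (Fin m) F) := by
  rw [sl, rI_tens, Function.update_of_ne (Ne.symm l.2), sl]
  congr 2
  funext j
  by_cases h : j = l
  · subst h; simp
  · rw [Function.update_of_ne h, Function.update_of_ne (fun e => h (Subtype.ext e))]

/-- A monomial tensor of the other factors times a factor is monomial. -/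
theorem isWreath_of_kron {i : ι} {X : MM} {K : Matrix ({j : ι // j ≠ i} → Fin m) ({j : ι // j ≠ i} → Fin m) F}
    {h : Matrix (Fin m) (Fin m) F} (hK : IsWreath K) (e : rI i X = K ⊗ₖ h) : IsWreath X := by
  obtain ⟨π, k, rfl⟩ := hK
  refine ⟨Equiv.Perm.ofSubtype π, fun j => if hj : j ≠ i then k ⟨j, hj⟩ else h, (rI i).injective ?_⟩
  have hfix : Equiv.Perm.ofSubtype π i = i := Equiv.Perm.ofSubtype_apply_of_not_mem π (fun h => h rfl)
  rw [e, rI_wm i _ hfix (perm_ne_iff hfix)]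
  simp only [ne_eq, not_true_eq_false, dite_false]
  congr 2
  · refine Equiv.ext fun j => Subtype.ext ?_
    exact (Equiv.Perm.ofSubtype_apply_coe π j).symm
  · funext j
    simp [j.2]

theorem card_others (i : ι) :
    Fintype.card ({j : ι // j ≠ i} → Fin m) = m ^ (Fintype.card ι - 1) := by
  rw [Fintype.card_fun, Fintype.card_fin]
  congr 1
  simp

end Cfsg.Agent.H5.C7
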