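import Mathlib

/-!
Monomial tensors on the tensor power: products of factor matrices followed by a permutation of the factors.
-/

set_option autoImplicit false
set_option linter.unusedSectionVars false

namespace Cfsg.Agent.H5.C7

open Matrix

variable {F : Type*} [Field F] {ι : Type} [Fintype ι] [DecidableEq ι] {m : ℕ}

local notation "MM" => Matrix (ι → Fin m) (ι → Fin m) F

/-- The product of factor matrices followed by the permutation `π` of the factors. -/
def wm (π : Equiv.Perm ι) (k : ι → Matrix (Fin m) (Fin m) F) : Matrix (ι → Fin m) (ι → Fin m) F :=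
  Matrix.of fun f g => ∏ j, k j (f j) (g (π j))

theorem wm_apply (π : Equiv.Perm ι) (k : ι → Matrix (Fin m) (Fin m) F) (f g : ι → Fin m) :
    wm π k f g = ∏ j, k j (f j) (g (π j)) := rfl

theorem wm_mul (π ρ : Equiv.Perm ι) (k l : ι → Matrix (Fin m) (Fin m) F) :
    (wm π k : MM) * wm ρ l = wm (ρ * π) (fun j => k j * l (π j)) := by
  ext f g
  simp only [Matrix.mul_apply, wm_apply, Equiv.Perm.mul_apply]
  rw [Fintype.prod_sum (fun j x => k j (f j) x * l (π j) x (g (ρ (π j))))]
  refine Fintype.sum_equiv (Equiv.arrowCongr π.symm (Equiv.refl _)) _ _ fun h => ?_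
  rw [Finset.prod_mul_distrib, ← Equiv.prod_comp π (fun i => l i (h i) (g (ρ i)))]
  rfl

theorem wm_one : (wm 1 (fun _ => 1) : MM) = 1 := by
  ext f g
  simp only [wm_apply, Equiv.Perm.one_apply, Matrix.one_apply]
  by_cases h : f = g
  · simp [h]
  · obtain ⟨j, hj⟩ := Function.ne_iff.1 h
    rw [if_neg h]
    exact Finset.prod_eq_zero (Finset.mem_univ j) (if_neg hj)

/-- A matrix acting on one factor. -/
def sl (i : ι) (A : Matrix (Fin m) (Fin m) F) : Matrix (ι → Fin m) (ι → Fin m) F :=
  wm 1 (Function.update (fun _ => 1) i A)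

theorem sl_mul (i : ι) (A B : Matrix (Fin m) (Fin m) F) : (sl i A : MM) * sl i B = sl i (A * B) := by
  rw [sl, sl, wm_mul, mul_one, sl]
  congr 1
  funext j
  by_cases h : j = i
  · subst h; simp
  · simp [h]

theorem sl_one (i : ι) : (sl i 1 : MM) = 1 := by
  rw [sl, show Function.update (fun _ : ι => (1 : Matrix (Fin m) (Fin m) F)) i 1 = fun _ => 1 from
    Function.update_eq_self i (fun _ : ι => (1 : Matrix (Fin m) (Fin m) F))]
  exact wm_one

theorem sl_comm {i j : ι} (h : i ≠ j) (A B : Matrix (Fin m) (Fin m) F) : (sl i A : MM) * sl j B = sl j B * sl i A := by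
  rw [sl, sl, wm_mul, wm_mul]
  congr 1
  funext l
  by_cases h1 : l = i
  · subst h1; simp [h]
  · by_cases h2 : l = j
    · subst h2; simp [h1]
    · simp [h1, h2]

theorem sl_apply (i : ι) (A : Matrix (Fin m) (Fin m) F) (f g : ι → Fin m) :
    sl i A f g = if ∀ j, j ≠ i → f j = g j then A (f i) (g i) else 0 := by
  rw [sl, wm_apply, ← Finset.mul_prod_erase _ _ (Finset.mem_univ i)]
  simp only [Equiv.Perm.one_apply, Function.update_self]
  split_ifs with h
  · rw [Finset.prod_eq_one, mul_one]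
    intro j hj
    have hj' := (Finset.mem_erase.1 hj).1
    rw [Function.update_of_ne hj', h j hj', Matrix.one_apply_eq]
  · push Not at h
    obtain ⟨j, hj, hne⟩ := h
    rw [Finset.prod_eq_zero (Finset.mem_erase.2 ⟨hj, Finset.mem_univ j⟩)
      (by rw [Function.update_of_ne hj, Matrix.one_apply_ne hne]), mul_zero]

theorem update_eq_iff_forall {i : ι} {f g : ι → Fin m} {x : Fin m} :
    Function.update f i x = g ↔ x = g i ∧ ∀ j, j ≠ i → f j = g j := by
  rw [Function.update_eq_iff]

theorem sl_add (i : ι) (A B : Matrix (Fin m) (Fin m) F) : (sl i (A + B) : MM) = sl i A + sl i B := by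
  ext f g
  simp only [sl_apply, Matrix.add_apply]
  split_ifs <;> simp

theorem sl_smul (i : ι) (c : F) (A : Matrix (Fin m) (Fin m) F) : (sl i (c • A) : MM) = c • sl i A := by
  ext f g
  simp only [sl_apply, Matrix.smul_apply]
  split_ifs <;> simp

theorem sl_zero (i : ι) : (sl i 0 : MM) = 0 := by
  ext f g
  simp [sl_apply]

theorem wm_mul_inv (π : Equiv.Perm ι) (k l : ι → Matrix (Fin m) (Fin m) F) (h : ∀ j, k j * l j = 1) :
    (wm π k : MM) * wm π⁻¹ (fun i => l (π⁻¹ i)) = 1 := by
  rw [wm_mul, inv_mul_cancel, ← wm_one]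
  congr 1
  funext j
  simp [h j]

/-- The matrices on a pure tensor of vectors. -/
def pv (w : ι → Fin m → F) : (ι → Fin m) → F := fun g => ∏ i, w i (g i)

theorem wm_pv (π : Equiv.Perm ι) (k : ι → Matrix (Fin m) (Fin m) F) (w : ι → Fin m → F) :
    (wm π k : MM) *ᵥ pv w = pv fun j => k j *ᵥ w (π j) := by
  funext f
  simp only [Matrix.mulVec, dotProduct, pv, wm_apply]
  rw [Fintype.prod_sum (fun j x => k j (f j) x * w (π j) x)]
  refine Fintype.sum_equiv (Equiv.arrowCongr π.symm (Equiv.refl _)) _ _ fun h => ?_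
  rw [Finset.prod_mul_distrib, ← Equiv.prod_comp π (fun i => w i (h i))]
  rfl

/-- The factors of an invertible monomial tensor are invertible. -/
theorem wm_factor_unit {π : Equiv.Perm ι} {k : ι → Matrix (Fin m) (Fin m) F} {Y : MM}
    (h : (wm π k : MM) * Y = 1) (hm : 0 < m) (j : ι) : IsUnit (k j).det := by
  rw [isUnit_iff_ne_zero]
  intro h0
  obtain ⟨v, hv, hkv⟩ := (Matrix.exists_mulVec_eq_zero_iff (M := k j)).2 h0
  set w : ι → Fin m → F := Function.update (fun _ => Pi.single ⟨0, hm⟩ 1) (π j) v with hw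
  have h1 : (wm π k : MM) *ᵥ pv w = 0 := by
    rw [wm_pv]
    funext f
    exact Finset.prod_eq_zero (Finset.mem_univ j) (by simp [hw, hkv])
  have h2 : pv w = 0 := by
    rw [← Matrix.one_mulVec (pv w), ← mul_eq_one_comm.1 h, ← Matrix.mulVec_mulVec, h1, Matrix.mulVec_zero]
  obtain ⟨x, hx⟩ := Function.ne_iff.1 hv
  have := congrFun h2 (Function.update (fun _ => ⟨0, hm⟩) (π j) x)
  simp only [pv, Pi.zero_apply, Finset.prod_eq_zero_iff, Finset.mem_univ, true_and] at this
  obtain ⟨i, hi⟩ := this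
  by_cases hij : i = π j
  · subst hij; simp [hw] at hi; exact hx hi
  · simp [hw, hij] at hi

/-- A monomial tensor equal to the identity has trivial permutation and scalar factors. -/
theorem wm_eq_one (hm : 2 ≤ m) {π : Equiv.Perm ι} {k : ι → Matrix (Fin m) (Fin m) F}
    (h : (wm π k : MM) = 1) : π = 1 ∧ ∀ j, ∃ c : F, k j = c • (1 : Matrix (Fin m) (Fin m) F) := by
  have hd : ∀ f : ι → Fin m, ∀ j, k j (f j) (f (π j)) ≠ 0 := by
    intro f j hz
    have := congrFun (congrFun h f) f
    rw [wm_apply, Matrix.one_apply_eq, Finset.prod_eq_zero (Finset.mem_univ j) hz] at this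
    exact zero_ne_one this
  have hoff : ∀ (f : ι → Fin m) (j : ι) (y : Fin m), y ≠ f (π j) → k j (f j) y = 0 := by
    intro f j y hy
    have := congrFun (congrFun h f) (Function.update f (π j) y)
    rw [wm_apply, Matrix.one_apply_ne (fun e => hy (by rw [e, Function.update_self]; )),
      Finset.prod_eq_zero_iff] at this
    obtain ⟨l, -, hl⟩ := this
    by_cases hlj : l = j
    · subst hlj; rwa [Function.update_self] at hl
    · rw [Function.update_of_ne (π.injective.ne hlj)] at hl
      exact absurd hl (hd f l)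
  have hπ : π = 1 := by
    refine Equiv.ext fun j => ?_
    by_contra hne
    rw [Equiv.Perm.one_apply] at hne
    let f : ι → Fin m := fun _ => ⟨0, by omega⟩
    have h1 := hd (Function.update f (π j) ⟨1, by omega⟩) j
    rw [Function.update_of_ne (Ne.symm hne), Function.update_self] at h1
    exact h1 (hoff f j _ (by simp [f, Fin.ext_iff]))
  subst hπ
  refine ⟨rfl, fun j => ⟨k j ⟨0, by omega⟩ ⟨0, by omega⟩, Matrix.ext fun x y => ?_⟩⟩
  rw [Matrix.smul_apply, Matrix.one_apply]
  by_cases hxy : x = y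
  · subst hxy
    rw [if_pos rfl, smul_eq_mul, mul_one]
    have e : ∀ z : Fin m, k j z z * ∏ l ∈ Finset.univ.erase j, k l (⟨0, by omega⟩) (⟨0, by omega⟩) = 1 := by
      intro z
      have := congrFun (congrFun h (Function.update (fun _ => ⟨0, by omega⟩) j z))
        (Function.update (fun _ => ⟨0, by omega⟩) j z)
      rw [wm_apply, Matrix.one_apply_eq, ← Finset.mul_prod_erase _ _ (Finset.mem_univ j)] at this
      simp only [Equiv.Perm.one_apply, Function.update_self] at this
      rw [← this]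
      congr 1
      refine Finset.prod_congr rfl fun l hl => ?_
      rw [Function.update_of_ne (Finset.mem_erase.1 hl).1]
    have := e x
    exact mul_right_cancel₀ (right_ne_zero_of_mul_eq_one (e x)) ((e x).trans (e ⟨0, by omega⟩).symm)
  · rw [if_neg hxy, smul_zero]
    exact hoff (fun _ => x) j y (Ne.symm hxy)

/-- Monomial tensors. -/
def IsWreath (X : Matrix (ι → Fin m) (ι → Fin m) F) : Prop :=
  ∃ (π : Equiv.Perm ι) (k : ι → Matrix (Fin m) (Fin m) F), X = wm π k

theorem IsWreath.mul {X Y : MM} (hX : IsWreath X) (hY : IsWreath Y) : IsWreath (X * Y) := by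
  obtain ⟨π, k, rfl⟩ := hX
  obtain ⟨ρ, l, rfl⟩ := hY
  exact ⟨_, _, wm_mul π ρ k l⟩

theorem IsWreath.of_inv (hm : 0 < m) {X X' : MM} (hX : IsWreath X) (h : X * X' = 1) : IsWreath X' := by
  obtain ⟨π, k, rfl⟩ := hX
  have hu := fun j => wm_factor_unit h hm j
  refine ⟨π⁻¹, fun i => (k (π⁻¹ i))⁻¹, ?_⟩
  calc X' = X' * ((wm π k : MM) * wm π⁻¹ (fun i => (fun j => (k j)⁻¹) (π⁻¹ i))) := by
        rw [wm_mul_inv π k (fun j => (k j)⁻¹) (fun j => Matrix.mul_nonsing_inv _ (hu j)), Matrix.mul_one]
    _ = _ := by rw [← Matrix.mul_assoc, mul_eq_one_comm.1 h, Matrix.one_mul]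

/-- The permutation of an invertible monomial tensor is determined by it. -/
theorem wm_perm_unique (hm : 2 ≤ m) {π ρ : Equiv.Perm ι} {k l : ι → Matrix (Fin m) (Fin m) F} {Y : MM}
    (h : (wm π k : MM) = wm ρ l) (hY : (wm π k : MM) * Y = 1) : π = ρ := by
  have hl := fun j => wm_factor_unit (π := ρ) (k := l) (Y := Y) (by rw [← h]; exact hY) (by omega) j
  have e : (wm π k : MM) * wm ρ⁻¹ (fun i => (fun j => (l j)⁻¹) (ρ⁻¹ i)) = 1 := by
    rw [h, wm_mul_inv ρ l (fun j => (l j)⁻¹) (fun j => Matrix.mul_nonsing_inv _ (hl j))]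
  rw [wm_mul] at e
  exact (inv_mul_eq_one.1 (wm_eq_one hm e).1).symm

end Cfsg.Agent.H5.C7
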