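import Cfsg.Agent.H5.C7.PairGroup

/-!
Over a field with more than two elements all conjugates of transvections of the right factor are pure tensors.
-/

set_option autoImplicit false
set_option linter.unusedSectionVars false

namespace Cfsg.Agent.H5.C7

open Matrix Cfsg.Agent.H99.Tensor
open scoped Kronecker

variable {F : Type*} [Field F] {α : Type} [Fintype α] [DecidableEq α] [Nonempty α] {b : ℕ}
variable {M : Subgroup (GL (α × Fin b) F)}

local notation "Mat" => Matrix (α × Fin b) (α × Fin b) F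

namespace Pair

variable (S : Pair M)

theorem root_pure_iff (H : RF M) (hgood : Good M) {d : F} (hd : d ≠ 0) (h : IsPure (1 + d • S.B)) :
    IsPure (1 + S.B) := by
  have hw : d • S.w ≠ 0 := smul_ne_zero hd S.w_ne
  have e : S.X * lft α (d • S.w) * (rgt α S.η * S.X') = d • S.B := by
    rw [lft_smul, B, P, Q]; simp [Matrix.mul_assoc]
  obtain ⟨K, hK⟩ := H.pure_root hgood hw S.η_ne (by rw [dotProduct_smul, S.ηw, smul_zero]) S.mem S.inv S.np
    (by rw [e]; exact h)
  rw [e] at hK
  refine ⟨1 + d⁻¹ • K, 1, ?_⟩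
  rw [Matrix.add_kronecker, Matrix.one_kronecker_one, Matrix.smul_kronecker, ← hK, smul_smul,
    inv_mul_cancel₀ hd, one_smul]

/-- The pair obtained by conjugating the root group with an element of the conjugate one. -/
def shift (H : RF M) (hgood : Good M) (hnp : ¬ IsPure (1 + S.B)) (d : F) (hd : d ≠ 0) : Pair M where
  v := S.v
  φ := S.φ
  w := S.v
  η := S.φ
  X := 1 + d • S.B
  X' := 1 - d • S.B
  v_ne := S.v_ne
  φ_ne := S.φ_ne
  φv := S.φv
  w_ne := S.v_ne
  η_ne := S.φ_ne
  ηw := S.φv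
  mem := S.inM_B H d
  inv := by rw [mul_sub, mul_one, add_mul, one_mul, Matrix.smul_mul, Matrix.mul_smul, S.B_sq]; simp
  np := fun h => hnp (S.root_pure_iff H hgood hd h)

/-- A vanishing invariant makes the conjugate root element pure. -/
theorem pure_of_x_zero (H : RF M) (hgood : Good M) (hx : S.x = 0) : IsPure (1 + S.B) := by
  have := H.neZero
  have hABA : S.A * S.B * S.A = 0 := by rw [S.ABA, hx, Matrix.mul_zero, Matrix.zero_mul]
  set a := S.A with ha
  set e := S.B with he
  have a2 : a * a = 0 := S.A_sq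
  have e2 : e * e = 0 := S.B_sq
  have mE : InM M (1 + e) := by simpa using S.inM_B H 1
  have mA : InM M (1 + a) := by simpa using S.inM_A H 1
  set c := (1 + a) * (1 + e) * (1 - a) * (1 - e) with hc
  have z1 : ∀ y : Mat, a * (a * y) = 0 := fun y => by rw [← mul_assoc, a2, zero_mul]
  have z2 : ∀ y : Mat, e * (e * y) = 0 := fun y => by rw [← mul_assoc, e2, zero_mul]
  have z3 : ∀ y : Mat, a * (e * (a * y)) = 0 := fun y => by rw [← mul_assoc e, ← mul_assoc, ← mul_assoc, hABA, zero_mul]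
  have z4 : a * (e * a) = 0 := by rw [← mul_assoc, hABA]
  have hcval : c = 1 + a * e - e * a + e * (a * e) := by
    rw [hc]
    simp only [mul_add, add_mul, mul_sub, sub_mul, mul_one, one_mul, mul_assoc, a2, e2, z1, z2, z3, z4,
      mul_zero, sub_zero, add_zero]
    abel
  have hcA : c * a = a := by
    rw [hcval]
    simp only [add_mul, sub_mul, one_mul, mul_assoc, a2, z4, mul_zero, add_zero, sub_zero]
  have hAc : a * c = a := by
    rw [hcval]
    simp only [mul_add, mul_sub, mul_one, z1, z3, z4, add_zero, sub_zero]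
  have hminv : (1 + a) * (1 - a) = 1 := by rw [mul_sub, mul_one, add_mul, one_mul, a2]; simp
  have heinv : (1 + e) * (1 - e) = 1 := by rw [mul_sub, mul_one, add_mul, one_mul, e2]; simp
  have hainv : (1 - a) * (1 + a) = 1 := by rw [mul_add, mul_one, sub_mul, one_mul, a2]; simp
  have hcm : InM M c := ((mA.mul mE).mul (mA.neg a2)).mul (mE.neg e2)
  have hcc : c * ((1 + e) * (1 + a) * (1 - e) * (1 - a)) = 1 := by
    rw [hc]
    calc (1 + a) * (1 + e) * (1 - a) * (1 - e) * ((1 + e) * (1 + a) * (1 - e) * (1 - a))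
        = (1 + a) * (1 + e) * ((1 - a) * (((1 - e) * (1 + e)) * (1 + a))) * ((1 - e) * (1 - a)) := by noncomm_ring
      _ = 1 := by
          rw [show (1 - e) * (1 + e) = 1 from mul_eq_one_comm.1 heinv, one_mul, hainv, mul_one,
            ← mul_assoc, mul_assoc (1 + a), heinv, mul_one, hminv]
  obtain ⟨k, hm, μ, ν, -, -, hμ, -, hce, hmv, -⟩ :=
    H.pure_of_comm hgood S.v_ne S.φ_ne hcm hcc (c := 1) one_ne_zero
      (by rw [one_smul]; exact hcA.trans hAc.symm)
  have hcv : c * lft α S.v = lft α S.v := by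
    have h1 : a * lft α S.v = 0 := S.A_v
    have h2 : a * e * lft α S.v = 0 := by
      have : a * e * lft α S.v = lft α S.v * S.x := by rw [ha, he, A, B, x, C, D]; simp only [Matrix.mul_assoc]
      rw [this, hx, Matrix.mul_zero]
    rw [hcval, Matrix.add_mul, Matrix.sub_mul, Matrix.add_mul, Matrix.one_mul, h2, Matrix.mul_assoc e a, h1,
      Matrix.mul_zero, Matrix.mul_assoc e (a * e), h2, Matrix.mul_zero]
    simp
  have hk : μ • k = 1 := by
    refine lft_injective S.v_ne ?_
    rw [Matrix.mul_smul, ← Matrix.smul_mul, ← lft_smul, ← hmv, ← kron_lft, ← hce, hcv, Matrix.mul_one]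
  -- the conjugate of the root element is in the right factor
  have hk' : (1 + e) * a * (1 - e) =
      (1 : Matrix α α F) ⊗ₖ (1 - (1 + vecMulVec (-S.v) S.φ) * (μ⁻¹ • hm)) := by
    have h1 : (1 : Matrix α α F) ⊗ₖ (μ⁻¹ • hm) = c := by
      rw [hce, Matrix.kronecker_smul, ← Matrix.smul_kronecker, ← hk, smul_smul, inv_mul_cancel₀ hμ, one_smul]
    have h2 : (1 + e) * (1 - a) * (1 - e) = (1 - a) * c := by
      rw [hc, ← mul_assoc, ← mul_assoc, ← mul_assoc, hainv, one_mul]
    have h3 : (1 : Matrix α α F) ⊗ₖ (1 + vecMulVec (-S.v) S.φ) = 1 - a := by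
      rw [← one_add_kron, ha, A, ← neg_one_smul F S.v, lft_smul, Matrix.smul_mul, neg_one_smul, ← sub_eq_add_neg]
    have h4 : (1 + e) * a * (1 - e) = 1 - (1 + e) * (1 - a) * (1 - e) := by
      rw [mul_sub (1 + e) 1 a, mul_one, sub_mul, heinv, sub_sub_cancel]
    rw [h4, h2, ← h3, ← h1, ← Matrix.mul_kronecker_mul, Matrix.one_mul]
    conv_lhs => arg 1; rw [← Matrix.one_kronecker_one (α := F) (m := α) (n := Fin b)]
    ext ⟨i, i'⟩ ⟨j, j'⟩
    by_cases h1 : i = j <;> by_cases h2 : i' = j' <;> simp [mul_sub, Matrix.one_apply, h1, h2]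
  set n := 1 - (1 + vecMulVec (-S.v) S.φ) * (μ⁻¹ • hm)
  have hJK : ((1 + e) * lft α S.v) * (rgt α S.φ * (1 - e)) = (1 : Matrix α α F) ⊗ₖ n := by
    rw [← hk', ha, A]; simp only [Matrix.mul_assoc]
  have hn : n ≠ 0 := by
    intro h0
    rw [h0, Matrix.kronecker_zero] at hk'
    obtain ⟨u0, hu0⟩ := exists_dual' S.φ_ne
    have h5 : a = 0 := by
      have := congrArg (fun z => (1 - e) * z * (1 + e)) hk'
      simpa [← mul_assoc, show (1 - e) * (1 + e) = 1 from mul_eq_one_comm.1 heinv, mul_assoc a] using this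
    refine lft_ne_zero (α := α) S.v_ne ?_
    have := congrArg (· * lft α u0) h5
    simpa [ha, A, Matrix.mul_assoc, rgt_mul_lft, hu0] using this
  obtain ⟨u, g, g', hu, hJ, hgg⟩ := factor_layer hn hJK
  exact H.pure_of_layer hgood S.v_ne hu mE heinv hJ hgg

/-- A nilpotent invariant makes the conjugate root element pure. -/
theorem pure_of_nilpotent (H : RF M) (hgood : Good M) (h3 : ∃ c : F, c ≠ 0 ∧ c ≠ 1) :
    ∀ (j : ℕ) (S : Pair M), S.x ^ 2 ^ j = 0 → IsPure (1 + S.B) := by
  intro j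
  induction j with
  | zero =>
    intro S hS
    exact S.pure_of_x_zero H hgood (by simpa using hS)
  | succ j ih =>
    intro S hS
    by_contra hnp
    have hcf : ∀ (d : F) (hd : d ≠ 0), ∃ K : Matrix α α F,
        S.A + d • (S.B * S.A - S.A * S.B) - (d * d) • (S.B * S.A * S.B) = K ⊗ₖ (1 : Matrix (Fin b) (Fin b) F) := by
      intro d hd
      set S' := S.shift H hgood hnp d hd with hS'
      have hx : S'.x = (-(d * d)) • (S.x * S.x) := by
        have eC : S'.C = d • S.x := by
          change rgt α S.φ * ((1 + d • S.B) * lft α S.v) = _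
          rw [Matrix.add_mul, Matrix.one_mul, Matrix.mul_add, rgt_mul_lft, S.φv, zero_smul, zero_add, x, C, D, B,
            Matrix.smul_mul, Matrix.mul_smul]
          simp only [Matrix.mul_assoc]
        have eD : S'.D = (-d) • S.x := by
          change rgt α S.φ * (1 - d • S.B) * lft α S.v = _
          rw [Matrix.mul_sub, Matrix.mul_one, Matrix.sub_mul, rgt_mul_lft, S.φv, zero_smul, zero_sub, x, C, D, B,
            Matrix.mul_smul, Matrix.smul_mul, neg_smul]
          simp only [Matrix.mul_assoc]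
        rw [x, eC, eD, Matrix.smul_mul, Matrix.mul_smul, smul_smul]
        congr 1
        ring
      have h1 := ih S' (by rw [hx, smul_pow, ← pow_two S.x, ← pow_mul, ← pow_succ', hS, smul_zero])
      obtain ⟨K, hK⟩ := H.pure_root hgood (w := S'.w) S.v_ne S.φ_ne S.φv S'.mem S'.inv S'.np h1
      refine ⟨K, ?_⟩
      rw [← hK]
      change _ = (1 + d • S.B) * lft α S.v * (rgt α S.φ * (1 - d • S.B))
      rw [Matrix.mul_assoc (1 + d • S.B), ← Matrix.mul_assoc (lft α S.v)]
      change _ = (1 + d • S.B) * (S.A * (1 - d • S.B))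
      simp only [add_mul, mul_sub, one_mul, mul_one, smul_mul_assoc, mul_smul_comm, mul_assoc, smul_sub, smul_smul]
      module
    by_cases h2 : (2 : F) = 0
    · obtain ⟨c, hc0, hc1⟩ := h3
      have hc2 : c + 1 ≠ 0 := fun h => hc1 (by linear_combination h - h2)
      obtain ⟨K1, e1⟩ := hcf 1 one_ne_zero
      obtain ⟨K2, e2⟩ := hcf c hc0
      obtain ⟨K3, e3⟩ := hcf (c + 1) hc2
      have hA : S.A = (K1 + K2 + K3) ⊗ₖ (1 : Matrix (Fin b) (Fin b) F) := by
        rw [Matrix.add_kronecker, Matrix.add_kronecker, ← e1, ← e2, ← e3]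
        match_scalars
        all_goals
          first
          | linear_combination h2
          | linear_combination -h2
          | linear_combination (c + 1) * h2
          | linear_combination -(c + 1) * h2
          | linear_combination (c * c + c + 1) * h2
          | linear_combination -(c * c + c + 1) * h2
      have hz := S.A_v
      rw [hA, kron_lft, Matrix.one_mulVec] at hz
      have hK : K1 + K2 + K3 = 0 := lft_injective S.v_ne (hz.trans (Matrix.mul_zero _).symm)
      rw [hK, Matrix.zero_kronecker] at hA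
      obtain ⟨u0, hu0⟩ := exists_dual' S.φ_ne
      refine lft_ne_zero (α := α) S.v_ne ?_
      have := congrArg (· * lft α u0) hA
      simpa [A, Matrix.mul_assoc, rgt_mul_lft, hu0] using this
    · obtain ⟨K1, e1⟩ := hcf 1 one_ne_zero
      obtain ⟨K2, e2⟩ := hcf (-1) (neg_ne_zero.2 one_ne_zero)
      set U := S.B * S.A - S.A * S.B with hU
      have hUK : U = ((2 : F)⁻¹ • (K1 - K2)) ⊗ₖ (1 : Matrix (Fin b) (Fin b) F) := by
        have : (2 : F) • U = (K1 - K2) ⊗ₖ (1 : Matrix (Fin b) (Fin b) F) := by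
          rw [sub_eq_add_neg K1, Matrix.add_kronecker, ← neg_one_smul F K2, Matrix.smul_kronecker, ← e1, ← e2]
          module
        rw [Matrix.smul_kronecker, ← this, smul_smul, inv_mul_cancel₀ h2, one_smul]
      have hcomm : U * S.A = S.A * U := by
        rw [hUK, A, lft_mul_rgt, ← Matrix.mul_kronecker_mul, ← Matrix.mul_kronecker_mul, Matrix.one_mul,
          Matrix.one_mul, Matrix.mul_one, Matrix.mul_one]
      rw [hU, sub_mul, mul_sub, mul_assoc S.B, S.A_sq, mul_zero, zero_sub, ← mul_assoc S.A S.A, S.A_sq, zero_mul,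
        sub_zero, ← mul_assoc] at hcomm
      have hABA : (2 : F) • (S.A * S.B * S.A) = 0 := by
        rw [two_smul]; nth_rw 2 [← hcomm]; rw [add_neg_cancel]
      have hABA' := (smul_eq_zero.1 hABA).resolve_left h2
      rw [S.ABA, Matrix.mul_assoc] at hABA'
      have h4 : S.x * rgt α S.φ = 0 := lft_injective S.v_ne (hABA'.trans (Matrix.mul_zero _).symm)
      exact hnp (S.pure_of_x_zero H hgood (rgt_injective S.φ_ne (h4.trans (Matrix.zero_mul _).symm)))

variable [Finite F]

/-- Over a field with more than two elements the invariant is nilpotent. -/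
theorem nilpotent_of_three (H : RF M) (hgood : Good M) (h3 : ∃ c : F, c ≠ 0 ∧ c + 1 ≠ 0) :
    IsNilpotent S.x := by
  classical
  have := H.neZero
  obtain ⟨p, hp⟩ := CharP.exists F
  have : Fact p.Prime := ⟨CharP.char_is_prime F p⟩
  obtain ⟨N, hN, hid⟩ := exists_pow_idem S.T
  obtain ⟨O, hO1, hOcop, hOconj, hOfix, hOall, hOQ⟩ := S.complement p H hgood hN hid
  refine S.nilpotent_of_trivial p H fun y hy hc => ?_
  by_contra hy1
  obtain ⟨o, ho, ho1⟩ : ∃ o ∈ O, o ≠ 1 := ⟨y, hOall y hy hc, hy1⟩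
  obtain ⟨c, hc0, hc1⟩ := h3
  set s := c + 1
  set o' := o * S.Ru 1 * o⁻¹ with ho'
  have hG : ∀ z ∈ O, z ∈ S.G := fun z hz => (hO1 hz).1
  have hz : (S.Ru 1)⁻¹ * o * S.Ru 1 * o⁻¹ ∈ O := by
    refine mul_mem ?_ (inv_mem ho)
    have := hOconj o ho (-1)
    rwa [S.Ru_inv, neg_neg, ← S.Ru_inv] at this
  -- every element of the coset is a conjugate
  let f : O → O := fun z => ⟨(S.Ru s)⁻¹ * z * S.Ru s * (z : GL (α × Fin b) F)⁻¹, by
    refine mul_mem ?_ (inv_mem z.2)
    have := hOconj z z.2 (-s)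
    rwa [S.Ru_inv, neg_neg, ← S.Ru_inv] at this⟩
  have hf : Function.Injective f := by
    intro z z' h
    have h' : (S.Ru s)⁻¹ * (z : GL (α × Fin b) F) * S.Ru s * (z : GL (α × Fin b) F)⁻¹ =
        (S.Ru s)⁻¹ * z' * S.Ru s * (z' : GL (α × Fin b) F)⁻¹ := congrArg Subtype.val h
    have h'' : ((z' : GL (α × Fin b) F)⁻¹ * z) * S.Ru s = S.Ru s * ((z' : GL (α × Fin b) F)⁻¹ * z) := by
      have := congrArg (fun t => (z' : GL (α × Fin b) F)⁻¹ * S.Ru s * t * z) h'
      simpa [mul_assoc] using this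
    have := hOfix _ (mul_mem (inv_mem z'.2) z.2) s hc1 h''
    exact Subtype.ext (inv_mul_eq_one.1 this).symm
  obtain ⟨o1, ho1'⟩ := (Finite.injective_iff_surjective.1 hf) ⟨_, hz⟩
  have ho1e := congrArg Subtype.val ho1'
  simp only [f] at ho1e
  have hg : S.Ru c * o' = (o1 : GL (α × Fin b) F) * S.Ru s * (o1 : GL (α × Fin b) F)⁻¹ := by
    calc S.Ru c * o' = S.Ru s * ((S.Ru 1)⁻¹ * o * S.Ru 1 * o⁻¹) := by
          rw [ho', show S.Ru s = S.Ru c * S.Ru 1 from (S.Ru_mul c 1).symm]; group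
      _ = _ := by rw [← ho1e]; group
  have hgp : (S.Ru c * o') ^ p = 1 := by
    rw [hg, conj_pow, S.Ru_pow, CharP.cast_eq_zero, zero_mul, S.Ru_zero, mul_one, mul_inv_cancel]
  set a' : Mat := (o : Mat) * S.A * ((o⁻¹ : GL (α × Fin b) F) : Mat) with ha'
  have a'2 : a' * a' = 0 := by
    rw [ha', show (o : Mat) * S.A * ((o⁻¹ : GL (α × Fin b) F) : Mat) * ((o : Mat) * S.A * ((o⁻¹ : GL (α × Fin b) F) : Mat))
      = (o : Mat) * S.A * (((o⁻¹ : GL (α × Fin b) F) : Mat) * (o : Mat)) * S.A * ((o⁻¹ : GL (α × Fin b) F) : Mat) by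
        simp only [mul_assoc], Units.inv_mul, mul_one, mul_assoc (o : Mat) S.A S.A, S.A_sq, mul_zero, zero_mul]
  have hcA2 : c • S.A * (c • S.A) = 0 := by rw [Matrix.smul_mul, Matrix.mul_smul, S.A_sq, smul_zero, smul_zero]
  have ho'v : (o' : Mat) = 1 + a' := by
    rw [ho', Units.val_mul, Units.val_mul, S.Ru_val, one_smul, mul_add, mul_one, add_mul, Units.mul_inv, ha']
  have hTh : IsNilpotent (Th S.A a') := by
    have h1 : ((1 + c • S.A) * (1 + a') - 1) ^ p = 0 := by
      have e : ((1 + c • S.A) * (1 + a') : Mat) = ((S.Ru c * o' : GL (α × Fin b) F) : Mat) := by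
        rw [Units.val_mul, S.Ru_val, ho'v]
      rw [e]
      have := nilpotent_of_one_pow (R := Mat) p (r := 1)
        (g := ((S.Ru c * o' : GL (α × Fin b) F) : Mat)) (by rw [pow_one, ← Units.val_pow_eq_pow_val, hgp, Units.val_one])
      rwa [pow_one] at this
    obtain ⟨k, hk⟩ := nilpotent_of_pair hcA2 a'2 h1
    refine ⟨k, ?_⟩
    have : Th (c • S.A) a' = c • Th S.A a' := by
      rw [Th, Th, Matrix.smul_mul, Matrix.mul_smul, smul_add]
    rw [this, smul_pow] at hk
    exact (smul_eq_zero.1 hk).resolve_left (pow_ne_zero _ hc0)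
  set L := Subgroup.closure ({S.Ru 1, o'} : Set (GL (α × Fin b) F))
  have hLsh : L ≤ shSub S.A a' S.A_sq a'2 := by
    refine (Subgroup.closure_le _).2 ?_
    rintro _ (rfl | rfl)
    · exact Sh.left 1
    · change Sh F S.A a' _
      rw [ho'v]; simpa using (Sh.right (A := S.A) (B := a') (1 : F))
  have hLp : IsPGroup p L := by
    rintro ⟨l, hl⟩
    obtain ⟨ff, hff, hsq⟩ := Sh.sq S.A_sq a'2 (hLsh hl)
    obtain ⟨k, hk⟩ := hTh
    have : IsNilpotent ((l : Mat) - 1) := ⟨2 * k, by rw [pow_mul, pow_two, hsq, hff.symm.mul_pow, hk, zero_mul]⟩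
    obtain ⟨r, hr⟩ := one_pow_of_nilpotent p this
    exact ⟨r, Subtype.ext (Units.ext (by simpa using hr))⟩
  have hR : ∀ d, S.Ru d ∈ S.K H N := fun d => ⟨1, one_mem _, _, ⟨d, rfl⟩, (one_mul _).symm⟩
  have hLK : L ≤ S.K H N := by
    refine (Subgroup.closure_le _).2 ?_
    rintro _ (rfl | rfl)
    · exact hR 1
    · refine ⟨o * (S.Ru 1 * o⁻¹ * (S.Ru 1)⁻¹), mul_mem (hO1 ho) (hO1 (hOconj _ (inv_mem ho) 1)), S.Ru 1,
        ⟨1, rfl⟩, ?_⟩
      rw [ho']; group
  have hcomm := hOQ L hLK hLp (S.Ru 1) (Subgroup.subset_closure (by simp)) o' (Subgroup.subset_closure (by simp))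
  set zc := (S.Ru 1)⁻¹ * o * S.Ru 1 * o⁻¹ with hzc
  have hz1 : zc * S.Ru 1 = S.Ru 1 * zc := by
    have hze : zc = (S.Ru 1)⁻¹ * o' := by rw [hzc, ho']; group
    rw [hze, mul_assoc, ← hcomm]; group
  have h5 := hOfix zc hz 1 one_ne_zero hz1
  refine ho1 (hOfix o ho 1 one_ne_zero ?_)
  have h6 := congrArg (fun t => S.Ru 1 * t * o) h5
  simpa [hzc, mul_assoc] using h6

end Pair

/-- Over a field with more than two elements all conjugates of transvections of the right factor are pure. -/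
theorem RF.root_pure_three [Finite F] (H : RF M) (hgood : Good M) (h3 : ∃ c : F, c ≠ 0 ∧ c ≠ 1)
    (h3' : ∃ c : F, c ≠ 0 ∧ c + 1 ≠ 0) (S : Pair M) : IsPure (1 + S.B) := by
  obtain ⟨k, hk⟩ := S.nilpotent_of_three H hgood h3'
  exact Pair.pure_of_nilpotent H hgood h3 k S
    (pow_eq_zero_of_le (Nat.lt_two_pow_self).le hk)

end Cfsg.Agent.H5.C7
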